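import Cfsg.Prelude.Def_Sporadic_a

set_option autoImplicit false

namespace Cfsg.Agent.Lib.Helper8.AG

open Cfsg Finset

abbrev P24 := Fin 24

theorem z2_cases (x : ZMod 2) : x = 0 ∨ x = 1 := by
  revert x; decide

theorem supp_add (v w : P24 → ZMod 2) :
    support₂ (v + w) = symmDiff (support₂ v) (support₂ w) := by
  ext p
  simp only [support₂, Finset.mem_filter, Finset.mem_univ, true_and, Finset.mem_symmDiff,
    Pi.add_apply]
  rcases z2_cases (v p) with h | h <;> rcases z2_cases (w p) with h' | h' <;>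
    simp [h, h'] <;> decide

theorem supp_inj : Function.Injective (support₂ : (P24 → ZMod 2) → Finset P24) := by
  intro v w h
  funext p
  have h1 : p ∈ support₂ v ↔ p ∈ support₂ w := by rw [h]
  simp only [support₂, Finset.mem_filter, Finset.mem_univ, true_and] at h1
  rcases z2_cases (v p) with hv | hv <;> rcases z2_cases (w p) with hw | hw <;>
    simp [hv, hw] at h1 ⊢

theorem card_symmDiff_le (a b : Finset P24) : (symmDiff a b).card ≤ a.card + b.card := by
  refine le_trans (Finset.card_le_card ?_) (Finset.card_union_le a b)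
  intro x hx
  rw [Finset.mem_symmDiff] at hx
  rw [Finset.mem_union]
  tauto

section
variable (C : Submodule (ZMod 2) (P24 → ZMod 2))

local notation "SC" => supports (C : Set (P24 → ZMod 2))

theorem SC_add {a b : Finset P24} (ha : a ∈ SC) (hb : b ∈ SC) : symmDiff a b ∈ SC := by
  obtain ⟨v, hv, rfl⟩ := ha
  obtain ⟨w, hw, rfl⟩ := hb
  exact ⟨v + w, C.add_mem hv hw, supp_add v w⟩

theorem SC_min (hmin : ∀ w ∈ C, w ≠ 0 → 8 ≤ hammingNorm w) {a : Finset P24} (ha : a ∈ SC)
    (h : a.card < 8) : a = ∅ := by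
  obtain ⟨v, hv, rfl⟩ := ha
  by_contra hne
  have hv0 : v ≠ 0 := by
    rintro rfl
    apply hne
    simp [support₂]
  have := hmin v hv hv0
  have e : hammingNorm v = (support₂ v).card := rfl
  omega

theorem SC_eq (hmin : ∀ w ∈ C, w ≠ 0 → 8 ≤ hammingNorm w) {a b : Finset P24} (ha : a ∈ SC)
    (hb : b ∈ SC) (h : (symmDiff a b).card < 8) : a = b :=
  symmDiff_eq_bot.mp (SC_min C hmin (SC_add C ha hb) h)

open Classical in
noncomputable def SCf : Finset (Finset P24) := univ.filter (fun a => a ∈ SC)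

theorem mem_SCf {a : Finset P24} : a ∈ SCf C ↔ a ∈ SC := by simp [SCf]

theorem card_SCf (hdim : Module.finrank (ZMod 2) C = 12) : (SCf C).card = 4096 := by
  have h1 : Nat.card C = 4096 := by
    rw [Module.natCard_eq_pow_finrank (K := ZMod 2), hdim, Nat.card_zmod]
    norm_num
  rw [← h1, ← Set.ncard_coe_finset]
  have : (↑(SCf C) : Set (Finset P24)) = support₂ '' (C : Set (P24 → ZMod 2)) := by
    ext a
    simp only [Finset.mem_coe, mem_SCf]
    rfl
  rw [this, Set.ncard_image_of_injective _ supp_inj]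
  rfl

end

/-- the error patterns: at most three points, avoiding `p` -/
def Err (p : P24) : Finset (Finset P24) :=
  (range 4).biUnion (fun i => powersetCard i (univ.erase p))

theorem mem_Err {p : P24} {e : Finset P24} : e ∈ Err p ↔ p ∉ e ∧ e.card ≤ 3 := by
  simp only [Err, mem_biUnion, mem_range, mem_powersetCard]
  constructor
  · rintro ⟨i, hi, h1, h2⟩
    exact ⟨fun hp => (mem_erase.mp (h1 hp)).1 rfl, by omega⟩
  · rintro ⟨h1, h2⟩
    refine ⟨e.card, by omega, ?_, rfl⟩
    intro x hx
    exact mem_erase.mpr ⟨fun h => h1 (h ▸ hx), mem_univ _⟩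

theorem card_Err (p : P24) : (Err p).card = 2048 := by
  rw [Err, card_biUnion]
  · simp only [card_powersetCard, card_erase_of_mem (mem_univ p), card_univ, Fintype.card_fin]
    decide
  · intro i _ j _ hij
    rw [Function.onFun, disjoint_left]
    intro e h1 h2
    exact hij ((mem_powersetCard.mp h1).2.symm.trans (mem_powersetCard.mp h2).2)

theorem cover (C : Submodule (ZMod 2) (P24 → ZMod 2)) (hdim : Module.finrank (ZMod 2) C = 12)
    (hmin : ∀ w ∈ C, w ≠ 0 → 8 ≤ hammingNorm w) (p : P24) (T : Finset P24) (hT : p ∉ T) :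
    ∃ c ∈ supports (C : Set (P24 → ZMod 2)), ∃ e, p ∉ e ∧ e.card ≤ 3 ∧
      (symmDiff c e).erase p = T := by
  classical
  set Φ : Finset P24 × Finset P24 → Finset P24 := fun x => (symmDiff x.1 x.2).erase p with hΦ
  have hinj : Set.InjOn Φ (↑(SCf C ×ˢ Err p) : Set (Finset P24 × Finset P24)) := by
    rintro ⟨c, e⟩ h1 ⟨c', e'⟩ h2 h
    simp only [coe_product, Set.mem_prod, mem_coe, mem_SCf, mem_Err] at h1 h2
    obtain ⟨hc, hpe, he⟩ := h1
    obtain ⟨hc', hpe', he'⟩ := h2
    have hsub : symmDiff (symmDiff c e) (symmDiff c' e') ⊆ {p} := by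
      intro x hx
      rw [mem_singleton]
      by_contra hxp
      have h3 : x ∈ (symmDiff c e).erase p ↔ x ∈ (symmDiff c' e').erase p := by
        have h' : (symmDiff c e).erase p = (symmDiff c' e').erase p := h
        rw [h']
      simp only [mem_erase, ne_eq, hxp, not_false_eq_true, true_and] at h3
      rw [mem_symmDiff] at hx
      tauto
    have hcc : c = c' := by
      apply SC_eq C hmin hc hc'
      have e1 : symmDiff c c' = symmDiff (symmDiff (symmDiff c e) (symmDiff c' e'))
          (symmDiff e e') := by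
        rw [symmDiff_symmDiff_symmDiff_comm c e c' e', symmDiff_symmDiff_cancel_right]
      rw [e1]
      have h4 := card_symmDiff_le (symmDiff (symmDiff c e) (symmDiff c' e')) (symmDiff e e')
      have h5 := card_symmDiff_le e e'
      have h6 := card_le_card hsub
      rw [card_singleton] at h6
      omega
    subst hcc
    have hee : e = e' := by
      rw [symmDiff_symmDiff_symmDiff_comm, symmDiff_self, bot_symmDiff] at hsub
      apply symmDiff_eq_bot.mp
      rw [bot_eq_empty, eq_empty_iff_forall_notMem]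
      intro x hx
      have hxp := mem_singleton.mp (hsub hx)
      rw [hxp, mem_symmDiff] at hx
      tauto
    rw [hee]
  have hsub : (SCf C ×ˢ Err p).image Φ ⊆ (univ.erase p).powerset := by
    intro x hx
    obtain ⟨y, _, rfl⟩ := mem_image.mp hx
    rw [mem_powerset]
    exact erase_subset_erase _ (subset_univ _)
  have hcard : ((univ.erase p : Finset P24).powerset).card ≤ ((SCf C ×ˢ Err p).image Φ).card := by
    rw [card_image_of_injOn hinj, card_product, card_SCf C hdim, card_Err, card_powerset,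
      card_erase_of_mem (mem_univ p), card_univ, Fintype.card_fin]
    norm_num
  have heq := eq_of_subset_of_card_le hsub hcard
  have hTm : T ∈ (univ.erase p : Finset P24).powerset := by
    rw [mem_powerset]
    intro x hx
    exact mem_erase.mpr ⟨fun h => hT (h ▸ hx), mem_univ _⟩
  rw [← heq] at hTm
  obtain ⟨⟨c, e⟩, hce, hΦce⟩ := mem_image.mp hTm
  rw [mem_product, mem_SCf, mem_Err] at hce
  exact ⟨c, hce.1, e, hce.2.1, hce.2.2, hΦce⟩

theorem exists_block (C : Submodule (ZMod 2) (P24 → ZMod 2))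
    (hdim : Module.finrank (ZMod 2) C = 12)
    (hmin : ∀ w ∈ C, w ≠ 0 → 8 ≤ hammingNorm w) (S : Finset P24) (hS : S.card = 5) :
    ∃ c ∈ supports (C : Set (P24 → ZMod 2)), c.card = 8 ∧ S ⊆ c := by
  obtain ⟨p, hp⟩ := card_pos.mp (by rw [hS]; norm_num : 0 < S.card)
  have hT4 : (S.erase p).card = 4 := by rw [card_erase_of_mem hp, hS]
  obtain ⟨c, hc, e, hpe, he3, hX⟩ := cover C hdim hmin p (S.erase p) (notMem_erase p S)
  have hXS : symmDiff c e ⊆ S := by
    have h1 : symmDiff c e ⊆ insert p (S.erase p) := by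
      rw [subset_insert_iff, hX]
    rwa [insert_erase hp] at h1
  have hcsub : c ⊆ symmDiff c e ∪ e := by
    intro x hx
    rw [mem_union, mem_symmDiff]
    by_cases hxe : x ∈ e
    · exact Or.inr hxe
    · exact Or.inl (Or.inl ⟨hx, hxe⟩)
  have hc0 : c ≠ ∅ := by
    rintro rfl
    rw [← bot_eq_empty, bot_symmDiff, erase_eq_of_notMem hpe] at hX
    rw [← hX] at hT4
    omega
  have hc8 : 8 ≤ c.card := by
    by_contra h
    exact hc0 (SC_min C hmin hc (by omega))
  have h1 := card_le_card hcsub
  have h2 := card_union_le (symmDiff c e) e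
  have h3 := card_le_card hXS
  rw [hS] at h3
  have hXeq : symmDiff c e = S := eq_of_subset_of_card_le hXS (by rw [hS]; omega)
  have hceq : c = symmDiff c e ∪ e := eq_of_subset_of_card_le hcsub (by omega)
  refine ⟨c, hc, by omega, ?_⟩
  rw [hceq, hXeq]
  exact subset_union_left

theorem abs_golay (C : Submodule (ZMod 2) (P24 → ZMod 2))
    (hdim : Module.finrank (ZMod 2) C = 12)
    (hmin : ∀ w ∈ C, w ≠ 0 → 8 ≤ hammingNorm w) :
    (∃ w ∈ C, hammingNorm w = 8) ∧
      IsSteinerSystem 5 8 (wordsOfWeight (C : Set (P24 → ZMod 2)) 8) := by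
  constructor
  · obtain ⟨S, -, hS⟩ := exists_subset_card_eq
      (by rw [card_univ, Fintype.card_fin]; norm_num : 5 ≤ (univ : Finset P24).card)
    obtain ⟨c, ⟨w, hw, rfl⟩, h8, -⟩ := exists_block C hdim hmin S hS
    exact ⟨w, hw, h8⟩
  · refine ⟨fun b hb => hb.2, fun S hS => ?_⟩
    obtain ⟨c, hc, h8, hSc⟩ := exists_block C hdim hmin S hS
    refine ⟨c, ⟨⟨hc, h8⟩, hSc⟩, ?_⟩
    rintro c' ⟨⟨hc', h8'⟩, hSc'⟩
    apply SC_eq C hmin hc' hc
    rw [symmDiff_def, sup_eq_union]
    have h1 := card_union_le (c' \ c) (c \ c')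
    have h2 : (c' \ c).card ≤ 3 := by
      refine le_trans (card_le_card (sdiff_subset_sdiff (subset_refl _) hSc)) ?_
      rw [card_sdiff_of_subset hSc', h8', hS]
    have h3 : (c \ c').card ≤ 3 := by
      refine le_trans (card_le_card (sdiff_subset_sdiff (subset_refl _) hSc')) ?_
      rw [card_sdiff_of_subset hSc, h8, hS]
    omega

end Cfsg.Agent.Lib.Helper8.AG
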