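import Cfsg.Agent.Lib.Helper8.AbsGolay

set_option autoImplicit false

namespace Cfsg.Agent.Lib.Helper8.AG

open Cfsg Finset

theorem norm_eq (w : P24 → ZMod 2) : hammingNorm w = (support₂ w).card := rfl

theorem add_self_fn (o : P24 → ZMod 2) : o + o = 0 := by
  funext p
  simp only [Pi.add_apply, Pi.zero_apply, CharTwo.add_self_eq_zero]

theorem span_oct (C : Submodule (ZMod 2) (P24 → ZMod 2))
    (hdim : Module.finrank (ZMod 2) C = 12)
    (hmin : ∀ w ∈ C, w ≠ 0 → 8 ≤ hammingNorm w) :
    Submodule.span (ZMod 2) {w : P24 → ZMod 2 | w ∈ C ∧ hammingNorm w = 8} = C := by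
  apply le_antisymm
  · rw [Submodule.span_le]
    intro w hw
    exact hw.1
  · have key : ∀ n, ∀ w ∈ C, hammingNorm w = n →
        w ∈ Submodule.span (ZMod 2) {w : P24 → ZMod 2 | w ∈ C ∧ hammingNorm w = 8} := by
      intro n
      induction n using Nat.strong_induction_on with
      | _ n ih =>
        intro w hw hn
        by_cases h0 : w = 0
        · rw [h0]; exact Submodule.zero_mem _
        · have h8 := hmin w hw h0
          rw [norm_eq] at h8 hn
          obtain ⟨S, hSw, hS⟩ := exists_subset_card_eq (by omega : 5 ≤ (support₂ w).card)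
          obtain ⟨c, ⟨o, ho, rfl⟩, hc8, hSc⟩ := exists_block C hdim hmin S hS
          have hlt : hammingNorm (w + o) < n := by
            rw [norm_eq, supp_add, symmDiff_def, sup_eq_union]
            have h1 := card_union_le (support₂ w \ support₂ o) (support₂ o \ support₂ w)
            have h2 : (support₂ w \ support₂ o).card ≤ (support₂ w).card - 5 := by
              refine le_trans (card_le_card (sdiff_subset_sdiff (subset_refl _) hSc)) ?_
              rw [card_sdiff_of_subset hSw, hS]
            have h3 : (support₂ o \ support₂ w).card ≤ 3 := by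
              refine le_trans (card_le_card (sdiff_subset_sdiff (subset_refl _) hSw)) ?_
              rw [card_sdiff_of_subset hSc, hc8, hS]
            omega
          have h1 := ih _ hlt (w + o) (C.add_mem hw ho) rfl
          have h2 : o ∈ Submodule.span (ZMod 2)
              {w : P24 → ZMod 2 | w ∈ C ∧ hammingNorm w = 8} :=
            Submodule.subset_span ⟨ho, hc8⟩
          have h3 := Submodule.add_mem _ h1 h2
          rwa [add_assoc, add_self_fn, add_zero] at h3
    intro w hw
    exact key _ w hw rfl

theorem dot_eq_card (v w : P24 → ZMod 2) :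
    ∑ i, v i * w i = ((support₂ v ∩ support₂ w).card : ZMod 2) := by
  have : support₂ v ∩ support₂ w = univ.filter (fun i => v i * w i ≠ 0) := by
    ext p
    simp only [support₂, mem_inter, mem_filter, mem_univ, true_and, ne_eq, mul_eq_zero, not_or]
  rw [this, card_filter, Nat.cast_sum]
  apply sum_congr rfl
  intro p _
  rcases z2_cases (v p * w p) with h | h <;> simp [h]

theorem card_symmDiff_eq (a b : Finset P24) :
    (symmDiff a b).card + 2 * (a ∩ b).card = a.card + b.card := by
  rw [symmDiff_def, sup_eq_union, card_union_of_disjoint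
    (disjoint_of_subset_right sdiff_subset sdiff_disjoint)]
  have h1 := card_sdiff_add_card_inter a b
  have h2 := card_sdiff_add_card_inter b a
  rw [inter_comm b a] at h2
  omega

theorem doubly_even (C : Submodule (ZMod 2) (P24 → ZMod 2))
    (hdim : Module.finrank (ZMod 2) C = 12)
    (horth : ∀ v ∈ C, ∀ w ∈ C, ∑ i, v i * w i = 0)
    (hmin : ∀ w ∈ C, w ≠ 0 → 8 ≤ hammingNorm w) : ∀ w ∈ C, 4 ∣ hammingNorm w := by
  intro w hw
  have hw' := hw
  rw [← span_oct C hdim hmin] at hw'
  have key : w ∈ C ∧ 4 ∣ hammingNorm w := by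
    refine Submodule.span_induction (p := fun w _ => w ∈ C ∧ 4 ∣ hammingNorm w) ?_ ?_ ?_ ?_ hw'
    · intro x hx
      exact ⟨hx.1, by rw [hx.2]; norm_num⟩
    · exact ⟨C.zero_mem, by simp⟩
    · rintro x y _ _ ⟨hx, hx4⟩ ⟨hy, hy4⟩
      refine ⟨C.add_mem hx hy, ?_⟩
      rw [norm_eq] at *
      rw [supp_add]
      have h1 := card_symmDiff_eq (support₂ x) (support₂ y)
      have h2 := horth x hx y hy
      rw [dot_eq_card, ZMod.natCast_eq_zero_iff_even] at h2
      obtain ⟨k, hk⟩ := h2
      omega
    · rintro a x _ ⟨hx, hx4⟩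
      rcases z2_cases a with h | h
      · rw [h, zero_smul]; exact ⟨C.zero_mem, by simp⟩
      · rw [h, one_smul]; exact ⟨hx, hx4⟩
  exact key.2

end Cfsg.Agent.Lib.Helper8.AG
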