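import Cfsg.Agent.Lib.Helper8.AbsGolay2

set_option autoImplicit false

namespace Cfsg.Agent.Lib.Helper8.AG

open Cfsg Finset

section
variable (C : Submodule (ZMod 2) (P24 → ZMod 2))

/-- the light words of a coset -/
def Ld (s : Finset P24) : Set (Finset P24) :=
  {v | symmDiff v s ∈ supports (C : Set (P24 → ZMod 2)) ∧ v.card ≤ 4}

variable (hdim : Module.finrank (ZMod 2) C = 12)
  (hmin : ∀ w ∈ C, w ≠ 0 → 8 ≤ hammingNorm w)

include hdim hmin in
theorem Ld_nonempty (s : Finset P24) : ∃ v, v ∈ Ld C s := by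
  obtain ⟨c, hc, e, hpe, he3, hX⟩ := cover C hdim hmin 0 (s.erase 0) (notMem_erase 0 s)
  refine ⟨symmDiff s c, ?_, ?_⟩
  · rw [symmDiff_comm, symmDiff_symmDiff_cancel_left]; exact hc
  · have hsub : symmDiff s c ⊆ insert 0 e := by
      intro x hx
      rw [mem_insert]
      by_cases hx0 : x = 0
      · exact Or.inl hx0
      · right
        have h3 : x ∈ (symmDiff c e).erase 0 ↔ x ∈ s.erase 0 := by rw [hX]
        simp only [mem_erase, ne_eq, hx0, not_false_eq_true, true_and, mem_symmDiff] at h3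
        rw [mem_symmDiff] at hx
        tauto
    have h1 := card_le_card hsub
    have h2 := card_insert_le 0 e
    omega

include hmin in
theorem Ld_pair {s v v' : Finset P24} (hv : v ∈ Ld C s) (hv' : v' ∈ Ld C s) (hne : v ≠ v') :
    v.card = 4 ∧ v'.card = 4 ∧ Disjoint v v' := by
  have h1 : symmDiff v v' ∈ supports (C : Set (P24 → ZMod 2)) := by
    have := SC_add C hv.1 hv'.1
    rwa [symmDiff_symmDiff_symmDiff_comm, symmDiff_self, symmDiff_bot] at this
  have h2 : ¬ (symmDiff v v').card < 8 := by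
    intro h
    exact hne (symmDiff_eq_bot.mp (SC_min C hmin h1 h))
  have h3 := card_symmDiff_eq v v'
  have h4 := hv.2
  have h5 := hv'.2
  refine ⟨by omega, by omega, ?_⟩
  rw [disjoint_iff_inter_eq_empty, ← card_eq_zero]
  omega

include hdim hmin in
theorem Ld_cover {s v : Finset P24} (hv : v ∈ Ld C s) (h4 : v.card = 4) (p : P24) :
    ∃ v' ∈ Ld C s, p ∈ v' := by
  by_cases hp : p ∈ v
  · exact ⟨v, hv, hp⟩
  · obtain ⟨c, hc, hc8, hSc⟩ := exists_block C hdim hmin (insert p v)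
      (by rw [card_insert_of_notMem hp, h4])
    have hvc : v ⊆ c := (subset_insert _ _).trans hSc
    have e1 : c \ v = symmDiff c v := by
      rw [symmDiff_def, sdiff_eq_empty_iff_subset.mpr hvc, sup_eq_union, union_empty]
    refine ⟨c \ v, ⟨?_, ?_⟩, mem_sdiff.mpr ⟨hSc (mem_insert_self _ _), hp⟩⟩
    · rw [e1, symmDiff_assoc]
      exact SC_add C hc hv.1
    · rw [card_sdiff_of_subset hvc, hc8, h4]

include hdim hmin in
theorem Ld_six {s : Finset P24} (hall : ∀ v ∈ Ld C s, v.card = 4) : (Ld C s).ncard = 6 := by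
  classical
  set L : Finset (Finset P24) := univ.filter (fun v => v ∈ Ld C s) with hL
  have hmem : ∀ v, v ∈ L ↔ v ∈ Ld C s := by intro v; simp [hL]
  have hn : (Ld C s).ncard = L.card := by
    rw [← Set.ncard_coe_finset]
    congr 1
    ext v
    simp [hmem]
  obtain ⟨v0, hv0⟩ := Ld_nonempty C hdim hmin s
  have hU : L.biUnion id = univ := by
    ext p
    simp only [mem_biUnion, mem_univ, iff_true, id]
    obtain ⟨v', hv', hp⟩ := Ld_cover C hdim hmin hv0 (hall v0 hv0) p
    exact ⟨v', (hmem v').mpr hv', hp⟩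
  have hc := card_biUnion (s := L) (t := id) (by
    intro a ha b hb hab
    exact (Ld_pair C hmin ((hmem a).mp ha) ((hmem b).mp hb) hab).2.2)
  have hs : ∑ u ∈ L, (id u).card = ∑ _u ∈ L, 4 :=
    sum_congr rfl (fun v hv => hall v ((hmem v).mp hv))
  rw [hU, card_univ, Fintype.card_fin, hs, sum_const, smul_eq_mul] at hc
  omega

include hdim hmin in
theorem Ld_main (s : Finset P24) :
    (∃ v, Ld C s = {v} ∧ v.card ≤ 3) ∨
    ((Ld C s).ncard = 6 ∧ ∀ v ∈ Ld C s, v.card = 4 ∧ ∀ v' ∈ Ld C s, v ≠ v' → Disjoint v v') := by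
  by_cases h : ∃ v ∈ Ld C s, v.card ≤ 3
  · left
    obtain ⟨v, hv, h3⟩ := h
    refine ⟨v, Set.eq_singleton_iff_unique_mem.mpr ⟨hv, fun x hx => ?_⟩, h3⟩
    by_contra hne
    have := (Ld_pair C hmin hx hv hne).2.1
    omega
  · right
    push Not at h
    have hall : ∀ v ∈ Ld C s, v.card = 4 := by
      intro v hv
      have h1 := hv.2
      have h2 := h v hv
      omega
    exact ⟨Ld_six C hdim hmin hall, fun v hv => ⟨hall v hv, fun v' hv' hne =>
      (Ld_pair C hmin hv hv' hne).2.2⟩⟩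

theorem sub_mem_iff' (u w : P24 → ZMod 2) :
    u - w ∈ C ↔ symmDiff (support₂ u) (support₂ w) ∈ supports (C : Set (P24 → ZMod 2)) := by
  have e : u - w = u + w := by
    funext p
    simp only [Pi.sub_apply, Pi.add_apply]
    rw [sub_eq_add_neg, ZMod.neg_eq_self_mod_two]
  rw [e, ← supp_add]
  constructor
  · intro h; exact ⟨_, h, rfl⟩
  · rintro ⟨x, hx, hxe⟩
    rw [← supp_inj hxe]; exact hx

def ind (v : Finset P24) : P24 → ZMod 2 := fun i => if i ∈ v then 1 else 0

theorem supp_ind (v : Finset P24) : support₂ (ind v) = v := by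
  ext p
  simp [support₂, ind]

theorem mem_LF (w u : P24 → ZMod 2) :
    u ∈ {u : P24 → ZMod 2 | u - w ∈ C ∧ hammingNorm u ≤ 4} ↔ support₂ u ∈ Ld C (support₂ w) := by
  simp only [Set.mem_ofPred_eq, Ld, sub_mem_iff', norm_eq]

include hdim hmin in
theorem coset_leaders (w : P24 → ZMod 2) :
    (∃ u : P24 → ZMod 2, {u : P24 → ZMod 2 | u - w ∈ C ∧ hammingNorm u ≤ 4} = {u} ∧
      hammingNorm u ≤ 3) ∨
    ({u : P24 → ZMod 2 | u - w ∈ C ∧ hammingNorm u ≤ 4}.ncard = 6 ∧
      ∀ u ∈ {u : P24 → ZMod 2 | u - w ∈ C ∧ hammingNorm u ≤ 4}, hammingNorm u = 4 ∧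
        ∀ u' ∈ {u : P24 → ZMod 2 | u - w ∈ C ∧ hammingNorm u ≤ 4}, u ≠ u' →
          Disjoint (Finset.univ.filter fun i => u i ≠ 0) (Finset.univ.filter fun i => u' i ≠ 0)) := by
  rcases Ld_main C hdim hmin (support₂ w) with ⟨v, hv, h3⟩ | ⟨h6, hall⟩
  · left
    refine ⟨ind v, ?_, by rw [norm_eq, supp_ind]; exact h3⟩
    ext u
    rw [mem_LF, hv, Set.mem_singleton_iff, Set.mem_singleton_iff]
    constructor
    · intro h; apply supp_inj; rw [h, supp_ind]
    · intro h; rw [h, supp_ind]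
  · right
    refine ⟨?_, fun u hu => ⟨(hall _ ((mem_LF C w u).mp hu)).1, fun u' hu' hne => ?_⟩⟩
    · rw [← h6, ← Set.ncard_image_of_injective _ supp_inj]
      congr 1
      ext x
      constructor
      · rintro ⟨u, hu, rfl⟩; exact (mem_LF C w u).mp hu
      · intro hx
        exact ⟨ind x, (mem_LF C w _).mpr (by rw [supp_ind]; exact hx), supp_ind x⟩
    · exact (hall _ ((mem_LF C w u).mp hu)).2 _ ((mem_LF C w u').mp hu')
        (fun h => hne (supp_inj h))

end

end Cfsg.Agent.Lib.Helper8.AG
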