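import Cfsg.Agent.Lib.Helper8.Decomp

set_option autoImplicit false

namespace Cfsg.Agent.Lib.Helper8

open scoped Pointwise

variable {G X Y : Type*} [Group G] [MulAction G X] [MulAction G Y]

/-- the objects satisfying an invariant property that holds for exactly one class -/
theorem class_of_pred (H : Subgroup G) (f : ℕ → X) (N : ℕ) (lab : ℕ → ℕ) (r : ℕ → X) (A : Set X)
    (hmem : ∀ i < N, f i ∈ A) (hsurj : ∀ a ∈ A, ∃ i < N, f i = a)
    (hinj : ∀ i j, i < N → j < N → f i = f j → i = j)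
    (horb : ∀ i < N, ∃ h ∈ H, h • r (lab i) = f i)
    (P : X → Prop) (hP : ∀ h ∈ H, ∀ a, P (h • a) ↔ P a) (l0 : ℕ) (h1 : P (r l0))
    (h2 : ∀ i < N, lab i ≠ l0 → ¬ P (r (lab i))) :
    {a | a ∈ A ∧ P a}.ncard = cntLab N lab l0 ∧
      ∀ a b, a ∈ A → P a → b ∈ A → P b → ∃ h ∈ H, h • a = b := by
  have key : ∀ i < N, (P (f i) ↔ lab i = l0) := by
    intro i hi
    obtain ⟨h, hh, e⟩ := horb i hi
    rw [← e, hP h hh]
    constructor
    · intro hp
      by_contra hne
      exact h2 i hi hne hp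
    · intro e'
      rw [e']; exact h1
  constructor
  · have e : {a | a ∈ A ∧ P a} = f '' ↑((Finset.range N).filter fun i => lab i = l0) := by
      ext a
      simp only [Set.mem_ofPred_eq, Finset.coe_filter, Finset.mem_range, Set.mem_image]
      constructor
      · rintro ⟨ha, hp⟩
        obtain ⟨i, hi, rfl⟩ := hsurj a ha
        exact ⟨i, ⟨hi, (key i hi).mp hp⟩, rfl⟩
      · rintro ⟨i, ⟨hi, hl⟩, rfl⟩
        exact ⟨hmem i hi, (key i hi).mpr hl⟩
    rw [e, Set.InjOn.ncard_image, Set.ncard_coe_finset, cntLab]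
    intro i hi j hj hij
    simp only [Finset.coe_filter, Finset.mem_range, Set.mem_ofPred_eq] at hi hj
    exact hinj i j hi.1 hj.1 hij
  · intro a b ha hpa hb hpb
    obtain ⟨i, hi, rfl⟩ := hsurj a ha
    obtain ⟨j, hj, rfl⟩ := hsurj b hb
    obtain ⟨h, hh, e⟩ := horb i hi
    obtain ⟨h', hh', e'⟩ := horb j hj
    rw [(key i hi).mp hpa] at e
    rw [(key j hj).mp hpb] at e'
    refine ⟨h' * h⁻¹, H.mul_mem hh' (H.inv_mem hh), ?_⟩
    rw [mul_smul, ← e, inv_smul_smul, e']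

/-- transport of an orbit certificate to a translate of the base object -/
theorem horb_smul (g : G) (y : Y) (f : ℕ → X) (N : ℕ) (lab : ℕ → ℕ) (r : ℕ → X)
    (horb : ∀ i < N, ∃ h ∈ MulAction.stabilizer G y, h • r (lab i) = f i) :
    ∀ i < N, ∃ h ∈ MulAction.stabilizer G (g • y), h • (g • r (lab i)) = g • f i := by
  intro i hi
  obtain ⟨h, hh, e⟩ := horb i hi
  refine ⟨g * h * g⁻¹, ?_, ?_⟩
  · rw [MulAction.mem_stabilizer_iff] at hh ⊢
    rw [mul_smul, mul_smul, inv_smul_smul, hh]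
  · rw [mul_smul, mul_smul, inv_smul_smul, e]

end Cfsg.Agent.Lib.Helper8
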