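import Cfsg.Agent.Lib.Helper8.Cls2

set_option autoImplicit false

namespace Cfsg.Agent.Lib.Helper8

open Cfsg
open scoped Pointwise

/-- the common fixed points of a subgroup -/
def fixS (X : Subgroup M24) : Set GolayPt :=
  {p : GolayPt | ∀ x ∈ X, ((x : M24) : Equiv.Perm GolayPt) p = p}

theorem exists_gen_of_card_prime {r : ℕ} [hr : Fact r.Prime] (X : Subgroup M24)
    (hX : Nat.card X = r) : ∃ x : M24, orderOf x = r ∧ X = Subgroup.zpowers x := by
  have : Nontrivial X := by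
    rw [← Finite.one_lt_card_iff_nontrivial, hX]; exact hr.out.one_lt
  obtain ⟨x, hx⟩ := exists_ne (1 : X)
  have ho : orderOf (x : M24) = r := by
    have h1 : orderOf x ∣ r := hX ▸ orderOf_dvd_natCard x
    rw [Subgroup.orderOf_coe]
    rcases (Nat.dvd_prime hr.out).mp h1 with h | h
    · exact absurd (orderOf_eq_one_iff.mp h) hx
    · exact h
  refine ⟨x, ho, ?_⟩
  symm
  apply Subgroup.eq_of_le_of_card_ge
  · rw [Subgroup.zpowers_le]; exact x.2
  · rw [Nat.card_zpowers, ho, hX]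

theorem fixS_zpowers (x : M24) :
    fixS (Subgroup.zpowers x) = ↑(fixF (x : Equiv.Perm GolayPt)) := by
  ext p
  simp only [fixS, Set.mem_ofPred_eq, Finset.mem_coe, mem_fixF]
  constructor
  · intro h; exact h x (Subgroup.mem_zpowers x)
  · intro h y hy
    obtain ⟨k, rfl⟩ := Subgroup.mem_zpowers_iff.mp hy
    rw [Subgroup.coe_zpow]
    exact Equiv.Perm.zpow_apply_eq_self_of_apply_eq_self h k

theorem ncard_fixS_zpowers (x : M24) :
    (fixS (Subgroup.zpowers x)).ncard = (fixF (x : Equiv.Perm GolayPt)).card := by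
  rw [fixS_zpowers, Set.ncard_coe_finset]

theorem conj_smul_zpowers (k x : M24) :
    MulAut.conj k • Subgroup.zpowers x = Subgroup.zpowers (k * x * k⁻¹) := by
  rw [Subgroup.pointwise_smul_def]
  exact MonoidHom.map_zpowers (MulAut.conj k).toMonoidHom x

theorem order3_subgroups :
    (∀ X : Subgroup M24, Nat.card X = 3 → (fixS X).ncard = 6 ∨ (fixS X).ncard = 0) ∧
    (∃ X : Subgroup M24, Nat.card X = 3 ∧ (fixS X).ncard = 6) ∧
    (∃ X : Subgroup M24, Nat.card X = 3 ∧ (fixS X).ncard = 0) ∧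
    ∀ X Y : Subgroup M24, Nat.card X = 3 → Nat.card Y = 3 → (fixS X).ncard = (fixS Y).ncard →
      ∃ k : M24, MulAut.conj k • X = Y := by
  refine ⟨?_, ?_, ?_, ?_⟩
  · intro X hX
    obtain ⟨x, hx, rfl⟩ := exists_gen_of_card_prime X hX
    rw [ncard_fixS_zpowers]
    rcases ord3_fix x.2 (by rw [Subgroup.orderOf_coe]; exact hx) with h | h
    · left; exact h
    · right; rw [h]; rfl
  · refine ⟨Subgroup.zpowers ⟨toPerm R3A, toPerm_mem_M24 R3A_mem⟩, ?_, ?_⟩
    · rw [Nat.card_zpowers, ← Subgroup.orderOf_coe]; exact order_R3A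
    · rw [ncard_fixS_zpowers]
      show (fixF (toPerm R3A)).card = 6
      rw [fix_R3A, card_setOf]; decide +kernel
  · refine ⟨Subgroup.zpowers ⟨toPerm R3B, toPerm_mem_M24 R3B_mem⟩, ?_, ?_⟩
    · rw [Nat.card_zpowers, ← Subgroup.orderOf_coe]; exact order_R3B
    · rw [ncard_fixS_zpowers]
      show (fixF (toPerm R3B)).card = 0
      rw [fix_R3B]; rfl
  · intro X Y hX hY hXY
    obtain ⟨x, hx, rfl⟩ := exists_gen_of_card_prime X hX
    obtain ⟨y, hy, rfl⟩ := exists_gen_of_card_prime Y hY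
    rw [ncard_fixS_zpowers, ncard_fixS_zpowers] at hXY
    obtain ⟨k, hk, e⟩ := ord3_conj x.2 y.2 (by rw [Subgroup.orderOf_coe]; exact hx)
      (by rw [Subgroup.orderOf_coe]; exact hy)
      (by rw [← Finset.card_eq_zero, ← Finset.card_eq_zero, hXY])
    refine ⟨⟨k, hk⟩, ?_⟩
    rw [conj_smul_zpowers]
    congr 1
    exact Subtype.ext e

end Cfsg.Agent.Lib.Helper8
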