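import Cfsg.Agent.Lib.Helper8.Decomps

set_option autoImplicit false

namespace Cfsg.Agent.Lib.Helper8

open Cfsg
open scoped Pointwise

theorem sx_root0 : objL 6 sxA (getR 12 sxsxRidx 0) = sx0 := by decide +kernel
theorem tr_root0 : objL 3 trA (getR 12 trtrRidx 0) = tr0 := by decide +kernel
theorem oc_root0 : getR 24 ocA (getR 12 ococRidx 0) = 8536111 := by decide +kernel

theorem coatom_sx0 : IsCoatom (MulAction.stabilizer M24 (famOf sx0)) := by
  have h := coatom_of_cert (famTest sx0) sextets (fun _ hg _ ha => smul_mem_sextets hg ha) famOf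
    actL eqvL fam_hact fam_heqv (objL 6 sxA) 1771 sx_hmem sx_hsurj sx_hinj sxsxTs
    (getR 12 sxsxRidx) (getR 4 sxsxLab) (getR 12 sxsxPar) (getR 4 sxsxGn) (getR 8 sxsxLev)
    (by rw [sx_root0]; exact famTest_sound sx0)
    (by
      rw [sx_root0]
      intro a ha
      obtain ⟨g, hg, e⟩ := sextet_trans a ha
      exact ⟨g, hg.1, e⟩)
    sxsx_ts sxsx_cert [90, 240, 1440] sxsx_cls (by norm_num) (by decide +kernel)
  rwa [sx_root0] at h

theorem coatom_tr0 : IsCoatom (MulAction.stabilizer M24 (famOf tr0)) := by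
  have h := coatom_of_cert (famTest tr0) trios (fun _ hg _ ha => smul_mem_trios hg ha) famOf
    actL eqvL fam_hact fam_heqv (objL 3 trA) 3795 tr_hmem tr_hsurj tr_hinj trtrTs
    (getR 12 trtrRidx) (getR 4 trtrLab) (getR 12 trtrPar) (getR 4 trtrGn) (getR 8 trtrLev)
    (by rw [tr_root0]; exact famTest_sound tr0)
    (by
      rw [tr_root0]
      intro a ha
      obtain ⟨g, hg, e⟩ := trio_trans a ha
      exact ⟨g, hg.1, e⟩)
    trtr_ts trtr_cert [42, 56, 1008, 2688] trtr_cls (by norm_num) (by decide +kernel)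
  rwa [tr_root0] at h

theorem coatom_O0 : IsCoatom (MulAction.stabilizer M24 (setOf 8536111)) := by
  have h := coatom_of_cert (maskTest 8536111) octads (fun _ hg _ ha => smul_mem_octads hg ha) setOf
    applyMaskG Nat.beq mask_hact mask_heqv (getR 24 ocA) 759 oc_hmem oc_hsurj oc_hinj ococTs
    (getR 12 ococRidx) (getR 4 ococLab) (getR 12 ococPar) (getR 4 ococGn) (getR 8 ococLev)
    (by rw [oc_root0]; exact maskTest_sound 8536111)
    (by
      rw [oc_root0]
      intro a ha
      exact octad_trans O0_mem ha)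
    ococ_ts ococ_cert [30, 280, 448] ococ_cls (by norm_num) (by decide +kernel)
  rwa [oc_root0] at h

theorem coatom_sextet {S : Finset (Finset GolayPt)} (hS : S ∈ sextets) :
    IsCoatom (MulAction.stabilizer M24 S) := by
  obtain ⟨g, rfl⟩ := exists_smul_sx0 hS
  exact isCoatom_stabilizer_smul g _ coatom_sx0

theorem coatom_trio {S : Finset (Finset GolayPt)} (hS : S ∈ trios) :
    IsCoatom (MulAction.stabilizer M24 S) := by
  obtain ⟨g, rfl⟩ := exists_smul_tr0 hS
  exact isCoatom_stabilizer_smul g _ coatom_tr0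

theorem coatom_octad {S : Finset GolayPt} (hS : S ∈ octads) :
    IsCoatom (MulAction.stabilizer M24 S) := by
  obtain ⟨g, rfl⟩ := exists_smul_O0 hS
  exact isCoatom_stabilizer_smul g _ coatom_O0

end Cfsg.Agent.Lib.Helper8
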