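import Cfsg.Agent.Lib.Helper8.PairsD
import Cfsg.Agent.Lib.Helper8.Coatoms

set_option autoImplicit false

namespace Cfsg.Agent.Lib.Helper8

open Cfsg
open scoped Pointwise

theorem s2_root0 : getR 24 s2A (getR 12 s2s2Ridx 0) = 8388609 := by decide +kernel
theorem s3_root0 : getR 24 s3A (getR 12 s3s3Ridx 0) = 8388611 := by decide +kernel
theorem dp_root0 : objL 2 dpA (getR 12 dpdpRidx 0) = dp0 := by decide +kernel

theorem card_inv (k : ℕ) : ∀ g ∈ M24, ∀ a ∈ {s : Finset GolayPt | s.card = k},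
    g • a ∈ {s : Finset GolayPt | s.card = k} := by
  intro g _ a ha
  show (g • a).card = k
  rw [Finset.card_smul_finset]; exact ha

theorem coatom_s2 : IsCoatom (MulAction.stabilizer M24 (setOf 8388609)) := by
  have h := coatom_of_cert (maskTest 8388609) {s : Finset GolayPt | s.card = 2} (card_inv 2) setOf
    applyMaskG Nat.beq mask_hact mask_heqv (getR 24 s2A) 276 s2_enum.1 s2_enum.2 (mask_inj s2_inc)
    s2s2Ts (getR 12 s2s2Ridx) (getR 4 s2s2Lab) (getR 12 s2s2Par) (getR 4 s2s2Gn) (getR 8 s2s2Lev)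
    (by rw [s2_root0]; exact maskTest_sound 8388609)
    (by
      rw [s2_root0]
      intro a ha
      obtain ⟨g, hg, e⟩ := norm_set2 ha
      exact ⟨g⁻¹, M24.inv_mem hg, by rw [← e, inv_smul_smul]⟩)
    s2s2_ts s2s2_cert [44, 231] s2s2_cls (by norm_num) (by decide +kernel)
  rwa [s2_root0] at h

theorem coatom_s3 : IsCoatom (MulAction.stabilizer M24 (setOf 8388611)) := by
  have h := coatom_of_cert (maskTest 8388611) {s : Finset GolayPt | s.card = 3} (card_inv 3) setOf
    applyMaskG Nat.beq mask_hact mask_heqv (getR 24 s3A) 2024 s3_enum.1 s3_enum.2 (mask_inj s3_inc)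
    s3s3Ts (getR 12 s3s3Ridx) (getR 4 s3s3Lab) (getR 12 s3s3Par) (getR 4 s3s3Gn) (getR 8 s3s3Lev)
    (by rw [s3_root0]; exact maskTest_sound 8388611)
    (by
      rw [s3_root0]
      intro a ha
      obtain ⟨g, hg, e⟩ := norm_set3 ha
      exact ⟨g⁻¹, M24.inv_mem hg, by rw [← e, inv_smul_smul]⟩)
    s3s3_ts s3s3_cert [63, 210, 630, 1120] s3s3_cls (by norm_num) (by decide +kernel)
  rwa [s3_root0] at h

theorem dp_hmem : ∀ i < 1288, famOf (objL 2 dpA i) ∈ dodPairs :=
  fun i hi => (isDodPairL_sound _ (of_allBelow dp_chk i hi)).2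
theorem dp_hinj : ∀ i j, i < 1288 → j < 1288 → famOf (objL 2 dpA i) = famOf (objL 2 dpA j) → i = j :=
  fam_inj_of_checks (fun l hl => (isDodPairL_sound l hl).1) dp_chk dp_inc

theorem coatom_dp0 : IsCoatom (MulAction.stabilizer M24 (famOf dp0)) := by
  have h := coatom_of_cert (famTest dp0) dodPairs (fun _ hg _ ha => smul_mem_dodPairs hg ha) famOf
    actL eqvL fam_hact fam_heqv (objL 2 dpA) 1288 dp_hmem dodPair_enum.2.1 dp_hinj dpdpTs
    (getR 12 dpdpRidx) (getR 4 dpdpLab) (getR 12 dpdpPar) (getR 4 dpdpGn) (getR 8 dpdpLev)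
    (by rw [dp_root0]; exact famTest_sound dp0)
    (by
      rw [dp_root0]
      intro a ha
      obtain ⟨g, hg, e⟩ := dodPair_trans a ha
      exact ⟨g, hg.1, e⟩)
    dpdp_ts dpdp_cert [495, 792] dpdp_cls (by norm_num) (by decide +kernel)
  rwa [dp_root0] at h

theorem coatom_set2 {s : Finset GolayPt} (hs : s.card = 2) :
    IsCoatom (MulAction.stabilizer M24 s) := by
  obtain ⟨g, hg, e⟩ := norm_set2 hs
  have : s = (⟨g⁻¹, M24.inv_mem hg⟩ : M24) • setOf 8388609 := by
    rw [← e]; exact (inv_smul_smul g s).symm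
  rw [this]
  exact isCoatom_stabilizer_smul _ _ coatom_s2

theorem coatom_set3 {s : Finset GolayPt} (hs : s.card = 3) :
    IsCoatom (MulAction.stabilizer M24 s) := by
  obtain ⟨g, hg, e⟩ := norm_set3 hs
  have : s = (⟨g⁻¹, M24.inv_mem hg⟩ : M24) • setOf 8388611 := by
    rw [← e]; exact (inv_smul_smul g s).symm
  rw [this]
  exact isCoatom_stabilizer_smul _ _ coatom_s3

theorem exists_smul_dp0 {d : Finset GolayPt} (hd : d ∈ dodecads) :
    ∃ g : M24, g • famOf dp0 = ({d, dᶜ} : Finset (Finset GolayPt)) := by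
  obtain ⟨g, hg, e⟩ := dodPair_trans _ ⟨d, hd, rfl⟩
  exact ⟨⟨g, hg.1⟩, e⟩

theorem coatom_dodPair {d : Finset GolayPt} (hd : d ∈ dodecads) :
    IsCoatom (MulAction.stabilizer M24 ({d, dᶜ} : Finset (Finset GolayPt))) := by
  obtain ⟨g, e⟩ := exists_smul_dp0 hd
  rw [← e]
  exact isCoatom_stabilizer_smul _ _ coatom_dp0

theorem decomp_dp_sx : Decomp M24 (famOf dp0) sextets [396, 495, 880] :=
  decomp_of_cert (famOf dp0) (famTest dp0) (famTest_sound dp0) sextets
    (fun _ hg _ ha => smul_mem_sextets hg ha) famOf actL eqvL fam_hact fam_heqv _ 1771 sx_hmem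
    sx_hsurj sx_hinj dpsxTs dpsx_ts _ _ _ _ _ dpsx_cert _ dpsx_cls 190080 card_stab_dp0
    (by decide +kernel)

end Cfsg.Agent.Lib.Helper8
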