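import Cfsg.Agent.Lib.Helper8.Coset4

set_option autoImplicit false

namespace Cfsg.Agent.Lib.Helper8

open Cfsg
open scoped Pointwise

theorem comm32 (x s : Equiv.Perm GolayPt) (hx : x ∈ M24) (hs : s ∈ M24) (h₃ : orderOf x = 3)
    (h₂ : orderOf s = 2) (hc : Commute x s) :
    ((fixF x).card = 6 ∧ (fixF s).card = 8) ∨ ((fixF x).card = 0 ∧ (fixF s).card = 0) := by
  have x3 : x ^ 3 = 1 := by rw [← h₃]; exact pow_orderOf_eq_one x
  have s2 : s ^ 2 = 1 := by rw [← h₂]; exact pow_orderOf_eq_one s
  have xne : x ≠ 1 := by intro h; rw [h, orderOf_one] at h₃; omega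
  have sne : s ≠ 1 := by intro h; rw [h, orderOf_one] at h₂; omega
  set y := x * s with hy
  have hyM : y ∈ M24 := M24.mul_mem hx hs
  have y2 : y ^ 2 = x ^ 2 := by rw [hy, hc.mul_pow, s2, mul_one]
  have y3 : y ^ 3 = s := by
    rw [hy, hc.mul_pow, x3, one_mul, pow_succ, s2, one_mul]
  have y6 : y ^ 6 = 1 := by
    rw [show 6 = 3 * 2 from rfl, pow_mul, y3, s2]
  have fx : fixF (x ^ 2) = fixF x := by
    ext a
    rw [mem_fixF, mem_fixF]
    have e2 : (x ^ 2) a = x (x a) := by simp [pow_succ, Equiv.Perm.mul_apply]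
    have e3 : x (x (x a)) = a := by
      have : (x ^ 3) a = x (x (x a)) := by simp [pow_succ, Equiv.Perm.mul_apply]
      rw [← this, x3]; rfl
    rw [e2]
    constructor
    · intro h
      have := e3
      rw [h] at this
      exact this
    · intro h; rw [h, h]
  obtain ⟨p, hp2, hp3⟩ : ∃ p, (y ^ 2) p ≠ p ∧ (y ^ 3) p ≠ p := by
    by_contra hn
    push Not at hn
    have hsub : (Finset.univ : Finset GolayPt) ⊆ fixF x ∪ fixF s := by
      intro a _
      rw [Finset.mem_union]
      by_cases h : (y ^ 2) a = a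
      · left; rw [← fx, mem_fixF, ← y2]; exact h
      · right; rw [mem_fixF, ← y3]; exact hn a h
    have h1 := Finset.card_le_card hsub
    have h2 := Finset.card_union_le (fixF x) (fixF s)
    have h3 := card_fixF_le8 hx xne
    have h4 := card_fixF_le8 hs sne
    rw [card_pts] at h1
    omega
  have e2 : (y ^ 2) p = y (y p) := by simp [pow_succ, Equiv.Perm.mul_apply]
  have e3 : (y ^ 3) p = y (y (y p)) := by simp [pow_succ, Equiv.Perm.mul_apply]
  have e6 : y (y (y (y (y (y p))))) = p := by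
    have : (y ^ 6) p = y (y (y (y (y (y p))))) := by simp [pow_succ, Equiv.Perm.mul_apply]
    rw [← this, y6]; rfl
  rw [e2] at hp2
  rw [e3] at hp3
  have n1 : y p ≠ p := fun h => hp2 (by rw [h, h])
  have n4 : y (y (y (y p))) ≠ p := by
    intro h
    apply hp2
    have := e6
    rw [h] at this
    exact this
  obtain ⟨w, hw, s', hs', e⟩ := to_coset4 hyM n1 hp2 hp3 n4
  have h := coset6 s' hs' (by rw [← e, conj_pow', y6]; group)
  rw [← e, conj_pow', conj_pow', card_fixF_conj, card_fixF_conj, y2, y3, fx] at h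
  rcases h with h | h
  · right; exact h
  · left; exact h

end Cfsg.Agent.Lib.Helper8
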