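import Cfsg.Agent.Lib.Helper8.InvSub
import Cfsg.Agent.Lib.Helper8.Conj

set_option autoImplicit false

namespace Cfsg.Agent.Lib.Helper8

open Cfsg
open scoped Pointwise

/-- the light words of the coset of `s` -/
def Lds (s : Finset GolayPt) : Set (Finset GolayPt) := {v | v.card ≤ 4 ∧ symmDiff s v ∈ CS}

theorem card_symmDiff_le' (a b : Finset GolayPt) : (symmDiff a b).card ≤ a.card + b.card := by
  refine le_trans (Finset.card_le_card ?_) (Finset.card_union_le a b)
  intro x hx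
  rw [Finset.mem_symmDiff] at hx
  rw [Finset.mem_union]
  tauto

theorem eq_of_close {a b : Finset GolayPt} (h : symmDiff a b ∈ CS) (hc : (symmDiff a b).card < 8) :
    a = b := by
  rcases card_of_mem_supports h with h' | h' | h' | h' | h'
  · exact symmDiff_eq_bot.mp (Finset.card_eq_zero.mp h')
  all_goals omega

theorem Lds_pair {s v v' : Finset GolayPt} (hv : v ∈ Lds s) (hv' : v' ∈ Lds s) (hne : v ≠ v') :
    v.card = 4 ∧ v'.card = 4 := by
  have h1 : symmDiff v v' ∈ CS := by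
    rw [← symmDiff_trans' v s v', symmDiff_comm v s]
    exact symmDiff_mem_supports hv.2 hv'.2
  have h2 := card_symmDiff_le' v v'
  have h3 : ¬ (symmDiff v v').card < 8 := fun h => hne (eq_of_close h1 h)
  have := hv.1
  have := hv'.1
  omega

theorem Lds_congr {s v : Finset GolayPt} (h : symmDiff s v ∈ CS) : Lds s = Lds v := by
  ext x
  constructor
  · rintro ⟨h1, h2⟩
    refine ⟨h1, ?_⟩
    rw [← symmDiff_trans' v s x, symmDiff_comm v s]
    exact symmDiff_mem_supports h h2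
  · rintro ⟨h1, h2⟩
    refine ⟨h1, ?_⟩
    rw [← symmDiff_trans' s v x]
    exact symmDiff_mem_supports h h2

theorem cnt_t0 : countBelow 4096 (fun c => Nat.ble (popF (8388615 ^^^ cwOf c)) 4) = 6 := by
  decide +kernel

theorem Lds_t0 : (Lds (setOf 8388615)).ncard = 6 := by
  rw [← cnt_t0, ← ncard_code_filter' (fun c => (symmDiff (setOf 8388615) c).card ≤ 4)
    (fun m => Nat.ble (popF (8388615 ^^^ m)) 4) (by
      intro m
      rw [← setOf_xor, card_setOf', Nat.ble_eq])]
  have : Lds (setOf 8388615) = (fun c => symmDiff (setOf 8388615) c) ''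
      {c | c ∈ CS ∧ (symmDiff (setOf 8388615) c).card ≤ 4} := by
    ext x
    constructor
    · rintro ⟨h1, h2⟩
      exact ⟨_, ⟨h2, by rw [symmDiff_symmDiff_cancel_left]; exact h1⟩,
        symmDiff_symmDiff_cancel_left _ _⟩
    · rintro ⟨c, ⟨h1, h2⟩, rfl⟩
      exact ⟨h2, by rw [symmDiff_symmDiff_cancel_left]; exact h1⟩
  rw [this, Set.ncard_image_of_injective _ (symmDiff_right_injective _)]

theorem Lds_four {v : Finset GolayPt} (h : v.card = 4) : (Lds v).ncard = 6 := by
  obtain ⟨g, hg, hgv⟩ := norm_set4 h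
  rw [← Lds_t0, ← hgv]
  refine Eq.trans ?_ (ncard_smul_pred g (fun x => x ∈ Lds (g • v)))
  congr 1
  ext x
  simp only [Lds, Set.mem_ofPred_eq, Finset.card_smul_finset]
  rw [← Finset.smul_finset_symmDiff]
  constructor
  · rintro ⟨h1, h2⟩; exact ⟨h1, smul_mem_supports hg h2⟩
  · rintro ⟨h1, h2⟩
    refine ⟨h1, ?_⟩
    have := smul_mem_supports (M24.inv_mem hg) h2
    rwa [inv_smul_smul] at this

theorem Lds_main (s : Finset GolayPt) :
    ((Lds s).ncard = 1 ∧ ∃ v, v.card ≤ 3 ∧ symmDiff s v ∈ CS) ∨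
    ((Lds s).ncard = 6 ∧ ∀ v ∈ Lds s, v.card = 4) := by
  by_cases h : ∃ v, v.card ≤ 3 ∧ symmDiff s v ∈ CS
  · left
    refine ⟨?_, h⟩
    obtain ⟨v, h3, hv⟩ := h
    have hvL : v ∈ Lds s := ⟨by omega, hv⟩
    rw [Set.ncard_eq_one]
    refine ⟨v, Set.eq_singleton_iff_unique_mem.mpr ⟨hvL, fun x hx => ?_⟩⟩
    by_contra hne
    have := (Lds_pair hx hvL hne).2
    omega
  · right
    push Not at h
    have h4 : ∀ v ∈ Lds s, v.card = 4 := by
      intro v hv
      have h1 := hv.1
      by_contra hne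
      exact h v (by omega) hv.2
    obtain ⟨v, hv4, hv⟩ := exists_leader s
    rw [Lds_congr hv]
    refine ⟨Lds_four (h4 v ⟨hv4, hv⟩), ?_⟩
    rw [← Lds_congr hv]; exact h4

theorem sub_mem_iff (w v : GolayPt → ZMod 2) :
    w - v ∈ golayCode ↔ symmDiff (support₂ w) (support₂ v) ∈ CS := by
  have e : w - v = w + v := by
    funext p
    simp only [Pi.sub_apply, Pi.add_apply]
    rw [sub_eq_add_neg, ZMod.neg_eq_self_mod_two]
  rw [e, ← support₂_add]
  constructor
  · intro h; exact ⟨_, h, rfl⟩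
  · rintro ⟨x, hx, hxe⟩
    rw [← support₂_injective hxe]; exact hx

theorem Lds_image (w : GolayPt → ZMod 2) :
    {v : GolayPt → ZMod 2 | hammingNorm v ≤ 4 ∧ w - v ∈ golayCode}.ncard =
      (Lds (support₂ w)).ncard := by
  rw [← Set.ncard_image_of_injective _ support₂_injective]
  congr 1
  ext x
  constructor
  · rintro ⟨v, ⟨h1, h2⟩, rfl⟩
    exact ⟨h1, (sub_mem_iff w v).mp h2⟩
  · rintro ⟨h1, h2⟩
    refine ⟨vecOf (maskS x), ⟨?_, ?_⟩, ?_⟩
    · rw [hammingNorm_eq, support₂_vecOf, setOf_maskS]; exact h1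
    · rw [sub_mem_iff, support₂_vecOf, setOf_maskS]; exact h2
    · rw [support₂_vecOf, setOf_maskS]

end Cfsg.Agent.Lib.Helper8
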