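import Cfsg.Agent.Lib.Helper8.SixChain
import Cfsg.Agent.Lib.Helper8.OctAlt

set_option autoImplicit false

namespace Cfsg.Agent.Lib.Helper8

open Cfsg
open scoped Pointwise

theorem tb_in : ∀ j < 24, ((8536111 : ℕ).testBit j = true ∧ j ≠ 23 ∧ j ≠ 0 ∧ j ≠ 1 ∧ j ≠ 2 ∧ j ≠ 3) →
    (147488 : ℕ).testBit j = true := by decide

theorem move6 (x : Fin 6 ↪ GolayPt) :
    ((∃ o ∈ octads, ∀ i, x i ∈ o) → ∃ g ∈ M24, g (x 0) = pt 23 ∧ g (x 1) = pt 0 ∧ g (x 2) = pt 1 ∧
      g (x 3) = pt 2 ∧ g (x 4) = pt 3 ∧ g (x 5) = pt 5) ∧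
    ((¬ ∃ o ∈ octads, ∀ i, x i ∈ o) → ∃ g ∈ M24, g (x 0) = pt 23 ∧ g (x 1) = pt 0 ∧
      g (x 2) = pt 1 ∧ g (x 3) = pt 2 ∧ g (x 4) = pt 3 ∧ g (x 5) = pt 4) := by
  obtain ⟨g, hg, h0, h1, h2, h3, h4⟩ := move5 (x0 := x 0) (x1 := x 1) (x2 := x 2) (x3 := x 3)
    (x4 := x 4) (fun h => absurd (x.injective h) (by decide))
    (fun h => absurd (x.injective h) (by decide)) (fun h => absurd (x.injective h) (by decide))
    (fun h => absurd (x.injective h) (by decide)) (fun h => absurd (x.injective h) (by decide))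
    (fun h => absurd (x.injective h) (by decide)) (fun h => absurd (x.injective h) (by decide))
    (fun h => absurd (x.injective h) (by decide)) (fun h => absurd (x.injective h) (by decide))
    (fun h => absurd (x.injective h) (by decide))
  have fin : ∀ {b : ℕ} (k : Equiv.Perm GolayPt), k ∈ GInv [2 ^ 3, 2 ^ 2, 2 ^ 1, 2 ^ 0, 2 ^ 23] →
      k (g (x 5)) = pt b → ∃ g ∈ M24, g (x 0) = pt 23 ∧ g (x 1) = pt 0 ∧
      g (x 2) = pt 1 ∧ g (x 3) = pt 2 ∧ g (x 4) = pt 3 ∧ g (x 5) = pt b := by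
    intro b k hk hkb
    refine ⟨k * g, M24.mul_mem hk.1 hg, ?_, ?_, ?_, ?_, ?_, hkb⟩
    · rw [Equiv.Perm.mul_apply, h0, GInv_fix hk (by norm_num) (by simp)]
    · rw [Equiv.Perm.mul_apply, h1, GInv_fix hk (by norm_num) (by simp)]
    · rw [Equiv.Perm.mul_apply, h2, GInv_fix hk (by norm_num) (by simp)]
    · rw [Equiv.Perm.mul_apply, h3, GInv_fix hk (by norm_num) (by simp)]
    · rw [Equiv.Perm.mul_apply, h4, GInv_fix hk (by norm_num) (by simp)]
  constructor
  · rintro ⟨o, ho, hxo⟩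
    have hgo : g • o = setOf 8536111 := by
      apply eq_O0_of_subset (smul_mem_octads hg ho)
      rw [setOf_5]
      intro a ha
      simp only [Finset.mem_insert, Finset.mem_singleton] at ha
      rcases ha with rfl | rfl | rfl | rfl | rfl
      · rw [← h0, apply_mem_smul_iff]; exact hxo 0
      · rw [← h1, apply_mem_smul_iff]; exact hxo 1
      · rw [← h2, apply_mem_smul_iff]; exact hxo 2
      · rw [← h3, apply_mem_smul_iff]; exact hxo 3
      · rw [← h4, apply_mem_smul_iff]; exact hxo 4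
    have h5 : g (x 5) ∈ setOf 8536111 := by rw [← hgo, apply_mem_smul_iff]; exact hxo 5
    rw [mem_setOf] at h5
    have n0 : g (x 5) ≠ pt 23 := fun h => absurd (x.injective (g.injective (h.trans h0.symm))) (by decide)
    have n1 : g (x 5) ≠ pt 0 := fun h => absurd (x.injective (g.injective (h.trans h1.symm))) (by decide)
    have n2 : g (x 5) ≠ pt 1 := fun h => absurd (x.injective (g.injective (h.trans h2.symm))) (by decide)
    have n3 : g (x 5) ≠ pt 2 := fun h => absurd (x.injective (g.injective (h.trans h3.symm))) (by decide)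
    have n4 : g (x 5) ≠ pt 3 := fun h => absurd (x.injective (g.injective (h.trans h4.symm))) (by decide)
    obtain ⟨k, hk, hk1⟩ := level_move six53 (g (x 5))
      (tb_in _ (idx_lt _) ⟨h5, idx_ne n0, idx_ne n1, idx_ne n2, idx_ne n3, idx_ne n4⟩)
    exact fin k hk hk1
  · intro hno
    have h5 : g (x 5) ∉ setOf 8536111 := by
      intro h
      apply hno
      refine ⟨g⁻¹ • setOf 8536111, smul_mem_octads (M24.inv_mem hg) O0_mem, ?_⟩
      have key : ∀ a, g a ∈ setOf 8536111 → a ∈ g⁻¹ • setOf 8536111 := by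
        intro a ha
        rw [← apply_mem_smul_iff g, smul_inv_smul]; exact ha
      intro i
      apply key
      fin_cases i
      · show g (x 0) ∈ _
        rw [h0, pt_mem_setOf (by norm_num)]; decide
      · show g (x 1) ∈ _
        rw [h1, pt_mem_setOf (by norm_num)]; decide
      · show g (x 2) ∈ _
        rw [h2, pt_mem_setOf (by norm_num)]; decide
      · show g (x 3) ∈ _
        rw [h3, pt_mem_setOf (by norm_num)]; decide
      · show g (x 4) ∈ _
        rw [h4, pt_mem_setOf (by norm_num)]; decide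
      · exact h
    rw [mem_setOf] at h5
    obtain ⟨k, hk, hk1⟩ := level_move chain5 (g (x 5))
      (compl_O0 _ (idx_lt _) (by simpa using h5))
    exact fin k hk hk1

theorem card_six_in : Nat.card (GInv [2 ^ 5, 2 ^ 3, 2 ^ 2, 2 ^ 1, 2 ^ 0, 2 ^ 23]) = 16 := by
  have h1 := level_card six53
  rw [level_card chain5, level_card chain6, GInv_eq_bot chain7, Subgroup.card_bot,
    show popc 8241104 = 16 by decide +kernel, show popc 147488 = 3 by decide +kernel] at h1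
  have h2 : popc 147488 = 3 := by decide +kernel
  omega

theorem card_six_out : Nat.card (GInv [2 ^ 4, 2 ^ 3, 2 ^ 2, 2 ^ 1, 2 ^ 0, 2 ^ 23]) = 3 := by
  rw [level_card chain6, GInv_eq_bot chain7, Subgroup.card_bot]
  decide +kernel

/-- an enumeration of a 6-set -/
noncomputable def emb6 (E : Finset GolayPt) (hE : E.card = 6) : Fin 6 ↪ GolayPt :=
  (E.equivFinOfCardEq hE).symm.toEmbedding.trans (Function.Embedding.subtype _)

theorem emb6_mem (E : Finset GolayPt) (hE : E.card = 6) (i : Fin 6) : emb6 E hE i ∈ E :=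
  ((E.equivFinOfCardEq hE).symm i).2

theorem emb6_surj (E : Finset GolayPt) (hE : E.card = 6) {p : GolayPt} (hp : p ∈ E) :
    ∃ i, emb6 E hE i = p :=
  ⟨E.equivFinOfCardEq hE ⟨p, hp⟩, by simp [emb6]⟩

theorem conj6_iff {x : Fin 6 ↪ GolayPt} {w : Equiv.Perm GolayPt} (hw : w ∈ M24) {b : ℕ}
    (hb : b < 24) (h0 : w (x 0) = pt 23) (h1 : w (x 1) = pt 0) (h2 : w (x 2) = pt 1)
    (h3 : w (x 3) = pt 2) (h4 : w (x 4) = pt 3) (h5 : w (x 5) = pt b) (k : Equiv.Perm GolayPt) :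
    w * k * w⁻¹ ∈ GInv [2 ^ b, 2 ^ 3, 2 ^ 2, 2 ^ 1, 2 ^ 0, 2 ^ 23] ↔
      k ∈ M24 ∧ ∀ i, k (x i) = x i := by
  rw [mem_GInv_conj hw]
  simp only [List.mem_cons, List.not_mem_nil, or_false, forall_eq_or_imp, forall_eq,
    inv_conj_pt_iff hb h5, inv_conj_pt_iff (show 3 < 24 by norm_num) h4,
    inv_conj_pt_iff (show 2 < 24 by norm_num) h3, inv_conj_pt_iff (show 1 < 24 by norm_num) h2,
    inv_conj_pt_iff (show 0 < 24 by norm_num) h1, inv_conj_pt_iff (show 23 < 24 by norm_num) h0]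
  constructor
  · rintro ⟨hk, a5, a4, a3, a2, a1, a0⟩
    refine ⟨hk, fun i => ?_⟩
    fin_cases i
    exacts [a0, a1, a2, a3, a4, a5]
  · rintro ⟨hk, h⟩
    exact ⟨hk, h 5, h 4, h 3, h 2, h 1, h 0⟩

/-- normal form of the pointwise stabiliser of a 6-set -/
theorem six_norm (E : Finset GolayPt) (hE : E.card = 6) :
    ∃ w ∈ M24, ∃ L : List ℕ, (∀ k : Equiv.Perm GolayPt, w * k * w⁻¹ ∈ GInv L ↔
      k ∈ M24 ∧ ∀ p ∈ E, k p = p) ∧ ((∃ o ∈ octads, E ⊆ o) → Nat.card (GInv L) = 16) ∧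
      ((¬ ∃ o ∈ octads, E ⊆ o) → Nat.card (GInv L) = 3) := by
  have hiff : (∃ o ∈ octads, ∀ i, emb6 E hE i ∈ o) ↔ ∃ o ∈ octads, E ⊆ o := by
    constructor
    · rintro ⟨o, ho, h⟩
      refine ⟨o, ho, fun p hp => ?_⟩
      obtain ⟨i, rfl⟩ := emb6_surj E hE hp
      exact h i
    · rintro ⟨o, ho, h⟩
      exact ⟨o, ho, fun i => h (emb6_mem E hE i)⟩
  have hall : ∀ k : Equiv.Perm GolayPt, (∀ i, k (emb6 E hE i) = emb6 E hE i) ↔ ∀ p ∈ E, k p = p := by
    intro k
    constructor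
    · intro h p hp
      obtain ⟨i, rfl⟩ := emb6_surj E hE hp
      exact h i
    · intro h i
      exact h _ (emb6_mem E hE i)
  by_cases hin : ∃ o ∈ octads, E ⊆ o
  · obtain ⟨w, hw, h0, h1, h2, h3, h4, h5⟩ := (move6 (emb6 E hE)).1 (hiff.mpr hin)
    refine ⟨w, hw, _, fun k => ?_, fun _ => card_six_in, fun h => absurd hin h⟩
    rw [conj6_iff hw (by norm_num) h0 h1 h2 h3 h4 h5, hall]
  · obtain ⟨w, hw, h0, h1, h2, h3, h4, h5⟩ := (move6 (emb6 E hE)).2 (fun h => hin (hiff.mp h))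
    refine ⟨w, hw, _, fun k => ?_, fun h => absurd h hin, fun _ => card_six_out⟩
    rw [conj6_iff hw (by norm_num) h0 h1 h2 h3 h4 h5, hall]

theorem six_induce (E : Finset GolayPt) (hE : E.card = 6) (σ : Equiv.Perm ↥E) :
    ∃ g ∈ M24, ∀ p : ↥E, g p = σ p := by
  set x := emb6 E hE with hx
  let y : Fin 6 ↪ GolayPt :=
    ((E.equivFinOfCardEq hE).symm.trans σ).toEmbedding.trans (Function.Embedding.subtype _)
  have hxy : ∀ i, y i = σ ⟨x i, emb6_mem E hE i⟩ := fun i => rfl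
  have hyE : ∀ i, y i ∈ E := fun i => (σ _).2
  have hysurj : ∀ p ∈ E, ∃ i, y i = p := by
    intro p hp
    obtain ⟨i, hi⟩ := emb6_surj E hE (σ⁻¹ ⟨p, hp⟩).2
    refine ⟨i, ?_⟩
    rw [hxy]
    have : (⟨x i, emb6_mem E hE i⟩ : ↥E) = σ⁻¹ ⟨p, hp⟩ := Subtype.ext hi
    rw [this]
    simp
  have main : ∃ g ∈ M24, ∀ i, g (x i) = y i := by
    have fin : ∀ {b : ℕ} (g k : Equiv.Perm GolayPt), g ∈ M24 → k ∈ M24 →
        (g (x 0) = pt 23 ∧ g (x 1) = pt 0 ∧ g (x 2) = pt 1 ∧ g (x 3) = pt 2 ∧ g (x 4) = pt 3 ∧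
          g (x 5) = pt b) →
        (k (y 0) = pt 23 ∧ k (y 1) = pt 0 ∧ k (y 2) = pt 1 ∧ k (y 3) = pt 2 ∧ k (y 4) = pt 3 ∧
          k (y 5) = pt b) → ∃ g ∈ M24, ∀ i, g (x i) = y i := by
      rintro b g k hg hk ⟨g0, g1, g2, g3, g4, g5⟩ ⟨k0, k1, k2, k3, k4, k5⟩
      refine ⟨k⁻¹ * g, M24.mul_mem (M24.inv_mem hk) hg, fun i => ?_⟩
      rw [Equiv.Perm.mul_apply, Equiv.Perm.inv_eq_iff_eq]
      fin_cases i
      · exact g0.trans k0.symm
      · exact g1.trans k1.symm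
      · exact g2.trans k2.symm
      · exact g3.trans k3.symm
      · exact g4.trans k4.symm
      · exact g5.trans k5.symm
    by_cases hin : ∃ o ∈ octads, E ⊆ o
    · obtain ⟨o, ho, hEo⟩ := hin
      obtain ⟨g, hg, hg'⟩ := (move6 x).1 ⟨o, ho, fun i => hEo (emb6_mem E hE i)⟩
      obtain ⟨k, hk, hk'⟩ := (move6 y).1 ⟨o, ho, fun i => hEo (hyE i)⟩
      exact fin g k hg hk hg' hk'
    · obtain ⟨g, hg, hg'⟩ := (move6 x).2 (by
        rintro ⟨o, ho, h⟩
        refine hin ⟨o, ho, fun p hp => ?_⟩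
        obtain ⟨i, rfl⟩ := emb6_surj E hE hp
        exact h i)
      obtain ⟨k, hk, hk'⟩ := (move6 y).2 (by
        rintro ⟨o, ho, h⟩
        refine hin ⟨o, ho, fun p hp => ?_⟩
        obtain ⟨i, rfl⟩ := hysurj p hp
        exact h i)
      exact fin g k hg hk hg' hk'
  obtain ⟨g, hg, h⟩ := main
  refine ⟨g, hg, fun p => ?_⟩
  obtain ⟨i, hi⟩ := emb6_surj E hE p.2
  have hp : p = ⟨x i, emb6_mem E hE i⟩ := Subtype.ext hi.symm
  rw [hp, ← hxy]
  exact h i

theorem six_main (E : Finset GolayPt) (hE : E.card = 6) :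
    (∀ σ : Equiv.Perm ↥E, ∃ g ∈ M24, ∀ p : ↥E, g p = σ p) ∧
    ((∃ o ∈ octads, E ⊆ o) →
      Nat.card {g : Equiv.Perm GolayPt // g ∈ M24 ∧ ∀ p ∈ E, g p = p} = 16) ∧
    ((¬ ∃ o ∈ octads, E ⊆ o) →
      Nat.card {g : Equiv.Perm GolayPt // g ∈ M24 ∧ ∀ p ∈ E, g p = p} = 3 ∧
      Nat.card ↥(MulAction.stabilizer M24 E) = 2160) := by
  obtain ⟨w, hw, L, hL, hin, hout⟩ := six_norm E hE
  have hK : ∀ g : Equiv.Perm GolayPt,
      g ∈ M24 ⊓ fixingSubgroup (Equiv.Perm GolayPt) (E : Set GolayPt) ↔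
      g ∈ M24 ∧ ∀ a ∈ E, g a = a := by
    intro g
    rw [Subgroup.mem_inf, mem_fixingSubgroup_iff]
    rfl
  have hcard : Nat.card {g : Equiv.Perm GolayPt // g ∈ M24 ∧ ∀ p ∈ E, g p = p} =
      Nat.card (GInv L) := by
    rw [← card_eq_card_GInv' (M24 ⊓ fixingSubgroup (Equiv.Perm GolayPt) (E : Set GolayPt)) L w
      (fun k => by rw [hL, hK])]
    exact Nat.card_congr (Equiv.subtypeEquivRight (fun g => (hK g).symm))
  refine ⟨six_induce E hE, fun h => by rw [hcard, hin h], fun h => ⟨by rw [hcard, hout h], ?_⟩⟩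
  have hst : ∀ g ∈ MulAction.stabilizer M24 E, ((g : M24) : Equiv.Perm GolayPt) • E = E :=
    fun _ hg => hg
  set φ := restrictHom (MulAction.stabilizer M24 E) E hst with hφ
  have hker : Nat.card φ.ker = 3 := by
    rw [← hout h, ← Subgroup.card_map_of_injective (MulAction.stabilizer M24 E).subtype_injective]
    apply card_eq_card_GInv _ _ hw
    intro k
    rw [hL]
    simp only [k.2, true_and]
    constructor
    · rintro ⟨y, hy, rfl⟩ x hx
      have := congrArg (fun σ : Equiv.Perm {x // x ∈ E} => ((σ ⟨x, hx⟩ : {x // x ∈ E}) : GolayPt))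
        (MonoidHom.mem_ker.mp hy)
      exact this
    · intro h
      have hko : (k : Equiv.Perm GolayPt) • E = E := by
        ext a
        constructor
        · intro ha
          obtain ⟨b, hb, rfl⟩ := Finset.mem_smul_finset.mp ha
          rw [Equiv.Perm.smul_def, h b hb]; exact hb
        · intro ha
          rw [← h a ha, apply_mem_smul_iff]; exact ha
      refine ⟨⟨k, hko⟩, ?_, rfl⟩
      rw [SetLike.mem_coe, MonoidHom.mem_ker]
      apply Equiv.ext
      intro x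
      apply Subtype.ext
      exact h x x.2
  have hsurj : Function.Surjective φ := by
    intro σ
    obtain ⟨g, hg, hgσ⟩ := six_induce E hE σ
    have hgE : g • E = E := by
      apply Finset.eq_of_subset_of_card_le
      · intro a ha
        obtain ⟨b, hb, rfl⟩ := Finset.mem_smul_finset.mp ha
        rw [Equiv.Perm.smul_def, hgσ ⟨b, hb⟩]
        exact (σ _).2
      · rw [Finset.card_smul_finset]
    refine ⟨⟨⟨g, hg⟩, hgE⟩, ?_⟩
    apply Equiv.ext
    intro x
    apply Subtype.ext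
    exact hgσ x
  have h1 := Subgroup.card_mul_index φ.ker
  rw [Subgroup.index_ker, hker, MonoidHom.range_eq_top.mpr hsurj, Subgroup.card_top,
    Nat.card_eq_fintype_card (α := Equiv.Perm ↥E), Fintype.card_perm, Fintype.card_coe, hE,
    show Nat.factorial 6 = 720 by decide] at h1
  omega

end Cfsg.Agent.Lib.Helper8
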