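import Cfsg.Agent.Lib.Helper8.Special
import Cfsg.Agent.Lib.Helper8.Six
import Cfsg.Agent.Lib.Helper8.FixCount

set_option autoImplicit false

namespace Cfsg.Agent.Lib.Helper8

open Cfsg
open scoped Pointwise

def P22 (p q : GolayPt) (s t : Finset GolayPt) : Prop :=
  ∃ o ∈ octads, p ∈ o ∧ q ∈ o ∧ s ∪ t ⊆ o

theorem P22_smul {w : Equiv.Perm GolayPt} (hw : w ∈ M24) (p q : GolayPt) (s t : Finset GolayPt) :
    P22 (w p) (w q) (w • s) (w • t) ↔ P22 p q s t := by
  constructor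
  · rintro ⟨o, ho, h1, h2, h3⟩
    refine ⟨w⁻¹ • o, smul_mem_octads (M24.inv_mem hw) ho, ?_, ?_, ?_⟩
    · rw [← apply_mem_smul_iff w, smul_inv_smul]; exact h1
    · rw [← apply_mem_smul_iff w, smul_inv_smul]; exact h2
    · rw [← Finset.smul_finset_union] at h3
      rw [← inv_smul_smul w (s ∪ t)]
      exact Finset.smul_finset_subset_smul_finset h3
  · rintro ⟨o, ho, h1, h2, h3⟩
    refine ⟨w • o, smul_mem_octads hw ho, (apply_mem_smul_iff _ _ _).mpr h1,
      (apply_mem_smul_iff _ _ _).mpr h2, ?_⟩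
    rw [← Finset.smul_finset_union]
    exact Finset.smul_finset_subset_smul_finset h3

theorem disjoint_smul_iff' (g : Equiv.Perm GolayPt) (a b : Finset GolayPt) :
    Disjoint (g • a) (g • b) ↔ Disjoint a b := by
  rw [Finset.disjoint_iff_inter_eq_empty, Finset.disjoint_iff_inter_eq_empty,
    ← Finset.smul_finset_inter, Finset.smul_finset_eq_empty]

abbrev s0 : Finset GolayPt := {pt 1, pt 2}

theorem pt_neq {i j : ℕ} (hi : i < 24) (hj : j < 24) (h : i ≠ j) : pt i ≠ pt j := by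
  intro e
  apply h
  have := congrArg idx e
  rwa [idx_pt hi, idx_pt hj] at this

theorem smul_pair (g : Equiv.Perm GolayPt) (a b : GolayPt) :
    g • ({a, b} : Finset GolayPt) = {g a, g b} := by
  rw [Finset.smul_finset_insert, Finset.smul_finset_singleton, Equiv.Perm.smul_def,
    Equiv.Perm.smul_def]

theorem cnt30 : countBelow 276 (fun i => Nat.beq (Nat.land 8388615 (getR 24 s2A i)) 0 &&
    specialB (Nat.lor 8388615 (getR 24 s2A i))) = 30 := by decide +kernel
theorem cnt160 : countBelow 276 (fun i => Nat.beq (Nat.land 8388615 (getR 24 s2A i)) 0 &&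
    !(specialB (Nat.lor 8388615 (getR 24 s2A i)))) = 160 := by decide +kernel

theorem P22_std_iff (t : Finset GolayPt) :
    P22 (pt 23) (pt 0) s0 t ↔ ∃ o ∈ octads, setOf 8388615 ∪ t ⊆ o := by
  rw [setOf_4]
  constructor
  · rintro ⟨o, ho, h1, h2, h3⟩
    refine ⟨o, ho, ?_⟩
    intro a ha
    simp only [Finset.mem_union, Finset.mem_insert, Finset.mem_singleton] at ha
    rcases ha with (rfl | rfl | rfl | rfl) | ha
    · exact h1
    · exact h2
    · exact h3 (by simp)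
    · exact h3 (by simp)
    · exact h3 (Finset.mem_union_right _ ha)
  · rintro ⟨o, ho, h⟩
    refine ⟨o, ho, h (by simp), h (by simp), ?_⟩
    intro a ha
    simp only [Finset.mem_union, Finset.mem_insert, Finset.mem_singleton] at ha
    rcases ha with (rfl | rfl) | ha
    · exact h (by simp)
    · exact h (by simp)
    · exact h (Finset.mem_union_right _ ha)

theorem std_cond_iff (t : Finset GolayPt) :
    ((pt 23 ∉ t ∧ pt 0 ∉ t) ∧ Disjoint s0 t) ↔ Disjoint (setOf 8388615) t := by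
  rw [setOf_4]
  simp only [Finset.disjoint_insert_left, Finset.disjoint_singleton_left]
  tauto

theorem std_counts :
    {t : Finset GolayPt | (t.card = 2 ∧ pt 23 ∉ t ∧ pt 0 ∉ t) ∧ Disjoint s0 t ∧
      P22 (pt 23) (pt 0) s0 t}.ncard = 30 ∧
    {t : Finset GolayPt | (t.card = 2 ∧ pt 23 ∉ t ∧ pt 0 ∉ t) ∧ Disjoint s0 t ∧
      ¬ P22 (pt 23) (pt 0) s0 t}.ncard = 160 := by
  have hspec : ∀ i, specialB (Nat.lor 8388615 (getR 24 s2A i)) = true ↔
      P22 (pt 23) (pt 0) s0 (setOf (getR 24 s2A i)) := by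
    intro i
    have hlt : Nat.lor 8388615 (getR 24 s2A i) < 2 ^ 24 :=
      Nat.or_lt_two_pow (by norm_num) (getR_lt _ _ _)
    rw [specialB_iff hlt, P22_std_iff]
    have : setOf (Nat.lor 8388615 (getR 24 s2A i)) = setOf 8388615 ∪ setOf (getR 24 s2A i) :=
      setOf_or _ _
    rw [this]
  have hdis : ∀ i, Nat.beq (Nat.land 8388615 (getR 24 s2A i)) 0 = true ↔
      Disjoint (setOf 8388615) (setOf (getR 24 s2A i)) := by
    intro i
    rw [disjoint_setOf_iff (by norm_num), Nat.beq_eq]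
    rfl
  constructor
  · rw [← cnt30, ← ncard_enum_filter {s : Finset GolayPt | s.card = 2}
      (fun i => setOf (getR 24 s2A i)) 276 s2_enum.1 s2_enum.2 (mask_inj s2_inc)
      (fun t => Disjoint (setOf 8388615) t ∧ P22 (pt 23) (pt 0) s0 t) _
      (fun i _ => by rw [Bool.and_eq_true, hdis, hspec])]
    congr 1
    ext t
    simp only [Set.mem_ofPred_eq, ← std_cond_iff]
    tauto
  · rw [← cnt160, ← ncard_enum_filter {s : Finset GolayPt | s.card = 2}
      (fun i => setOf (getR 24 s2A i)) 276 s2_enum.1 s2_enum.2 (mask_inj s2_inc)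
      (fun t => Disjoint (setOf 8388615) t ∧ ¬ P22 (pt 23) (pt 0) s0 t) _
      (fun i _ => by rw [Bool.and_eq_true, hdis, Bool.not_eq_true', ← Bool.not_eq_true, hspec])]
    congr 1
    ext t
    simp only [Set.mem_ofPred_eq, ← std_cond_iff]
    tauto

theorem P22_35 : P22 (pt 23) (pt 0) s0 {pt 3, pt 5} := by
  refine ⟨setOf 8536111, O0_mem, ?_, ?_, ?_⟩
  · rw [pt_mem_setOf (by norm_num)]; decide
  · rw [pt_mem_setOf (by norm_num)]; decide
  · intro a ha
    simp only [Finset.mem_union, Finset.mem_insert, Finset.mem_singleton] at ha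
    rcases ha with (rfl | rfl) | (rfl | rfl) <;> (rw [pt_mem_setOf (by norm_num)]; decide)

theorem not_P22_34 : ¬ P22 (pt 23) (pt 0) s0 {pt 3, pt 4} := by
  rintro ⟨o, ho, h1, h2, h3⟩
  have : o = setOf 8536111 := by
    apply eq_O0_of_subset ho
    rw [setOf_5]
    intro a ha
    simp only [Finset.mem_insert, Finset.mem_singleton] at ha
    rcases ha with rfl | rfl | rfl | rfl | rfl
    · exact h1
    · exact h2
    · exact h3 (by simp)
    · exact h3 (by simp)
    · exact h3 (by simp)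
  have h4 : pt 4 ∈ o := h3 (by simp)
  rw [this, pt_mem_setOf (by norm_num)] at h4
  revert h4; decide

/-- normal form of a duad with respect to the stabiliser of `23`, `0` and `{1, 2}` -/
theorem duad_norm (t : Finset GolayPt) (ht : t.card = 2) (h23 : pt 23 ∉ t) (h0 : pt 0 ∉ t)
    (hne : t ≠ s0) :
    ∃ h ∈ M24, h (pt 23) = pt 23 ∧ h (pt 0) = pt 0 ∧ h • s0 = s0 ∧
      (((s0 ∩ t).card = 1 ∧ h • t = {pt 1, pt 3}) ∨
       ((s0 ∩ t).card = 0 ∧ P22 (pt 23) (pt 0) s0 t ∧ h • t = {pt 3, pt 5}) ∨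
       ((s0 ∩ t).card = 0 ∧ ¬ P22 (pt 23) (pt 0) s0 t ∧ h • t = {pt 3, pt 4})) := by
  obtain ⟨x, y, hxy, rfl⟩ := Finset.card_eq_two.mp ht
  simp only [Finset.mem_insert, Finset.mem_singleton, not_or] at h23 h0
  have p12 : pt 1 ≠ pt 2 := pt_neq (by norm_num) (by norm_num) (by norm_num)
  -- the case of one common point
  have one : ∀ x y : GolayPt, x ≠ y → pt 23 ≠ x → pt 23 ≠ y → pt 0 ≠ x → pt 0 ≠ y → x ∈ s0 →
      y ∉ s0 → ∃ h ∈ M24, h (pt 23) = pt 23 ∧ h (pt 0) = pt 0 ∧ h • s0 = s0 ∧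
      ((s0 ∩ {x, y}).card = 1 ∧ h • ({x, y} : Finset GolayPt) = {pt 1, pt 3}) := by
    intro x y hxy a1 a2 a3 a4 hx hy
    obtain ⟨x', hx', hs⟩ : ∃ x', x ≠ x' ∧ s0 = {x, x'} := by
      simp only [Finset.mem_insert, Finset.mem_singleton] at hx
      rcases hx with rfl | rfl
      · exact ⟨pt 2, p12, rfl⟩
      · exact ⟨pt 1, p12.symm, Finset.pair_comm _ _⟩
    have hx's : x' ∈ s0 := by rw [hs]; simp
    have b1 : pt 23 ≠ x' := by
      intro e
      rw [← e] at hx's
      simp only [Finset.mem_insert, Finset.mem_singleton] at hx's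
      rcases hx's with e | e
      · exact pt_neq (by norm_num) (by norm_num) (by norm_num : (23 : ℕ) ≠ 1) e
      · exact pt_neq (by norm_num) (by norm_num) (by norm_num : (23 : ℕ) ≠ 2) e
    have b2 : pt 0 ≠ x' := by
      intro e
      rw [← e] at hx's
      simp only [Finset.mem_insert, Finset.mem_singleton] at hx's
      rcases hx's with e | e
      · exact pt_neq (by norm_num) (by norm_num) (by norm_num : (0 : ℕ) ≠ 1) e
      · exact pt_neq (by norm_num) (by norm_num) (by norm_num : (0 : ℕ) ≠ 2) e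
    have p230 : pt 23 ≠ pt 0 := pt_neq (by norm_num) (by norm_num) (by norm_num)
    obtain ⟨g, hg, g0, g1, g2, g3⟩ := move4 p230 a1 a3 b1 b2 hx'
    have hyx' : y ≠ x' := fun e => hy (e ▸ hx's)
    have n0 : g y ≠ pt 23 := fun h => a2 (g.injective (g0.trans h.symm))
    have n1 : g y ≠ pt 0 := fun h => a4 (g.injective (g1.trans h.symm))
    have n2 : g y ≠ pt 1 := fun h => hxy (g.injective (g2.trans h.symm))
    have n3 : g y ≠ pt 2 := fun h => hyx' (g.injective (h.trans g3.symm))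
    obtain ⟨k, hk, hk1⟩ :=
      level_move chain4 (g y) (tb4 _ (idx_lt _) (idx_ne n0) (idx_ne n1) (idx_ne n2) (idx_ne n3))
    have k23 := GInv_fix hk (i := 23) (by norm_num) (by simp)
    have k0 := GInv_fix hk (i := 0) (by norm_num) (by simp)
    have k1 := GInv_fix hk (i := 1) (by norm_num) (by simp)
    have k2 := GInv_fix hk (i := 2) (by norm_num) (by simp)
    refine ⟨k * g, M24.mul_mem hk.1 hg, ?_, ?_, ?_, ?_, ?_⟩
    · rw [Equiv.Perm.mul_apply, g0, k23]
    · rw [Equiv.Perm.mul_apply, g1, k0]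
    · conv_lhs => rw [hs]
      rw [smul_pair, Equiv.Perm.mul_apply, Equiv.Perm.mul_apply, g2, g3, k1, k2]
    · have : s0 ∩ {x, y} = {x} := by
        ext a
        simp only [Finset.mem_inter, Finset.mem_singleton]
        constructor
        · rintro ⟨h1, h2⟩
          simp only [Finset.mem_insert, Finset.mem_singleton] at h2
          rcases h2 with rfl | rfl
          · rfl
          · exact absurd h1 hy
        · rintro rfl
          exact ⟨hx, by simp⟩
      rw [this, Finset.card_singleton]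
    · rw [smul_pair, Equiv.Perm.mul_apply, Equiv.Perm.mul_apply, g2, k1, hk1]
  by_cases hx : x ∈ s0
  · by_cases hy : y ∈ s0
    · exfalso
      apply hne
      apply Finset.eq_of_subset_of_card_le
      · intro a ha
        simp only [Finset.mem_insert, Finset.mem_singleton] at ha
        rcases ha with rfl | rfl
        · exact hx
        · exact hy
      · rw [Finset.card_pair p12, Finset.card_pair hxy]
    · obtain ⟨h, hh, e1, e2, e3, e4⟩ := one x y hxy h23.1 h23.2 h0.1 h0.2 hx hy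
      exact ⟨h, hh, e1, e2, e3, Or.inl e4⟩
  · by_cases hy : y ∈ s0
    · obtain ⟨h, hh, e1, e2, e3, e4⟩ := one y x hxy.symm h23.2 h23.1 h0.2 h0.1 hy hx
      rw [Finset.pair_comm y x] at e4
      exact ⟨h, hh, e1, e2, e3, Or.inl e4⟩
    · -- disjoint duads
      have hcard : (s0 ∩ {x, y}).card = 0 := by
        rw [Finset.card_eq_zero, Finset.eq_empty_iff_forall_notMem]
        intro a ha
        simp only [Finset.mem_inter] at ha
        obtain ⟨h1, h2⟩ := ha
        simp only [Finset.mem_insert, Finset.mem_singleton] at h2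
        rcases h2 with rfl | rfl
        · exact hx h1
        · exact hy h1
      simp only [Finset.mem_insert, Finset.mem_singleton, not_or] at hx hy
      obtain ⟨k, hk, hk1⟩ := level_move chain4 x (tb4 _ (idx_lt _) (idx_ne (Ne.symm h23.1))
        (idx_ne (Ne.symm h0.1)) (idx_ne hx.1) (idx_ne hx.2))
      have k23 := GInv_fix hk (i := 23) (by norm_num) (by simp)
      have k0 := GInv_fix hk (i := 0) (by norm_num) (by simp)
      have k1 := GInv_fix hk (i := 1) (by norm_num) (by simp)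
      have k2 := GInv_fix hk (i := 2) (by norm_num) (by simp)
      have n0 : k y ≠ pt 23 := fun h => h23.2 (k.injective (k23.trans h.symm))
      have n1 : k y ≠ pt 0 := fun h => h0.2 (k.injective (k0.trans h.symm))
      have n2 : k y ≠ pt 1 := fun h => hy.1 (k.injective (h.trans k1.symm))
      have n3 : k y ≠ pt 2 := fun h => hy.2 (k.injective (h.trans k2.symm))
      have n4 : k y ≠ pt 3 := fun h => hxy (k.injective (hk1.trans h.symm))
      have fin : ∀ (b : ℕ) (m : Equiv.Perm GolayPt),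
          m ∈ GInv [2 ^ 3, 2 ^ 2, 2 ^ 1, 2 ^ 0, 2 ^ 23] → m (k y) = pt b →
          (m * k) ∈ M24 ∧ (m * k) (pt 23) = pt 23 ∧ (m * k) (pt 0) = pt 0 ∧ (m * k) • s0 = s0 ∧
            (m * k) • ({x, y} : Finset GolayPt) = {pt 3, pt b} := by
        intro b m hm hmb
        have m23 := GInv_fix hm (i := 23) (by norm_num) (by simp)
        have m0 := GInv_fix hm (i := 0) (by norm_num) (by simp)
        have m1 := GInv_fix hm (i := 1) (by norm_num) (by simp)
        have m2 := GInv_fix hm (i := 2) (by norm_num) (by simp)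
        have m3 := GInv_fix hm (i := 3) (by norm_num) (by simp)
        refine ⟨M24.mul_mem hm.1 hk.1, ?_, ?_, ?_, ?_⟩
        · rw [Equiv.Perm.mul_apply, k23, m23]
        · rw [Equiv.Perm.mul_apply, k0, m0]
        · rw [smul_pair, Equiv.Perm.mul_apply, Equiv.Perm.mul_apply, k1, k2, m1, m2]
        · rw [smul_pair, Equiv.Perm.mul_apply, Equiv.Perm.mul_apply, hk1, m3, hmb]
      by_cases hO : k y ∈ setOf 8536111
      · rw [mem_setOf] at hO
        obtain ⟨m, hm, hm1⟩ := level_move six53 (k y)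
          (tb_in _ (idx_lt _) ⟨hO, idx_ne n0, idx_ne n1, idx_ne n2, idx_ne n3, idx_ne n4⟩)
        obtain ⟨f1, f2, f3, f4, f5⟩ := fin 5 m hm hm1
        refine ⟨m * k, f1, f2, f3, f4, Or.inr (Or.inl ⟨hcard, ?_, f5⟩)⟩
        rw [← P22_smul f1, f2, f3, f4, f5]
        exact P22_35
      · rw [mem_setOf] at hO
        obtain ⟨m, hm, hm1⟩ := level_move chain5 (k y)
          (compl_O0 _ (idx_lt _) (by simpa using hO))
        obtain ⟨f1, f2, f3, f4, f5⟩ := fin 4 m hm hm1
        refine ⟨m * k, f1, f2, f3, f4, Or.inr (Or.inr ⟨hcard, ?_, f5⟩)⟩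
        rw [← P22_smul f1, f2, f3, f4, f5]
        exact not_P22_34

theorem duad_std_trans (t t' : Finset GolayPt) (ht : t.card = 2 ∧ pt 23 ∉ t ∧ pt 0 ∉ t)
    (ht' : t'.card = 2 ∧ pt 23 ∉ t' ∧ pt 0 ∉ t') (hne : t ≠ s0) (hne' : t' ≠ s0)
    (hc : (s0 ∩ t).card = (s0 ∩ t').card)
    (hP : P22 (pt 23) (pt 0) s0 t ↔ P22 (pt 23) (pt 0) s0 t') :
    ∃ g ∈ M24, g (pt 23) = pt 23 ∧ g (pt 0) = pt 0 ∧ g • s0 = s0 ∧ g • t = t' := by
  obtain ⟨h, hh, a1, a2, a3, a4⟩ := duad_norm t ht.1 ht.2.1 ht.2.2 hne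
  obtain ⟨k, hk, b1, b2, b3, b4⟩ := duad_norm t' ht'.1 ht'.2.1 ht'.2.2 hne'
  have key : h • t = k • t' := by
    rcases a4 with ⟨c1, e1⟩ | ⟨c1, d1, e1⟩ | ⟨c1, d1, e1⟩ <;>
      rcases b4 with ⟨c2, e2⟩ | ⟨c2, d2, e2⟩ | ⟨c2, d2, e2⟩
    · rw [e1, e2]
    · omega
    · omega
    · omega
    · rw [e1, e2]
    · exact absurd (hP.mp d1) d2
    · omega
    · exact absurd (hP.mpr d2) d1
    · rw [e1, e2]
  refine ⟨k⁻¹ * h, M24.mul_mem (M24.inv_mem hk) hh, ?_, ?_, ?_, ?_⟩
  · rw [Equiv.Perm.mul_apply, a1, Equiv.Perm.inv_eq_iff_eq, b1]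
  · rw [Equiv.Perm.mul_apply, a2, Equiv.Perm.inv_eq_iff_eq, b2]
  · rw [mul_smul, a3, inv_smul_eq_iff, b3]
  · rw [mul_smul, key, inv_smul_smul]

theorem duad_main (p q : GolayPt) (hpq : p ≠ q) (s : Finset GolayPt)
    (hs : (s.card = 2 ∧ p ∉ s ∧ q ∉ s)) :
    {t : Finset GolayPt | (t.card = 2 ∧ p ∉ t ∧ q ∉ t) ∧ Disjoint s t ∧ P22 p q s t}.ncard = 30 ∧
    {t : Finset GolayPt | (t.card = 2 ∧ p ∉ t ∧ q ∉ t) ∧ Disjoint s t ∧
      ¬ P22 p q s t}.ncard = 160 ∧
    ∀ t t' : Finset GolayPt, (t.card = 2 ∧ p ∉ t ∧ q ∉ t) → (t'.card = 2 ∧ p ∉ t' ∧ q ∉ t') →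
      t ≠ s → t' ≠ s → (s ∩ t).card = (s ∩ t').card → (P22 p q s t ↔ P22 p q s t') →
      ∃ g : Equiv.Perm GolayPt, g ∈ M24 ∧ g p = p ∧ g q = q ∧ g • s = s ∧ g • t = t' := by
  obtain ⟨hs2, hps, hqs⟩ := hs
  obtain ⟨a, b, hab, rfl⟩ := Finset.card_eq_two.mp hs2
  simp only [Finset.mem_insert, Finset.mem_singleton, not_or] at hps hqs
  obtain ⟨w, hw, w0, w1, w2, w3⟩ := move4 hpq hps.1 hqs.1 hps.2 hqs.2 hab
  have hws : w • ({a, b} : Finset GolayPt) = s0 := by rw [smul_pair, w2, w3]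
  have c1 : ∀ t : Finset GolayPt, (t.card = 2 ∧ p ∉ t ∧ q ∉ t) ↔
      ((w • t).card = 2 ∧ pt 23 ∉ w • t ∧ pt 0 ∉ w • t) := by
    intro t
    rw [Finset.card_smul_finset, ← w0, ← w1, apply_mem_smul_iff, apply_mem_smul_iff]
  have c2 : ∀ t : Finset GolayPt, Disjoint ({a, b} : Finset GolayPt) t ↔ Disjoint s0 (w • t) := by
    intro t
    rw [← hws, disjoint_smul_iff']
  have c3 : ∀ t : Finset GolayPt, P22 p q {a, b} t ↔ P22 (pt 23) (pt 0) s0 (w • t) := by
    intro t
    rw [← hws, ← w0, ← w1, P22_smul hw]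
  refine ⟨?_, ?_, ?_⟩
  · rw [← std_counts.1, ← ncard_smul_pred w (fun t : Finset GolayPt =>
      (t.card = 2 ∧ pt 23 ∉ t ∧ pt 0 ∉ t) ∧ Disjoint s0 t ∧ P22 (pt 23) (pt 0) s0 t)]
    congr 1
    ext t
    simp only [Set.mem_ofPred_eq]
    rw [c1, c2, c3]
  · rw [← std_counts.2, ← ncard_smul_pred w (fun t : Finset GolayPt =>
      (t.card = 2 ∧ pt 23 ∉ t ∧ pt 0 ∉ t) ∧ Disjoint s0 t ∧ ¬ P22 (pt 23) (pt 0) s0 t)]
    congr 1
    ext t
    simp only [Set.mem_ofPred_eq]
    rw [c1, c2, c3]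
  · intro t t' ht ht' hne hne' hc hP
    have d1 : ∀ u : Finset GolayPt, u ≠ {a, b} → w • u ≠ s0 := by
      intro u hu e
      rw [← hws] at e
      exact hu (smul_left_cancel w e)
    have d2 : ∀ u : Finset GolayPt, (s0 ∩ w • u).card = (({a, b} : Finset GolayPt) ∩ u).card := by
      intro u
      rw [← hws, ← Finset.smul_finset_inter, Finset.card_smul_finset]
    obtain ⟨g, hg, g1, g2, g3, g4⟩ := duad_std_trans (w • t) (w • t') ((c1 t).mp ht)
      ((c1 t').mp ht') (d1 t hne) (d1 t' hne') (by rw [d2, d2, hc]) (by rw [← c3, ← c3, hP])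
    refine ⟨w⁻¹ * g * w, M24.mul_mem (M24.mul_mem (M24.inv_mem hw) hg) hw, ?_, ?_, ?_, ?_⟩
    · rw [Equiv.Perm.mul_apply, Equiv.Perm.mul_apply, w0, g1, Equiv.Perm.inv_eq_iff_eq, w0]
    · rw [Equiv.Perm.mul_apply, Equiv.Perm.mul_apply, w1, g2, Equiv.Perm.inv_eq_iff_eq, w1]
    · rw [mul_smul, mul_smul, hws, g3, inv_smul_eq_iff, hws]
    · rw [mul_smul, mul_smul, g4, inv_smul_smul]

end Cfsg.Agent.Lib.Helper8
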