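import Cfsg.Agent.Lib.Helper8.SlpData
import Cfsg.Agent.Lib.Helper8.Named
import Cfsg.Agent.Lib.Helper8.M24Order
import Cfsg.Agent.Lib.Helper8.GList

set_option autoImplicit false

namespace Cfsg.Agent.Lib.Helper8

open Cfsg
open scoped Pointwise

def H3 : Subgroup (Equiv.Perm GolayPt) :=
  Subgroup.closure {toPerm Talpha, toPerm Tgamma, toPerm Tdelta}

theorem slp_chk : allBelow slpN (fun k => validT (getR 120 slpA k) && (Nat.blt k 3 ||
    (Nat.blt (getR 12 slpI k) k && Nat.blt (getR 12 slpJ k) k &&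
    allBelow 24 (fun x => Nat.beq (img (getR 120 slpA k) x)
      (img (getR 120 slpA (getR 12 slpI k)) (img (getR 120 slpA (getR 12 slpJ k)) x)))))) = true := by
  decide +kernel

theorem slp_base : getR 120 slpA 0 = Talpha ∧ getR 120 slpA 1 = Tgamma ∧
    getR 120 slpA 2 = Tdelta := by decide +kernel

theorem slp_valid : ∀ k < slpN, validT (getR 120 slpA k) = true := by
  intro k hk
  have h := of_allBelow slp_chk k hk
  rw [Bool.and_eq_true] at h
  exact h.1

theorem slp_mem : ∀ k < slpN, toPerm (getR 120 slpA k) ∈ H3 := by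
  intro k
  induction k using Nat.strong_induction_on with
  | _ k ih =>
    intro hk
    have h := of_allBelow slp_chk k hk
    rw [Bool.and_eq_true, Bool.or_eq_true] at h
    obtain ⟨hv, h | h⟩ := h
    · have hk3 : k < 3 := Nat.le_of_ble_eq_true h
      interval_cases k
      · rw [slp_base.1]; exact Subgroup.subset_closure (by simp)
      · rw [slp_base.2.1]; exact Subgroup.subset_closure (by simp)
      · rw [slp_base.2.2]; exact Subgroup.subset_closure (by simp)
    · simp only [Bool.and_eq_true] at h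
      obtain ⟨⟨hi, hj⟩, hc⟩ := h
      have hi' : getR 12 slpI k < k := Nat.le_of_ble_eq_true hi
      have hj' : getR 12 slpJ k < k := Nat.le_of_ble_eq_true hj
      have hvi := slp_valid _ (lt_trans hi' hk)
      have hvj := slp_valid _ (lt_trans hj' hk)
      have e : toPerm (getR 120 slpA k) = toPerm (getR 120 slpA (getR 12 slpI k)) *
          toPerm (getR 120 slpA (getR 12 slpJ k)) := by
        apply Equiv.ext
        intro p
        have hp := idx_lt p
        rw [← pt_idx p, Equiv.Perm.mul_apply, toPerm_pt hv hp, toPerm_pt hvj hp,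
          toPerm_pt hvi (img_lt hvj hp), Nat.eq_of_beq_eq_true (of_allBelow hc _ hp)]
      rw [e]
      exact H3.mul_mem (ih _ hi' (lt_trans hi' hk)) (ih _ hj' (lt_trans hj' hk))

theorem sift_step {L Ts : List ℕ} {prog : List (ℕ × ℕ × ℕ)} {b D parP gnP levP : ℕ}
    (h : levelCheck L Ts prog b D parP gnP levP = true) (X : ℕ)
    (chk : allBelow 24 (fun j => !(D.testBit j) || (Nat.blt (getR 12 X j) slpN &&
      invTestF L (getR 120 slpA (getR 12 X j)) &&
      Nat.beq (img (getR 120 slpA (getR 12 X j)) b) j)) = true)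
    (hnext : GInv (2 ^ b :: L) ≤ H3) : GInv L ≤ H3 := by
  intro g hg
  have horb := level_orbit h
  have hb : b < 24 := by
    simp only [levelCheck, Bool.and_eq_true] at h
    exact Nat.le_of_ble_eq_true h.1.2
  have hgb : g (pt b) ∈ setOf D := by
    have : g (pt b) ∈ MulAction.orbit (GInv L) (pt b) := ⟨⟨g, hg⟩, rfl⟩
    rw [horb] at this
    exact this
  rw [mem_setOf] at hgb
  have hc := of_allBelow chk _ (idx_lt (g (pt b)))
  rw [hgb] at hc
  simp only [Bool.not_true, Bool.false_or, Bool.and_eq_true] at hc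
  obtain ⟨⟨h1, h2⟩, h3⟩ := hc
  rw [invTestF_eq] at h2
  obtain ⟨hv, hU⟩ := toPerm_mem_GInv h2
  have hUb : toPerm (getR 120 slpA (getR 12 X (idx (g (pt b))))) (pt b) = g (pt b) := by
    rw [toPerm_pt hv hb, Nat.eq_of_beq_eq_true h3, pt_idx]
  have hmem : (toPerm (getR 120 slpA (getR 12 X (idx (g (pt b))))))⁻¹ * g ∈ GInv (2 ^ b :: L) := by
    rw [GInv_cons_pt hb]
    refine ⟨(GInv L).mul_mem ((GInv L).inv_mem hU) hg, ?_⟩
    show ((toPerm (getR 120 slpA (getR 12 X (idx (g (pt b))))))⁻¹ * g) (pt b) = pt b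
    rw [Equiv.Perm.mul_apply, Equiv.Perm.inv_eq_iff_eq, hUb]
  have e : g = toPerm (getR 120 slpA (getR 12 X (idx (g (pt b))))) *
      ((toPerm (getR 120 slpA (getR 12 X (idx (g (pt b))))))⁻¹ * g) := by group
  rw [e]
  exact H3.mul_mem (slp_mem _ (Nat.le_of_ble_eq_true h1)) (hnext hmem)

theorem M24_le_H3 : M24 ≤ H3 := by
  rw [← GInv_nil]
  refine sift_step chain0 slpX0 (by decide +kernel) ?_
  refine sift_step chain1 slpX1 (by decide +kernel) ?_
  refine sift_step chain2 slpX2 (by decide +kernel) ?_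
  refine sift_step chain3 slpX3 (by decide +kernel) ?_
  refine sift_step chain4 slpX4 (by decide +kernel) ?_
  refine sift_step chain5 slpX5 (by decide +kernel) ?_
  refine sift_step chain6 slpX6 (by decide +kernel) ?_
  rw [GInv_eq_bot chain7]
  exact bot_le

theorem gen24 : Subgroup.closure {Equiv.optionCongr (Equiv.addRight (1 : ZMod 23)), projInv,
    cubeTwist} = M24 := by
  rw [alpha_eq, gamma_eq, delta_eq]
  apply le_antisymm
  · rw [Subgroup.closure_le]
    intro x hx
    simp only [Set.mem_insert_iff, Set.mem_singleton_iff] at hx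
    rcases hx with rfl | rfl | rfl
    · exact toPerm_mem_M24 inM24_alpha
    · exact toPerm_mem_M24 inM24_gamma
    · exact toPerm_mem_M24 inM24_delta
  · exact M24_le_H3

end Cfsg.Agent.Lib.Helper8
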