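import Cfsg.Agent.Lib.Helper8.OctSpan
import Cfsg.Agent.Lib.Helper8.Norm

set_option autoImplicit false

namespace Cfsg.Agent.Lib.Helper8

open Cfsg
open scoped Pointwise

local notation "Cd" => supports (golayCode : Set (GolayPt → ZMod 2))

def nfTest (Ts : List ℕ) : Bool :=
  allBelow 4096 (fun k => Nat.beq k 0 ||
    Ts.any (fun T => !isCode (applyMask T (k <<< 12) ^^^ (k <<< 12))))

theorem nf_core {Ts : List ℕ} (hTs : ∀ T ∈ Ts, inM24 T = true) (h : nfTest Ts = true)
    {s : Finset GolayPt} (hs : s ∉ Cd) : ∃ T ∈ Ts, symmDiff (toPerm T • s) s ∉ Cd := by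
  set m := maskS s with hm
  set c := codeOf (m &&& 4095) with hc
  set r := m ^^^ c with hr
  have hmlt : m < 2 ^ 24 := maskS_lt s
  have hclt : c < 2 ^ 24 := codeOf_lt _
  have hrlt : r < 2 ^ 24 := Nat.xor_lt_two_pow hmlt hclt
  have h4 : m &&& 4095 < 4096 := lt_of_le_of_lt Nat.and_le_right (by norm_num)
  have hlow : r &&& 4095 = 0 := by
    rw [hr, Nat.and_xor_distrib_right, hc, codeOf_and_eq h4, Nat.xor_self]
  have hk : (r >>> 12) <<< 12 = r := by
    apply Nat.eq_of_testBit_eq
    intro i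
    rw [Nat.testBit_shiftLeft, Nat.testBit_shiftRight]
    by_cases hi : 12 ≤ i
    · simp [hi]
    · have h1 := congrArg (fun x => x.testBit i) hlow
      simp only [Nat.testBit_and, Nat.zero_testBit] at h1
      have h2 : (4095 : ℕ).testBit i = true := by
        have : ∀ i < 12, (4095 : ℕ).testBit i = true := by decide
        exact this i (by omega)
      rw [h2, Bool.and_true] at h1
      simp [hi, h1]
  have hklt : r >>> 12 < 4096 := by
    rw [Nat.shiftRight_eq_div_pow]
    exact Nat.div_lt_of_lt_mul (by norm_num at hrlt ⊢; omega)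
  have hcC : isCode c = true := isCode_codeOf h4
  have hk0 : r >>> 12 ≠ 0 := by
    intro h0
    rw [h0] at hk
    have hr0 : r = 0 := by rw [← hk]; simp
    have : m = c := by
      have := Nat.xor_eq_zero_iff.mp (hr ▸ hr0 : m ^^^ c = 0)
      exact this
    apply hs
    rw [mem_supports_iff, ← hm, this]; exact hcC
  have h1 := of_allBelow h _ hklt
  rw [hk, Bool.or_eq_true] at h1
  rcases h1 with h1 | h1
  · exact absurd (Nat.eq_of_beq_eq_true h1) hk0
  obtain ⟨T, hT, hTr⟩ := List.any_eq_true.mp h1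
  refine ⟨T, hT, ?_⟩
  have hv := validT_of_inM24 (hTs T hT)
  have hM := toPerm_mem_M24 (hTs T hT)
  have hsAB : s = symmDiff (setOf r) (setOf c) := by
    rw [← setOf_xor, hr, Nat.xor_assoc, Nat.xor_self, Nat.xor_zero, hm, setOf_maskS]
  have hB : setOf c ∈ Cd := (setOf_mem_supports_iff hclt).mpr hcC
  have hX : symmDiff (toPerm T • setOf r) (setOf r) ∉ Cd := by
    rw [toPerm_smul_setOf hv, ← setOf_xor,
      setOf_mem_supports_iff (Nat.xor_lt_two_pow (applyMask_lt hv _) hrlt)]
    simpa using hTr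
  intro hcon
  apply hX
  have hY : symmDiff (toPerm T • setOf c) (setOf c) ∈ Cd :=
    symmDiff_mem_supports (smul_mem_supports hM hB) hB
  have e : symmDiff (toPerm T • s) s = symmDiff (symmDiff (toPerm T • setOf r) (setOf r))
      (symmDiff (toPerm T • setOf c) (setOf c)) := by
    rw [hsAB, Finset.smul_finset_symmDiff, symmDiff_symmDiff_symmDiff_comm]
  rw [e] at hcon
  have := symmDiff_mem_supports hcon hY
  rwa [symmDiff_symmDiff_cancel_right] at this

theorem nf_norm {Ts : List ℕ} {U0 : Finset GolayPt} (hTs : ∀ T ∈ Ts, inM24 T = true)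
    (hfix : ∀ T ∈ Ts, toPerm T • U0 = U0) (h : nfTest Ts = true) {U : Finset GolayPt}
    (hU : ∃ g ∈ M24, g • U = U0) {s : Finset GolayPt} (hs : s ∉ Cd) :
    ∃ σ ∈ M24, σ • U = U ∧ symmDiff (σ • s) s ∉ Cd := by
  obtain ⟨g, hg, hgU⟩ := hU
  have hs' : g • s ∉ Cd := by
    intro hc
    apply hs
    have := smul_mem_supports (M24.inv_mem hg) hc
    rwa [inv_smul_smul] at this
  obtain ⟨T, hT, hTs'⟩ := nf_core hTs h hs'
  refine ⟨g⁻¹ * toPerm T * g, M24.mul_mem (M24.mul_mem (M24.inv_mem hg)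
    (toPerm_mem_M24 (hTs T hT))) hg, ?_, ?_⟩
  · rw [mul_smul, mul_smul, hgU, hfix T hT, ← hgU, inv_smul_smul]
  · intro hc
    apply hTs'
    have := smul_mem_supports hg hc
    rwa [Finset.smul_finset_symmDiff, mul_smul, mul_smul, smul_inv_smul] at this

def nfO : List ℕ := [93883021736812005321344018111992867, 979080465032775039974308382255416433]
def nfD : List ℕ := [648172095684833859427867050832377124, 962658354212314660125311250697832864]

theorem nfO_mem : nfO.all (fun T => inM24 T && Nat.beq (applyMask T 8536111) 8536111) = true := by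
  decide +kernel
theorem nfD_mem : nfD.all (fun T => inM24 T && Nat.beq (applyMask T 340831) 340831) = true := by
  decide +kernel
theorem nfO_test : nfTest nfO = true := by decide +kernel
theorem nfD_test : nfTest nfD = true := by decide +kernel

theorem nf_oct {U : Finset GolayPt} (hU : U ∈ octads) {s : Finset GolayPt} (hs : s ∉ Cd) :
    ∃ σ ∈ M24, σ • U = U ∧ symmDiff (σ • s) s ∉ Cd := by
  have h := fun T hT => Bool.and_eq_true _ _ ▸ List.all_eq_true.mp nfO_mem T hT
  refine nf_norm (fun T hT => (h T hT).1) (fun T hT => ?_) nfO_test (norm_O hU) hs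
  rw [toPerm_smul_setOf (validT_of_inM24 (h T hT).1), Nat.eq_of_beq_eq_true (h T hT).2]

theorem nf_dod {U : Finset GolayPt} (hU : U ∈ dodecads) {s : Finset GolayPt} (hs : s ∉ Cd) :
    ∃ σ ∈ M24, σ • U = U ∧ symmDiff (σ • s) s ∉ Cd := by
  have h := fun T hT => Bool.and_eq_true _ _ ▸ List.all_eq_true.mp nfD_mem T hT
  refine nf_norm (fun T hT => (h T hT).1) (fun T hT => ?_) nfD_test (norm_D hU) hs
  rw [toPerm_smul_setOf (validT_of_inM24 (h T hT).1), Nat.eq_of_beq_eq_true (h T hT).2]

theorem univ_mem_supports : (Finset.univ : Finset GolayPt) ∈ Cd := by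
  rw [← setOf_full, setOf_mem_supports_iff (by norm_num)]
  decide +kernel

theorem nf_all {U : Finset GolayPt} (hU : U ∈ Cd) {s : Finset GolayPt} (hs : s ∉ Cd) :
    ∃ σ ∈ M24, σ • U = U ∧ symmDiff (σ • s) s ∉ Cd := by
  rcases card_of_mem_supports hU with h | h | h | h | h
  · obtain ⟨σ, h1, -, h3⟩ := nf_oct O0_mem hs
    refine ⟨σ, h1, ?_, h3⟩
    rw [Finset.card_eq_zero.mp h, Finset.smul_finset_empty]
  · exact nf_oct ((mem_octads_iff U).mpr ⟨hU, h⟩) hs
  · exact nf_dod ((mem_dodecads_iff U).mpr ⟨hU, h⟩) hs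
  · have hc : Uᶜ ∈ octads := by
      rw [mem_octads_iff]
      refine ⟨?_, ?_⟩
      · have := symmDiff_mem_supports univ_mem_supports hU
        rwa [← Finset.top_eq_univ, top_symmDiff] at this
      · rw [Finset.card_compl, h]; decide
    obtain ⟨σ, h1, h2, h3⟩ := nf_oct hc hs
    refine ⟨σ, h1, ?_, h3⟩
    have : (σ • U)ᶜ = Uᶜ := by
      rw [← h2]
      ext x
      rw [Finset.mem_compl, ← Finset.inv_smul_mem_iff, ← Finset.inv_smul_mem_iff, Finset.mem_compl]
    exact compl_injective this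
  · obtain ⟨σ, h1, -, h3⟩ := nf_oct O0_mem hs
    refine ⟨σ, h1, ?_, h3⟩
    have : U = Finset.univ := by
      rw [← Finset.card_eq_iff_eq_univ, h]; decide
    rw [this, Finset.smul_finset_univ]

end Cfsg.Agent.Lib.Helper8
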