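import Cfsg.Agent.Lib.Helper8.InvSubData
import Cfsg.Agent.Lib.Helper8.NoFixCoset
import Cfsg.Agent.Lib.Helper8.Sets
import Cfsg.Agent.Lib.Helper8.GList

set_option autoImplicit false

namespace Cfsg.Agent.Lib.Helper8

open Cfsg
open scoped Pointwise

/-- reduction of a word modulo the code to a word on the twelve check positions -/
theorem exists_reduced (s : Finset GolayPt) : ∃ k < 4096, symmDiff s (setOf (k <<< 12)) ∈ CS := by
  set m := maskS s with hm
  set c := codeOf (m &&& 4095) with hc
  set r := m ^^^ c with hr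
  have hmlt : m < 2 ^ 24 := maskS_lt s
  have hclt : c < 2 ^ 24 := codeOf_lt _
  have hrlt : r < 2 ^ 24 := Nat.xor_lt_two_pow hmlt hclt
  have h4 : m &&& 4095 < 4096 := lt_of_le_of_lt Nat.and_le_right (by norm_num)
  have hlow : r &&& 4095 = 0 := by
    rw [hr, Nat.and_xor_distrib_right, hc, codeOf_and_eq h4, Nat.xor_self]
  have hk : (r >>> 12) <<< 12 = r := by
    apply Nat.eq_of_testBit_eq
    intro i
    rw [Nat.testBit_shiftLeft, Nat.testBit_shiftRight]
    by_cases hi : 12 ≤ i
    · simp [hi]
    · have h1 := congrArg (fun x => x.testBit i) hlow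
      simp only [Nat.testBit_and, Nat.zero_testBit] at h1
      have h2 : (4095 : ℕ).testBit i = true := by
        have : ∀ i < 12, (4095 : ℕ).testBit i = true := by decide
        exact this i (by omega)
      rw [h2, Bool.and_true] at h1
      simp [hi, h1]
  have hklt : r >>> 12 < 4096 := by
    rw [Nat.shiftRight_eq_div_pow]
    exact Nat.div_lt_of_lt_mul (by norm_num at hrlt ⊢; omega)
  refine ⟨r >>> 12, hklt, ?_⟩
  have hs : s = setOf m := by rw [hm, setOf_maskS]
  rw [hk, hs, ← setOf_xor, hr, ← Nat.xor_assoc, Nat.xor_self, Nat.zero_xor,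
    setOf_mem_supports_iff hclt]
  exact isCode_codeOf h4

theorem ld_chk : allBelow 4096 (fun k => isCode ((k <<< 12) ^^^ getR 24 ldA k) &&
    Nat.ble (popc (getR 24 ldA k)) 4) = true := by decide +kernel

theorem symmDiff_trans' (a b c : Finset GolayPt) :
    symmDiff (symmDiff a b) (symmDiff b c) = symmDiff a c := by
  rw [symmDiff_assoc, symmDiff_symmDiff_cancel_left]

/-- the covering radius of the code is four -/
theorem exists_leader (s : Finset GolayPt) :
    ∃ v : Finset GolayPt, v.card ≤ 4 ∧ symmDiff s v ∈ CS := by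
  obtain ⟨k, hk, hs⟩ := exists_reduced s
  have h := of_allBelow ld_chk k hk
  rw [Bool.and_eq_true] at h
  refine ⟨setOf (getR 24 ldA k), ?_, ?_⟩
  · rw [card_setOf]; exact Nat.le_of_ble_eq_true h.2
  · rw [← symmDiff_trans' s (setOf (k <<< 12))]
    apply symmDiff_mem_supports hs
    have hlt : k <<< 12 < 2 ^ 24 := by
      rw [Nat.shiftLeft_eq]; norm_num; omega
    rw [← setOf_xor, setOf_mem_supports_iff (Nat.xor_lt_two_pow hlt (getR_lt _ _ _))]
    exact h.1

structure InvFam (S : Set (Finset GolayPt)) : Prop where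
  zero : ∅ ∈ S
  add : ∀ a b, a ∈ S → b ∈ S → symmDiff a b ∈ S
  smul : ∀ σ ∈ M24, ∀ a ∈ S, σ • a ∈ S

theorem X1_mem : setOf octX1 ∈ octads := setOf_mem_octads (by decide +kernel)
theorem X2_mem : setOf octX2 ∈ octads := setOf_mem_octads (by decide +kernel)
theorem O0_X1 : symmDiff (setOf 8536111) (setOf octX1) = setOf octX2 := by
  rw [← setOf_xor]; rfl

theorem smul_compl' (k : Equiv.Perm GolayPt) (A : Finset GolayPt) : k • Aᶜ = (k • A)ᶜ := by
  ext x
  rw [Finset.mem_compl, ← Finset.inv_smul_mem_iff, ← Finset.inv_smul_mem_iff, Finset.mem_compl]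

theorem InvFam.CS_le {S : Set (Finset GolayPt)} (h : InvFam S) {A : Finset GolayPt} (hA : A ∈ S)
    (hAC : A ∈ CS) (h0 : A ≠ ∅) (h1 : A ≠ Finset.univ) : CS ⊆ S := by
  have full : (∃ o ∈ octads, o ∈ S) → CS ⊆ S := by
    rintro ⟨o, ho, hoS⟩ B hB
    refine CS_induction (fun A => A ∈ S) h.zero h.add ?_ hB
    intro o' ho'
    obtain ⟨g, hg, rfl⟩ := octad_trans ho ho'
    exact h.smul g hg o hoS
  rcases card_of_mem_supports hAC with hc | hc | hc | hc | hc
  · exact absurd (Finset.card_eq_zero.mp hc) h0
  · exact full ⟨A, ⟨hAC, hc⟩, hA⟩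
  · apply full
    have hD : A ∈ dodecads := ⟨hAC, hc⟩
    obtain ⟨g, hg, hg0⟩ := dodecad_trans hD D0_mem
    obtain ⟨g', hg', hg1⟩ := dodecad_trans hD D1_mem
    refine ⟨_, O3_mem, ?_⟩
    rw [← D0_D1, ← hg0, ← hg1]
    exact h.add _ _ (h.smul g hg A hA) (h.smul g' hg' A hA)
  · apply full
    have hO : Aᶜ ∈ octads := ⟨compl_mem_CS hAC, by rw [Finset.card_compl, hc, ← Finset.card_univ, card_pts]⟩
    obtain ⟨g, hg, hg0⟩ := octad_trans hO O0_mem
    obtain ⟨g', hg', hg1⟩ := octad_trans hO X1_mem
    refine ⟨_, X2_mem, ?_⟩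
    rw [← O0_X1, ← hg0, ← hg1, smul_compl', smul_compl', compl_symmDiff_compl]
    exact h.add _ _ (h.smul g hg A hA) (h.smul g' hg' A hA)
  · exact absurd ((Finset.card_eq_iff_eq_univ A).mp (hc.trans card_pts.symm)) h1

theorem set_trans4 {v t : Finset GolayPt} (h : t.card = v.card) (h1 : 1 ≤ v.card)
    (h4 : v.card ≤ 4) : ∃ g ∈ M24, g • v = t := by
  have key : ∀ k, 1 ≤ k → k ≤ 4 → ∃ std : Finset GolayPt, ∀ s : Finset GolayPt, s.card = k →
      ∃ g ∈ M24, g • s = std := by
    intro k hk1 hk4
    interval_cases k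
    · refine ⟨{pt 23}, fun s hs => ?_⟩
      obtain ⟨a, rfl⟩ := Finset.card_eq_one.mp hs
      obtain ⟨g, hg, h0⟩ := move1 a
      exact ⟨g, hg, by rw [Finset.smul_finset_singleton, Equiv.Perm.smul_def, h0]⟩
    · exact ⟨_, fun s hs => norm_set2 hs⟩
    · exact ⟨_, fun s hs => norm_set3 hs⟩
    · exact ⟨_, fun s hs => norm_set4 hs⟩
  obtain ⟨std, hstd⟩ := key v.card h1 h4
  obtain ⟨g1, hg1, e1⟩ := hstd v rfl
  obtain ⟨g2, hg2, e2⟩ := hstd t h
  exact ⟨g2⁻¹ * g1, M24.mul_mem (M24.inv_mem hg2) hg1, by
    rw [mul_smul, e1, ← e2, inv_smul_smul]⟩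

theorem InvFam.duads {S : Set (Finset GolayPt)} (h : InvFam S) {v : Finset GolayPt} (hv : v ∈ S)
    (h1 : 1 ≤ v.card) (h4 : v.card ≤ 4) {a b : GolayPt} (hab : a ≠ b) :
    ({a, b} : Finset GolayPt) ∈ S := by
  have hcard : v.card - 1 ≤ ((Finset.univ : Finset GolayPt) \ {a, b}).card := by
    rw [Finset.card_sdiff_of_subset (Finset.subset_univ _), card_pts, Finset.card_pair hab]; omega
  obtain ⟨R, hR, hRc⟩ := Finset.exists_subset_card_eq hcard
  have ha : a ∉ R := fun h' => by have := hR h'; simp at this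
  have hb : b ∉ R := fun h' => by have := hR h'; simp at this
  have e : ({a, b} : Finset GolayPt) = symmDiff (insert a R) (insert b R) := by
    ext x
    simp only [Finset.mem_symmDiff, Finset.mem_insert, Finset.mem_singleton]
    by_cases hxa : x = a
    · subst hxa; simp [hab, ha]
    · by_cases hxb : x = b
      · subst hxb; simp [hxa, hb]
      · simp [hxa, hxb]
  rw [e]
  apply h.add
  · obtain ⟨g, hg, hgv⟩ := set_trans4 (v := v) (t := insert a R)
      (by rw [Finset.card_insert_of_notMem ha, hRc]; omega) h1 h4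
    rw [← hgv]; exact h.smul g hg v hv
  · obtain ⟨g, hg, hgv⟩ := set_trans4 (v := v) (t := insert b R)
      (by rw [Finset.card_insert_of_notMem hb, hRc]; omega) h1 h4
    rw [← hgv]; exact h.smul g hg v hv

theorem InvFam.even {S : Set (Finset GolayPt)} (h : InvFam S)
    (hd : ∀ a b : GolayPt, a ≠ b → ({a, b} : Finset GolayPt) ∈ S) :
    ∀ s : Finset GolayPt, Even s.card → s ∈ S := by
  have key : ∀ n, ∀ s : Finset GolayPt, s.card = n → Even n → s ∈ S := by
    intro n
    induction n using Nat.strong_induction_on with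
    | _ n ih =>
      intro s hn he
      rcases Nat.eq_zero_or_pos n with h0 | hpos
      · rw [h0] at hn; rw [Finset.card_eq_zero.mp hn]; exact h.zero
      · have h2 : 1 < s.card := by rcases he with ⟨k, hk⟩; omega
        obtain ⟨a, ha, b, hb, hab⟩ := Finset.one_lt_card.mp h2
        have hsub : ({a, b} : Finset GolayPt) ⊆ s := by
          intro x hx
          simp only [Finset.mem_insert, Finset.mem_singleton] at hx
          rcases hx with rfl | rfl <;> assumption
        have e : s = symmDiff {a, b} (s \ {a, b}) := by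
          rw [Disjoint.symmDiff_eq_sup Finset.disjoint_sdiff, Finset.sup_eq_union,
            Finset.union_sdiff_of_subset hsub]
        have hc : (s \ {a, b}).card = n - 2 := by
          rw [Finset.card_sdiff_of_subset hsub, Finset.card_pair hab, hn]
        rw [e]
        apply h.add _ _ (hd a b hab)
        apply ih (n - 2) (by omega) _ hc
        rcases he with ⟨k, hk⟩
        exact ⟨k - 1, by omega⟩
  intro s hs
  exact key _ s rfl hs

theorem du_mem : duGens.all (fun T => inM24 T && Nat.beq (applyMask T 8388609) 8388609) = true := by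
  decide +kernel

theorem du_chk : allBelow 4096 (fun k => Nat.beq (codeOf k) 0 || Nat.beq (codeOf k) 16777215 ||
    duGens.any (fun T => !(Nat.beq (applyMask T (codeOf k) ^^^ codeOf k) 0) &&
      !(Nat.beq (applyMask T (codeOf k) ^^^ codeOf k) 16777215))) = true := by decide +kernel

theorem card_v01 : (symmDiff ({pt 23, pt 0} : Finset GolayPt) {pt 23, pt 1}).card = 2 := by
  decide +kernel

theorem inv_main {S : Set (Finset GolayPt)} (h : InvFam S) :
    (∀ A ∈ S, A = ∅ ∨ A = Finset.univ) ∨ S = CS ∨ (∀ s : Finset GolayPt, Even s.card → s ∈ S) := by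
  by_cases hsub : S ⊆ CS
  · by_cases hall : ∀ A ∈ S, A = ∅ ∨ A = Finset.univ
    · exact Or.inl hall
    · push Not at hall
      obtain ⟨A, hA, hA0, hA1⟩ := hall
      exact Or.inr (Or.inl (Set.Subset.antisymm hsub (h.CS_le hA (hsub hA) hA0.ne_empty hA1)))
  · right; right
    obtain ⟨s, hs, hsC⟩ := Set.not_subset.mp hsub
    set S' : Set (Finset GolayPt) := {x | ∃ a ∈ S, ∃ c ∈ CS, x = symmDiff a c} with hS'
    have h' : InvFam S' := by
      refine ⟨⟨∅, h.zero, ∅, empty_mem_CS, by simp⟩, ?_, ?_⟩
      · rintro _ _ ⟨a, ha, c, hc, rfl⟩ ⟨a', ha', c', hc', rfl⟩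
        exact ⟨_, h.add _ _ ha ha', _, symmDiff_mem_supports hc hc',
          symmDiff_symmDiff_symmDiff_comm _ _ _ _⟩
      · rintro σ hσ _ ⟨a, ha, c, hc, rfl⟩
        exact ⟨_, h.smul σ hσ a ha, _, smul_mem_supports hσ hc, Finset.smul_finset_symmDiff⟩
    obtain ⟨v, hv4, hvC⟩ := exists_leader s
    have hvS' : v ∈ S' := ⟨s, hs, _, hvC, (symmDiff_symmDiff_cancel_left s v).symm⟩
    have hv1 : 1 ≤ v.card := by
      rw [Nat.one_le_iff_ne_zero]
      intro h0
      rw [Finset.card_eq_zero.mp h0, ← Finset.bot_eq_empty, symmDiff_bot] at hvC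
      exact hsC hvC
    have h230 : pt 23 ≠ pt 0 := by decide
    obtain ⟨a, ha, c, hc, hac⟩ := h'.duads hvS' hv1 hv4 h230
    have haeq : a = symmDiff {pt 23, pt 0} c := by
      rw [hac, symmDiff_symmDiff_cancel_right]
    obtain ⟨k, hk, rfl⟩ := exists_of_mem_supports hc
    have hchk := of_allBelow du_chk k hk
    rw [Bool.or_eq_true, Bool.or_eq_true] at hchk
    rcases hchk with (h0 | h0) | h0
    · -- the duad itself
      rw [Nat.eq_of_beq_eq_true h0, setOf_zero, ← Finset.bot_eq_empty, symmDiff_bot] at haeq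
      have : a = {pt 23, pt 0} := haeq
      apply h.even
      intro x y hxy
      exact h.duads ha (by rw [this, Finset.card_pair h230]; norm_num)
        (by rw [this, Finset.card_pair h230]; norm_num) hxy
    · -- the complement of the duad
      rw [Nat.eq_of_beq_eq_true h0, setOf_full, ← Finset.top_eq_univ, symmDiff_top, hnot_eq_compl] at haeq
      have h231 : pt 23 ≠ pt 1 := by decide
      obtain ⟨g, hg, hgv⟩ := set_trans4 (v := {pt 23, pt 0}) (t := {pt 23, pt 1})
        (by rw [Finset.card_pair h230, Finset.card_pair h231])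
        (by rw [Finset.card_pair h230]; norm_num) (by rw [Finset.card_pair h230]; norm_num)
      have hx : symmDiff a (g • a) ∈ S := h.add _ _ ha (h.smul g hg a ha)
      rw [haeq, smul_compl', hgv, compl_symmDiff_compl] at hx
      apply h.even
      intro x y hxy
      exact h.duads hx (by rw [card_v01]; norm_num) (by rw [card_v01]; norm_num) hxy
    · obtain ⟨T, hT, hTx⟩ := List.any_eq_true.mp h0
      have hm := List.all_eq_true.mp du_mem T hT
      rw [Bool.and_eq_true] at hm hTx
      have hv := validT_of_inM24 hm.1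
      have hM := toPerm_mem_M24 hm.1
      have hfix : toPerm T • ({pt 23, pt 0} : Finset GolayPt) = {pt 23, pt 0} := by
        rw [← setOf_2, toPerm_smul_setOf hv, Nat.eq_of_beq_eq_true hm.2]
      have hx : symmDiff (toPerm T • a) a ∈ S := h.add _ _ (h.smul _ hM a ha) ha
      have e : symmDiff (toPerm T • a) a =
          setOf (applyMask T (codeOf k) ^^^ codeOf k) := by
        rw [haeq, Finset.smul_finset_symmDiff, hfix, symmDiff_symmDiff_symmDiff_comm,
          symmDiff_self, bot_symmDiff, toPerm_smul_setOf hv, ← setOf_xor]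
      have hlt : applyMask T (codeOf k) ^^^ codeOf k < 2 ^ 24 :=
        Nat.xor_lt_two_pow (applyMask_lt hv _) (codeOf_lt _)
      have hxC : symmDiff (toPerm T • a) a ∈ CS := by
        rw [e, setOf_xor, ← toPerm_smul_setOf hv]
        exact symmDiff_mem_supports (smul_mem_supports hM hc) hc
      have hCS : CS ⊆ S := by
        apply h.CS_le hx hxC
        · rw [e, ← setOf_zero, Ne, setOf_inj hlt (by norm_num)]
          intro h0'
          rw [h0'] at hTx
          simp at hTx
        · rw [e, ← setOf_full, Ne, setOf_inj hlt (by norm_num)]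
          intro h0'
          rw [h0'] at hTx
          simp at hTx
      apply h.even
      intro x y hxy
      obtain ⟨a', ha', c', hc', e'⟩ := h'.duads hvS' hv1 hv4 hxy
      rw [e']
      exact h.add _ _ ha' (hCS hc')

theorem sum_eq_card (w : GolayPt → ZMod 2) : ∑ p, w p = ((support₂ w).card : ZMod 2) := by
  rw [support₂, Finset.card_filter, Nat.cast_sum]
  apply Finset.sum_congr rfl
  intro p _
  rcases zmod2_cases (w p) with h | h <;> simp [h]

theorem inv_subspaces (W : Submodule (ZMod 2) (GolayPt → ZMod 2))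
    (hinv : ∀ σ ∈ M24, ∀ w ∈ W, (fun p => w (σ.symm p)) ∈ W) :
    W = ⊥ ∨ W = Submodule.span (ZMod 2) {fun _ => (1 : ZMod 2)} ∨ W = golayCode ∨
      (W : Set (GolayPt → ZMod 2)) = {w | ∑ p, w p = 0} ∨ W = ⊤ := by
  set SW : Set (Finset GolayPt) := support₂ '' (W : Set (GolayPt → ZMod 2)) with hSW
  have hmem : ∀ w, support₂ w ∈ SW ↔ w ∈ W := by
    intro w
    constructor
    · rintro ⟨w', hw', e⟩
      rw [← support₂_injective e]; exact hw'
    · intro hw; exact ⟨w, hw, rfl⟩
  have hF : InvFam SW := by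
    refine ⟨⟨0, W.zero_mem, by simp [support₂]⟩, ?_, ?_⟩
    · rintro _ _ ⟨v, hv, rfl⟩ ⟨w, hw, rfl⟩
      exact ⟨v + w, W.add_mem hv hw, support₂_add v w⟩
    · rintro σ hσ _ ⟨w, hw, rfl⟩
      exact ⟨_, hinv σ hσ w hw, support₂_perm σ w⟩
  have s1 : support₂ (fun _ : GolayPt => (1 : ZMod 2)) = Finset.univ := by simp [support₂]
  have s0 : support₂ (0 : GolayPt → ZMod 2) = ∅ := by simp [support₂]
  rcases inv_main hF with hall | hC | hE
  · by_cases h1 : (fun _ : GolayPt => (1 : ZMod 2)) ∈ W
    · right; left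
      apply le_antisymm
      · intro w hw
        rcases hall _ ⟨w, hw, rfl⟩ with h | h
        · rw [support₂_injective (h.trans s0.symm)]; exact Submodule.zero_mem _
        · rw [support₂_injective (h.trans s1.symm)]; exact Submodule.subset_span rfl
      · rw [Submodule.span_le]
        rintro _ rfl
        exact h1
    · left
      rw [eq_bot_iff]
      intro w hw
      rcases hall _ ⟨w, hw, rfl⟩ with h | h
      · rw [support₂_injective (h.trans s0.symm)]; exact Submodule.zero_mem _
      · rw [support₂_injective (h.trans s1.symm)] at hw; exact absurd hw h1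
  · right; right; left
    ext w
    rw [← hmem, hC]
    constructor
    · rintro ⟨w', hw', e⟩
      rw [← support₂_injective e]; exact hw'
    · intro hw; exact ⟨w, hw, rfl⟩
  · right; right; right
    by_cases hodd : ∃ w ∈ W, ¬ Even (support₂ w).card
    · right
      obtain ⟨w0, hw0, ho⟩ := hodd
      rw [eq_top_iff]
      intro w _
      by_cases he : Even (support₂ w).card
      · exact (hmem w).mp (hE _ he)
      · have h2 : Even (support₂ (w + w0)).card := by
          rw [← ZMod.natCast_eq_zero_iff_even, ← sum_eq_card]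
          simp only [Pi.add_apply, Finset.sum_add_distrib]
          rw [sum_eq_card, sum_eq_card]
          rw [← ZMod.natCast_eq_zero_iff_even] at he ho
          rcases zmod2_cases ((support₂ w).card : ZMod 2) with h | h
          · exact absurd h he
          · rcases zmod2_cases ((support₂ w0).card : ZMod 2) with h' | h'
            · exact absurd h' ho
            · rw [h, h']; decide
        have h3 := W.add_mem ((hmem _).mp (hE _ h2)) hw0
        have h4 : w + w0 + w0 = w := by
          funext p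
          simp only [Pi.add_apply]
          rw [add_assoc, CharTwo.add_self_eq_zero, add_zero]
        rwa [h4] at h3
    · left
      push Not at hodd
      ext w
      simp only [SetLike.mem_coe, Set.mem_ofPred_eq]
      rw [sum_eq_card, ZMod.natCast_eq_zero_iff_even]
      exact ⟨fun hw => hodd w hw, fun he => (hmem w).mp (hE _ he)⟩

end Cfsg.Agent.Lib.Helper8
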