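import Cfsg.Agent.Lib.Helper8.Leech2

set_option autoImplicit false

namespace Cfsg.Agent.Lib.Helper8

open Cfsg

/-! ### counting by generating functions evaluated at a large base -/

theorem digit_count {α : Type*} (S : Finset α) (N : α → ℕ) (B n : ℕ) (hB : S.card < B) :
    (S.filter fun x => N x = n).card = (∑ x ∈ S, B ^ N x) / B ^ n % B := by
  have hBpos : 0 < B := by omega
  set L := ∑ x ∈ S.filter (fun x => N x < n), B ^ N x with hLdef
  set H := ∑ x ∈ S.filter (fun x => n < N x), B ^ (N x - n - 1) with hHdef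
  have e : ∑ x ∈ S, B ^ N x = L + B ^ n * ((S.filter fun x => N x = n).card + B * H) := by
    have h1 : ∀ x ∈ S, B ^ N x = (if N x < n then B ^ N x else 0) +
        ((if N x = n then B ^ n else 0) + (if n < N x then B ^ n * (B * B ^ (N x - n - 1)) else 0)) := by
      intro x _
      rcases lt_trichotomy (N x) n with h | h | h
      · simp [h, h.ne, h.le.not_gt]
      · simp [h]
      · have e : N x = n + (1 + (N x - n - 1)) := by omega
        have : B ^ N x = B ^ n * (B * B ^ (N x - n - 1)) := by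
          conv_lhs => rw [e]
          rw [pow_add, pow_add, pow_one]
        simp [h, h.ne', h.le.not_gt, this]
    rw [Finset.sum_congr rfl h1, Finset.sum_add_distrib, Finset.sum_add_distrib,
      ← Finset.sum_filter, ← Finset.sum_filter, ← Finset.sum_filter, Finset.sum_const,
      ← Finset.mul_sum, ← Finset.mul_sum, smul_eq_mul]
    ring
  have hL : L < B ^ n := by
    rcases Nat.eq_zero_or_pos n with rfl | hn
    · simp [hLdef]
    · obtain ⟨k, rfl⟩ : ∃ k, n = k + 1 := ⟨n - 1, by omega⟩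
      calc L ≤ ∑ x ∈ S.filter (fun x => N x < k + 1), B ^ k := by
            apply Finset.sum_le_sum
            intro x hx
            rw [Finset.mem_filter] at hx
            exact Nat.pow_le_pow_right hBpos (by omega)
        _ = (S.filter (fun x => N x < k + 1)).card * B ^ k := by
            rw [Finset.sum_const, smul_eq_mul]
        _ ≤ S.card * B ^ k := Nat.mul_le_mul_right _ (Finset.card_filter_le _ _)
        _ < B * B ^ k := Nat.mul_lt_mul_of_pos_right hB (pow_pos hBpos k)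
        _ = B ^ (k + 1) := by rw [pow_succ]; ring
  rw [e, Nat.add_mul_div_left _ _ (pow_pos hBpos n), Nat.div_eq_of_lt hL, zero_add,
    Nat.add_mul_mod_self_left, Nat.mod_eq_of_lt]
  exact lt_of_le_of_lt (Finset.card_filter_le _ _) hB

/-- natural-number norm -/
def nrm (x : GolayPt → ℤ) : ℕ := ∑ i, (x i).natAbs ^ 2

theorem sqNorm_eq_nrm (x : GolayPt → ℤ) : sqNorm x = (nrm x : ℤ) := by
  unfold sqNorm nrm
  push_cast
  apply Finset.sum_congr rfl
  intro i _
  rw [sq_abs]

def qsum (x : GolayPt → ℤ) : ℕ := ∑ i, (x i / 4).natAbs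

theorem qsum_parity (x : GolayPt → ℤ) : ∃ w : ℤ, (qsum x : ℤ) = ∑ i, x i / 4 + 2 * w := by
  have : ∀ i, ∃ w : ℤ, ((x i / 4).natAbs : ℤ) = x i / 4 + 2 * w := by
    intro i
    rcases Int.natAbs_eq (x i / 4) with h | h
    · exact ⟨0, by omega⟩
    · exact ⟨-(x i / 4), by omega⟩
  choose w hw using this
  refine ⟨∑ i, w i, ?_⟩
  unfold qsum
  push_cast
  simp only [← Int.natCast_natAbs, hw, Finset.sum_add_distrib, ← Finset.mul_sum]

theorem gf_plus (t : GolayPt → Finset ℤ) (B : ℤ) :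
    ∑ x ∈ Fintype.piFinset t, B ^ nrm x = ∏ i, ∑ v ∈ t i, B ^ (v.natAbs ^ 2) := by
  rw [Finset.prod_univ_sum]
  apply Finset.sum_congr rfl
  intro x _
  rw [Finset.prod_pow_eq_pow_sum]; rfl

theorem gf_minus (t : GolayPt → Finset ℤ) (B : ℤ) :
    ∑ x ∈ Fintype.piFinset t, (-1) ^ qsum x * B ^ nrm x =
      ∏ i, ∑ v ∈ t i, ((-1) ^ (v / 4).natAbs * B ^ (v.natAbs ^ 2)) := by
  rw [Finset.prod_univ_sum]
  apply Finset.sum_congr rfl
  intro x _
  rw [Finset.prod_mul_distrib, Finset.prod_pow_eq_pow_sum, Finset.prod_pow_eq_pow_sum]; rfl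

theorem gf_par (t : GolayPt → Finset ℤ) (B : ℤ) (m : ℕ) (hm : m < 2) :
    2 * ∑ x ∈ (Fintype.piFinset t).filter (fun x => qsum x % 2 = m), B ^ nrm x =
      (∏ i, ∑ v ∈ t i, B ^ (v.natAbs ^ 2)) +
        (-1) ^ m * ∏ i, ∑ v ∈ t i, ((-1) ^ (v / 4).natAbs * B ^ (v.natAbs ^ 2)) := by
  rw [← gf_plus, ← gf_minus, Finset.mul_sum, Finset.mul_sum, ← Finset.sum_add_distrib,
    Finset.sum_filter]
  apply Finset.sum_congr rfl
  intro x _
  have h : ((-1 : ℤ)) ^ m * ((-1) ^ qsum x * B ^ nrm x) = (-1) ^ (m + qsum x) * B ^ nrm x := by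
    rw [pow_add]; ring
  rw [h]
  by_cases hq : qsum x % 2 = m
  · have : Even (m + qsum x) := by rw [Nat.even_iff]; omega
    rw [if_pos hq, this.neg_one_pow]; ring
  · have : Odd (m + qsum x) := by rw [Nat.odd_iff]; omega
    rw [if_neg hq, this.neg_one_pow]; ring

/-- allowed values at the point `i` -/
def tt (m : ℕ) (A : Finset GolayPt) (U : Finset ℤ) (i : GolayPt) : Finset ℤ :=
  U.filter fun v => v % 4 = m + 2 * ia A i

def TT (m : ℕ) (A : Finset GolayPt) (U : Finset ℤ) : Finset (GolayPt → ℤ) :=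
  (Fintype.piFinset (tt m A U)).filter fun x => qsum x % 2 = m

theorem mem_TT {m : ℕ} (hm : m < 2) {A : Finset GolayPt} (hA : A ∈ CS) (U : Finset ℤ)
    (x : GolayPt → ℤ) : x ∈ TT m A U ↔ IsL m A x ∧ ∀ i, x i ∈ U := by
  unfold TT tt
  rw [Finset.mem_filter, Fintype.mem_piFinset]
  simp only [Finset.mem_filter]
  obtain ⟨t, ht⟩ := four_dvd_card_CS hA
  obtain ⟨w, hw⟩ := qsum_parity x
  have hm' : (m : ℤ) = 0 ∨ (m : ℤ) = 1 := by omega
  have key : (∀ i, x i % 4 = m + 2 * ia A i) →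
      (qsum x % 2 = m ↔ ∑ i, x i ≡ 4 * m [ZMOD 8]) := by
    intro h
    have hz : ∀ i, x i = m + 2 * ia A i + 4 * (x i / 4) := by
      intro i; have := h i; omega
    rw [sum_decomp hz, ht]
    unfold Int.ModEq
    push_cast
    omega
  constructor
  · rintro ⟨h1, h2⟩
    have h3 : ∀ i, x i % 4 = m + 2 * ia A i := fun i => (h1 i).2
    refine ⟨⟨fun i => ?_, (key h3).mp h2⟩, fun i => (h1 i).1⟩
    have := h3 i
    unfold Int.ModEq
    rcases ia_cases A i with a | a <;> rw [a] at this ⊢ <;> omega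
  · rintro ⟨⟨h1, h2⟩, h3⟩
    have h4 : ∀ i, x i % 4 = m + 2 * ia A i := by
      intro i
      have := h1 i
      unfold Int.ModEq at this
      rcases ia_cases A i with a | a <;> rw [a] at this ⊢ <;> omega
    exact ⟨fun i => ⟨h3 i, h4 i⟩, (key h4).mpr h2⟩

/-- the code as a finset -/
noncomputable def CF : Finset (Finset GolayPt) := finite_supports.toFinset

theorem mem_CF {A : Finset GolayPt} : A ∈ CF ↔ A ∈ CS := by
  unfold CF; rw [Set.Finite.mem_toFinset]

def tauM (x : GolayPt → ℤ) : ℕ := (x (pt 0) % 2).toNat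
def tauA (x : GolayPt → ℤ) : Finset GolayPt := Finset.univ.filter fun i => 2 ≤ x i % 4

theorem IsL.tau {m : ℕ} (hm : m < 2) {A : Finset GolayPt} {x : GolayPt → ℤ} (h : IsL m A x) :
    tauM x = m ∧ tauA x = A := by
  have h4 : ∀ i, x i % 4 = m + 2 * ia A i := by
    intro i
    have := h.1 i
    unfold Int.ModEq at this
    rcases ia_cases A i with a | a <;> rw [a] at this ⊢ <;> omega
  constructor
  · unfold tauM
    have := h4 (pt 0)
    rcases ia_cases A (pt 0) with a | a <;> rw [a] at this <;> omega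
  · ext i
    unfold tauA
    rw [Finset.mem_filter]
    have := h4 i
    by_cases hi : i ∈ A
    · have e : ia A i = 1 := by simp [ia, hi]
      rw [e] at this
      simp only [Finset.mem_univ, true_and, hi, iff_true]; omega
    · have e : ia A i = 0 := by simp [ia, hi]
      rw [e] at this
      simp only [Finset.mem_univ, true_and, hi, iff_false]; omega

theorem card_split (U : Finset ℤ) (P : (GolayPt → ℤ) → Prop) [DecidablePred P] :
    {x : GolayPt → ℤ | x ∈ leechLattice ∧ (∀ i, x i ∈ U) ∧ P x}.ncard =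
      ∑ m ∈ Finset.range 2, ∑ A ∈ CF, ((TT m A U).filter P).card := by
  classical
  set SF : Finset (GolayPt → ℤ) :=
    (Fintype.piFinset fun _ => U).filter fun x => x ∈ leechLattice ∧ P x with hSF
  have hS : {x : GolayPt → ℤ | x ∈ leechLattice ∧ (∀ i, x i ∈ U) ∧ P x} = ↑SF := by
    ext x
    simp only [hSF, Set.mem_ofPred_eq, Finset.coe_filter, Fintype.mem_piFinset]
    tauto
  rw [hS, Set.ncard_coe_finset, ← Finset.sum_product']
  have hmaps : ∀ x ∈ SF, (tauM x, tauA x) ∈ Finset.range 2 ×ˢ CF := by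
    intro x hx
    rw [hSF, Finset.mem_filter] at hx
    obtain ⟨A, hA, h | h⟩ := exists_norm_type hx.2.1
    · obtain ⟨h1, h2⟩ := IsL.tau (m := 0) (by norm_num) (by exact_mod_cast h)
      rw [h1, h2, Finset.mem_product]
      exact ⟨by simp, mem_CF.mpr hA⟩
    · obtain ⟨h1, h2⟩ := IsL.tau (m := 1) (by norm_num) (by exact_mod_cast h)
      rw [h1, h2, Finset.mem_product]
      exact ⟨by simp, mem_CF.mpr hA⟩
  rw [Finset.card_eq_sum_card_fiberwise hmaps]
  apply Finset.sum_congr rfl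
  rintro ⟨m, A⟩ hmA
  rw [Finset.mem_product, Finset.mem_range, mem_CF] at hmA
  congr 1
  ext x
  simp only [hSF, Finset.mem_filter, Fintype.mem_piFinset, mem_TT hmA.1 hmA.2]
  constructor
  · rintro ⟨⟨h1, h2, h3⟩, h4⟩
    refine ⟨⟨?_, h1⟩, h3⟩
    rw [Prod.mk.injEq] at h4
    obtain ⟨A', hA', h | h⟩ := exists_norm_type h2
    · obtain ⟨e1, e2⟩ := IsL.tau (m := 0) (by norm_num) (by exact_mod_cast h)
      rw [← h4.1, ← h4.2, e1, e2]; exact_mod_cast h
    · obtain ⟨e1, e2⟩ := IsL.tau (m := 1) (by norm_num) (by exact_mod_cast h)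
      rw [← h4.1, ← h4.2, e1, e2]; exact_mod_cast h
  · rintro ⟨⟨h1, h2⟩, h3⟩
    obtain ⟨e1, e2⟩ := h1.tau hmA.1
    exact ⟨⟨h2, (mem_leech_iff' x).mpr ⟨m, A, hmA.2, h1⟩, h3⟩, by rw [e1, e2]⟩

end Cfsg.Agent.Lib.Helper8
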