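import Cfsg.Agent.Lib.Helper8.Leech3

set_option autoImplicit false

namespace Cfsg.Agent.Lib.Helper8

open Cfsg

def gP (l : List ℤ) (r B : ℤ) : ℤ :=
  ((l.filter fun v => v % 4 = r).map fun v => B ^ (v.natAbs ^ 2)).sum

def gM (l : List ℤ) (r B : ℤ) : ℤ :=
  ((l.filter fun v => v % 4 = r).map fun v => (-1) ^ (v / 4).natAbs * B ^ (v.natAbs ^ 2)).sum

theorem sum_tt (l : List ℤ) (hl : l.Nodup) (m : ℕ) (A : Finset GolayPt) (i : GolayPt) (f : ℤ → ℤ) :
    ∑ v ∈ tt m A l.toFinset i, f v =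
      ((l.filter fun v => v % 4 = m + 2 * ia A i).map f).sum := by
  unfold tt
  rw [← List.sum_toFinset _ (hl.filter _), List.toFinset_filter]
  simp

theorem prod_ia (A : Finset GolayPt) (h : ℤ → ℤ) :
    ∏ i, h (ia A i) = h 1 ^ A.card * h 0 ^ (24 - A.card) := by
  have : ∀ i, h (ia A i) = if i ∈ A then h 1 else h 0 := by
    intro i; unfold ia; split_ifs <;> rfl
  simp only [this]
  rw [Finset.prod_ite, Finset.prod_const, Finset.prod_const]
  have e1 : (Finset.univ.filter fun i => i ∈ A) = A := by ext i; simp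
  have e2 : (Finset.univ.filter fun i => i ∉ A) = Aᶜ := by ext i; simp
  rw [e1, e2, Finset.card_compl]
  have : Fintype.card GolayPt = 24 := by rw [← Finset.card_univ]; exact card_pts
  rw [this]

def K2 (l : List ℤ) (B : ℤ) (m w : ℕ) : ℤ :=
  gP l (m + 2) B ^ w * gP l m B ^ (24 - w) +
    (-1) ^ m * (gM l (m + 2) B ^ w * gM l m B ^ (24 - w))

theorem two_sum_TT (l : List ℤ) (hl : l.Nodup) (m : ℕ) (hm : m < 2) (A : Finset GolayPt) (B : ℤ) :
    2 * ∑ x ∈ TT m A l.toFinset, B ^ nrm x = K2 l B m A.card := by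
  unfold TT
  rw [gf_par _ _ _ hm]
  simp only [sum_tt l hl]
  rw [prod_ia A (fun a => ((l.filter fun v => v % 4 = m + 2 * a).map
      fun v => B ^ (v.natAbs ^ 2)).sum),
    prod_ia A (fun a => ((l.filter fun v => v % 4 = m + 2 * a).map
      fun v => (-1) ^ (v / 4).natAbs * B ^ (v.natAbs ^ 2)).sum)]
  simp only [mul_one, mul_zero, add_zero]
  rfl

theorem card_TT_le (l : List ℤ) (m : ℕ) (A : Finset GolayPt) :
    (TT m A l.toFinset).card ≤ l.length ^ 24 := by
  unfold TT
  refine (Finset.card_filter_le _ _).trans ?_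
  rw [Fintype.card_piFinset]
  calc ∏ i, (tt m A l.toFinset i).card ≤ ∏ _i : GolayPt, l.length := by
        apply Finset.prod_le_prod'
        intro i _
        exact (Finset.card_filter_le _ _).trans (List.toFinset_card_le l)
    _ = l.length ^ 24 := by rw [Finset.prod_const, card_pts]

def EE (l : List ℤ) (n m w : ℕ) : ℕ :=
  (K2 l (2 ^ 100) m w / 2).toNat / (2 ^ 100) ^ n % 2 ^ 100

theorem card_TT_norm (l : List ℤ) (hl : l.Nodup) (hlen : l.length ≤ 17) (m : ℕ) (hm : m < 2)
    (A : Finset GolayPt) (n : ℕ) :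
    ((TT m A l.toFinset).filter fun x => nrm x = n).card = EE l n m A.card := by
  have hB : (TT m A l.toFinset).card < 2 ^ 100 := by
    refine lt_of_le_of_lt (card_TT_le l m A) ?_
    calc l.length ^ 24 ≤ 17 ^ 24 := Nat.pow_le_pow_left hlen 24
      _ < 2 ^ 100 := by norm_num
  rw [digit_count _ nrm (2 ^ 100) n hB]
  have h := two_sum_TT l hl m hm A (2 ^ 100)
  have h2 : ((∑ x ∈ TT m A l.toFinset, (2 ^ 100) ^ nrm x : ℕ) : ℤ) =
      ∑ x ∈ TT m A l.toFinset, (2 ^ 100 : ℤ) ^ nrm x := by push_cast; rfl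
  unfold EE
  rw [← h, ← h2]
  congr 2
  omega

theorem card_TT (l : List ℤ) (hl : l.Nodup) (m : ℕ) (hm : m < 2) (A : Finset GolayPt) :
    (TT m A l.toFinset).card = (K2 l 1 m A.card / 2).toNat := by
  have h := two_sum_TT l hl m hm A 1
  simp only [one_pow, Finset.sum_const, nsmul_eq_mul, mul_one] at h
  rw [← h]
  omega

theorem count0 : countBelow 4096 (fun c => Nat.beq (popc (codeOf c)) 0) = 1 := by
  decide +kernel
theorem count16 : countBelow 4096 (fun c => Nat.beq (popc (codeOf c)) 16) = 759 := by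
  decide +kernel
theorem count24 : countBelow 4096 (fun c => Nat.beq (popc (codeOf c)) 24) = 1 := by
  decide +kernel

theorem card_CF_filter (w : ℕ) : (CF.filter fun A => A.card = w).card =
    countBelow 4096 (fun c => Nat.beq (popc (codeOf c)) w) := by
  rw [← ncard_wordsOfWeight, ← Set.ncard_coe_finset]
  congr 1
  ext A
  simp only [Finset.coe_filter, mem_CF, Set.mem_ofPred_eq]
  rfl

theorem sum_CF (g : ℕ → ℕ) :
    ∑ A ∈ CF, g A.card = g 0 + 759 * g 8 + 2576 * g 12 + 759 * g 16 + g 24 := by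
  have hmaps : ∀ A ∈ CF, A.card ∈ ({0, 8, 12, 16, 24} : Finset ℕ) := by
    intro A hA
    rcases card_of_mem_supports (mem_CF.mp hA) with h | h | h | h | h <;> rw [h] <;> simp
  rw [← Finset.sum_fiberwise_of_maps_to hmaps]
  have h : ∀ w, ∑ A ∈ CF.filter (fun A => A.card = w), g A.card =
      countBelow 4096 (fun c => Nat.beq (popc (codeOf c)) w) * g w := by
    intro w
    rw [← card_CF_filter, ← smul_eq_mul, ← Finset.sum_const]
    apply Finset.sum_congr rfl
    intro A hA
    rw [(Finset.mem_filter.mp hA).2]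
  simp only [h]
  rw [Finset.sum_insert (by decide), Finset.sum_insert (by decide), Finset.sum_insert (by decide),
    Finset.sum_insert (by decide), Finset.sum_singleton, count0, count8, count12, count16, count24]
  ring

def wsum (g : ℕ → ℕ) : ℕ := g 0 + 759 * g 8 + 2576 * g 12 + 759 * g 16 + g 24

def cntN (l : List ℤ) (n : ℕ) : ℕ := wsum (EE l n 0) + wsum (EE l n 1)

def cntA (l : List ℤ) : ℕ :=
  wsum (fun w => (K2 l 1 0 w / 2).toNat) + wsum (fun w => (K2 l 1 1 w / 2).toNat)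

theorem ncard_leech_norm (l : List ℤ) (hl : l.Nodup) (hlen : l.length ≤ 17) (n : ℕ) :
    {x : GolayPt → ℤ | x ∈ leechLattice ∧ (∀ i, x i ∈ l.toFinset) ∧ nrm x = n}.ncard = cntN l n := by
  rw [card_split, Finset.sum_range_succ, Finset.sum_range_one]
  have h : ∀ m < 2, ∑ A ∈ CF, ((TT m A l.toFinset).filter fun x => nrm x = n).card =
      wsum (EE l n m) := by
    intro m hm
    rw [wsum, ← sum_CF]
    apply Finset.sum_congr rfl
    intro A _
    rw [← card_TT_norm l hl hlen m hm A n]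
  rw [h 0 (by norm_num), h 1 (by norm_num)]
  rfl

theorem ncard_leech_all (l : List ℤ) (hl : l.Nodup) :
    {x : GolayPt → ℤ | x ∈ leechLattice ∧ ∀ i, x i ∈ l.toFinset}.ncard = cntA l := by
  have e : {x : GolayPt → ℤ | x ∈ leechLattice ∧ ∀ i, x i ∈ l.toFinset} =
      {x : GolayPt → ℤ | x ∈ leechLattice ∧ (∀ i, x i ∈ l.toFinset) ∧ True} := by
    ext x; simp
  rw [e, card_split, Finset.sum_range_succ, Finset.sum_range_one]
  have h : ∀ m < 2, ∑ A ∈ CF, ((TT m A l.toFinset).filter fun _ => True).card =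
      wsum (fun w => (K2 l 1 m w / 2).toNat) := by
    intro m hm
    rw [wsum, ← sum_CF (fun w => (K2 l 1 m w / 2).toNat)]
    apply Finset.sum_congr rfl
    intro A _
    rw [← card_TT l hl m hm A, Finset.filter_true_of_mem (fun _ _ => trivial)]
  rw [h 0 (by norm_num), h 1 (by norm_num)]
  rfl

def fullL : List ℤ := [-8, -7, -6, -5, -4, -3, -2, -1, 0, 1, 2, 3, 4, 5, 6, 7, 8]

theorem sq_le_sqNorm (x : GolayPt → ℤ) (i : GolayPt) : x i ^ 2 ≤ sqNorm x :=
  Finset.single_le_sum (f := fun i => x i ^ 2) (fun i _ => sq_nonneg _) (Finset.mem_univ i)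

theorem mem_fullL {x : GolayPt → ℤ} (h : sqNorm x ≤ 64) (i : GolayPt) : x i ∈ fullL.toFinset := by
  have h1 := sq_le_sqNorm x i
  have h2 : -8 ≤ x i := by nlinarith
  have h3 : x i ≤ 8 := by nlinarith
  generalize x i = v at h2 h3
  interval_cases v <;> decide

theorem ncard_norm (n : ℕ) (hn : n ≤ 64) :
    {x : GolayPt → ℤ | x ∈ leechLattice ∧ sqNorm x = n}.ncard = cntN fullL n := by
  rw [← ncard_leech_norm fullL (by decide) (by decide) n]
  congr 1
  ext x
  simp only [Set.mem_ofPred_eq, sqNorm_eq_nrm, Nat.cast_inj]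
  constructor
  · rintro ⟨h1, h2⟩
    refine ⟨h1, fun i => mem_fullL ?_ i, h2⟩
    rw [sqNorm_eq_nrm, h2]; exact_mod_cast hn
  · rintro ⟨h1, _, h2⟩
    exact ⟨h1, h2⟩

theorem cnt32 : cntN fullL 32 = 196560 := by decide +kernel
theorem cnt48 : cntN fullL 48 = 16773120 := by decide +kernel
theorem cnt64 : cntN fullL 64 = 398034000 := by decide +kernel

end Cfsg.Agent.Lib.Helper8
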