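import Cfsg.Agent.Lib.Helper8.Leech4

set_option autoImplicit false

namespace Cfsg.Agent.Lib.Helper8

open Cfsg

/-- vectors of given norm with some coordinate outside a list -/
theorem ncard_exists (n : ℕ) (hn : n ≤ 64) (l : List ℤ) (hl : l.Nodup) (hlen : l.length ≤ 17)
    (Q : ℤ → Prop) (hQ : ∀ v ∈ fullL.toFinset, (v ∈ l.toFinset ↔ ¬ Q v)) :
    {x : GolayPt → ℤ | x ∈ leechLattice ∧ sqNorm x = n ∧ ∃ i, Q (x i)}.ncard =
      cntN fullL n - cntN l n := by
  rw [← ncard_norm n hn, ← ncard_leech_norm l hl hlen n]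
  have hfin : {x : GolayPt → ℤ | x ∈ leechLattice ∧ sqNorm x = n}.Finite := by
    apply Set.Finite.subset (Finset.finite_toSet (Fintype.piFinset fun _ => fullL.toFinset))
    intro x hx
    rw [Finset.mem_coe, Fintype.mem_piFinset]
    intro i
    apply mem_fullL
    rw [hx.2]; exact_mod_cast hn
  have hsub : {x : GolayPt → ℤ | x ∈ leechLattice ∧ (∀ i, x i ∈ l.toFinset) ∧ nrm x = n} ⊆
      {x : GolayPt → ℤ | x ∈ leechLattice ∧ sqNorm x = n} := by
    rintro x ⟨h1, _, h2⟩
    exact ⟨h1, by rw [sqNorm_eq_nrm, h2]⟩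
  rw [← Set.ncard_diff hsub (hfin.subset hsub)]
  congr 1
  ext x
  simp only [Set.mem_ofPred_eq, Set.mem_diff]
  constructor
  · rintro ⟨h1, h2, i, hi⟩
    refine ⟨⟨h1, h2⟩, ?_⟩
    rintro ⟨_, h3, _⟩
    have hm : x i ∈ fullL.toFinset := mem_fullL (by rw [h2]; exact_mod_cast hn) i
    exact (hQ _ hm).mp (h3 i) hi
  · rintro ⟨⟨h1, h2⟩, h3⟩
    refine ⟨h1, h2, ?_⟩
    by_contra hcon
    apply h3
    refine ⟨h1, fun i => ?_, ?_⟩
    · have hm : x i ∈ fullL.toFinset := mem_fullL (by rw [h2]; exact_mod_cast hn) i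
      exact (hQ _ hm).mpr (fun hq => hcon ⟨i, hq⟩)
    · have := h2; rw [sqNorm_eq_nrm] at this; exact_mod_cast this

theorem same_parity {x : GolayPt → ℤ} (hx : x ∈ leechLattice) (i j : GolayPt) :
    x i % 2 = x j % 2 := by
  obtain ⟨m, h, _⟩ := (mem_leech_iff x).mp hx
  have h1 := h i
  have h2 := h j
  unfold Int.ModEq at h1 h2
  omega

theorem three_threes {x : GolayPt → ℤ} (hx : x ∈ leechLattice) (hn : sqNorm x = 48) :
    (∃ i j k, i ≠ j ∧ j ≠ k ∧ i ≠ k ∧ |x i| = 3 ∧ |x j| = 3 ∧ |x k| = 3) ↔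
      ∀ i, x i ∈ ([1, -1, 3, -3] : List ℤ).toFinset := by
  have hsum : ∑ p, (x p ^ 2 - 1) = 24 := by
    rw [Finset.sum_sub_distrib, Finset.sum_const, card_pts]
    have : ∑ p, x p ^ 2 = 48 := hn
    rw [this]; norm_num
  constructor
  · rintro ⟨i, j, k, hij, hjk, hik, hi, hj, hk⟩
    have hodd : ∀ p, x p % 2 = 1 := by
      intro p
      rw [same_parity hx p i]
      rcases abs_eq (by norm_num : (0 : ℤ) ≤ 3) |>.mp hi with h | h <;> rw [h] <;> norm_num
    have hnn : ∀ p, 0 ≤ x p ^ 2 - 1 := by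
      intro p
      have := hodd p
      have : x p ≤ -1 ∨ 1 ≤ x p := by omega
      rcases this with h | h <;> nlinarith
    have sq3 : ∀ p, |x p| = 3 → x p ^ 2 - 1 = 8 := by
      intro p hp
      rw [← sq_abs, hp]; norm_num
    intro p
    have hp : x p ^ 2 = 1 ∨ x p ^ 2 = 9 := by
      by_cases h1 : p = i
      · right; have := sq3 i hi; rw [h1]; omega
      by_cases h2 : p = j
      · right; have := sq3 j hj; rw [h2]; omega
      by_cases h3 : p = k
      · right; have := sq3 k hk; rw [h3]; omega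
      left
      have hle : ∑ q ∈ ({p, i, j, k} : Finset GolayPt), (x q ^ 2 - 1) ≤ ∑ q, (x q ^ 2 - 1) :=
        Finset.sum_le_sum_of_subset_of_nonneg (Finset.subset_univ _) (fun q _ _ => hnn q)
      rw [Finset.sum_insert (by simp [h1, h2, h3]), Finset.sum_insert (by simp [hij, hik]),
        Finset.sum_insert (by simp [hjk]), Finset.sum_singleton, sq3 i hi, sq3 j hj, sq3 k hk,
        hsum] at hle
      have := hnn p
      omega
    have h2 : -3 ≤ x p := by rcases hp with h | h <;> nlinarith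
    have h3 : x p ≤ 3 := by rcases hp with h | h <;> nlinarith
    generalize x p = v at hp h2 h3
    interval_cases v <;> first | decide | (exfalso; omega)
  · intro h
    have hval : ∀ p, x p ^ 2 - 1 = if |x p| = 3 then 8 else 0 := by
      intro p
      have := h p
      simp only [List.toFinset_cons, List.toFinset_nil, Finset.mem_insert,
        Finset.notMem_empty, or_false, insert_empty_eq, Finset.mem_singleton] at this
      rcases this with h | h | h | h <;> rw [h] <;> norm_num
    simp only [hval] at hsum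
    rw [← Finset.sum_filter, Finset.sum_const] at hsum
    have hc : (Finset.univ.filter fun p => |x p| = 3).card = 3 := by
      simp only [nsmul_eq_mul] at hsum
      omega
    obtain ⟨i, j, k, hij, hik, hjk, he⟩ := Finset.card_eq_three.mp hc
    have hm : ∀ p ∈ ({i, j, k} : Finset GolayPt), |x p| = 3 := by
      intro p hp
      rw [← he, Finset.mem_filter] at hp
      exact hp.2
    exact ⟨i, j, k, hij, hjk, hik, hm i (by simp), hm j (by simp), hm k (by simp)⟩

theorem cnt48a : cntN [0, 2, -2] 48 = 5275648 := by decide +kernel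
theorem cnt48b : cntN [1, -1, 3, -3] 48 = 8290304 := by decide +kernel
theorem cnt48c : cntN [-8, -7, -6, -5, -3, -2, -1, 0, 1, 2, 3, 5, 6, 7, 8] 48 = 13664256 := by
  decide +kernel
theorem cnt48d : cntN [-8, -7, -6, -4, -3, -2, -1, 0, 1, 2, 3, 4, 6, 7, 8] 48 = 16674816 := by
  decide +kernel

end Cfsg.Agent.Lib.Helper8
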