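import Cfsg.Agent.Lib.Helper8.Leech4

set_option autoImplicit false

namespace Cfsg.Agent.Lib.Helper8

open Cfsg

/-- reduction modulo 8 -/
def red8 : (GolayPt → ℤ) →+ (GolayPt → ZMod 8) := (Int.castAddHom (ZMod 8)).compLeft GolayPt

theorem red8_apply (x : GolayPt → ℤ) (i : GolayPt) : red8 x i = (x i : ZMod 8) := rfl

theorem red8_surj : Function.Surjective red8 := by
  intro y
  refine ⟨fun i => ((y i).val : ℤ), ?_⟩
  funext i
  rw [red8_apply]
  simp

theorem mem_ker_red8 (x : GolayPt → ℤ) : x ∈ red8.ker ↔ ∀ i, (8 : ℤ) ∣ x i := by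
  rw [AddMonoidHom.mem_ker]
  constructor
  · intro h i
    have := congrFun h i
    rw [red8_apply] at this
    exact (ZMod.intCast_zmod_eq_zero_iff_dvd _ 8).mp this
  · intro h
    funext i
    rw [red8_apply]
    exact (ZMod.intCast_zmod_eq_zero_iff_dvd _ 8).mpr (h i)

def boxL : List ℤ := [0, 1, 2, 3, 4, 5, 6, 7]

theorem mem_boxL (v : ℤ) : v ∈ boxL.toFinset ↔ 0 ≤ v ∧ v < 8 := by
  constructor
  · intro h
    simp only [boxL, List.toFinset_cons, List.toFinset_nil, Finset.mem_insert,
      insert_empty_eq, Finset.mem_singleton] at h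
    omega
  · rintro ⟨h1, h2⟩
    interval_cases v <;> decide

theorem index_mul_box (K : AddSubgroup (GolayPt → ℤ)) (hK : red8.ker ≤ K) :
    {x : GolayPt → ℤ | x ∈ K ∧ ∀ i, x i ∈ boxL.toFinset}.ncard * K.index = 8 ^ 24 := by
  have h1 := AddSubgroup.index_map_eq K red8_surj hK
  have h2 := AddSubgroup.card_mul_index (K.map red8)
  have h3 : Nat.card (GolayPt → ZMod 8) = 8 ^ 24 := by
    rw [Nat.card_eq_fintype_card, Fintype.card_fun, ZMod.card, ← Finset.card_univ, card_pts]
  rw [h1, h3] at h2
  rw [← h2]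
  congr 1
  have h4 : Nat.card ↥(K.map red8) = ((K.map red8 : AddSubgroup _) : Set (GolayPt → ZMod 8)).ncard :=
    rfl
  rw [h4]
  have h5 : ((K.map red8 : AddSubgroup _) : Set (GolayPt → ZMod 8)) =
      red8 '' {x : GolayPt → ℤ | x ∈ K ∧ ∀ i, x i ∈ boxL.toFinset} := by
    ext y
    constructor
    · rintro ⟨x, hx, rfl⟩
      have hd : x - (fun i => x i % 8) ∈ red8.ker := by
        rw [mem_ker_red8]
        intro i
        simp only [Pi.sub_apply]
        omega
      refine ⟨fun i => x i % 8, ⟨?_, fun i => ?_⟩, ?_⟩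
      · have := K.sub_mem hx (hK hd)
        simpa using this
      · rw [mem_boxL]
        show 0 ≤ x i % 8 ∧ x i % 8 < 8
        omega
      · have := (AddMonoidHom.mem_ker).mp hd
        rw [map_sub, sub_eq_zero] at this
        exact this.symm
    · rintro ⟨x, ⟨hx, _⟩, rfl⟩
      exact ⟨x, hx, rfl⟩
  rw [h5, Set.InjOn.ncard_image]
  intro x hx y hy hxy
  have hd : x - y ∈ red8.ker := by
    rw [AddMonoidHom.mem_ker, map_sub, hxy, sub_self]
  rw [mem_ker_red8] at hd
  funext i
  have h1 := (mem_boxL _).mp (hx.2 i)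
  have h2 := (mem_boxL _).mp (hy.2 i)
  have h3 := hd i
  simp only [Pi.sub_apply] at h3
  omega

theorem IsL_of_ker {x : GolayPt → ℤ} (hx : x ∈ red8.ker) : IsL 0 ∅ x := by
  rw [mem_ker_red8] at hx
  constructor
  · intro i
    have := hx i
    simp only [ia, Finset.notMem_empty, if_false]
    unfold Int.ModEq
    omega
  · have : (8 : ℤ) ∣ ∑ i, x i := Finset.dvd_sum fun i _ => hx i
    unfold Int.ModEq
    omega

theorem ker_le_leech : red8.ker ≤ leechLattice := fun x hx =>
  (mem_leech_iff' x).mpr ⟨0, ∅, empty_mem_CS, IsL_of_ker hx⟩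

theorem cntA_box : cntA boxL = 2 ^ 36 := by decide +kernel

theorem leech_index : leechLattice.index = 2 ^ 36 := by
  have h := index_mul_box leechLattice ker_le_leech
  rw [ncard_leech_all boxL (by decide), cntA_box] at h
  have : (2 : ℕ) ^ 36 * leechLattice.index = 2 ^ 36 * 2 ^ 36 := by rw [h]; norm_num
  exact Nat.eq_of_mul_eq_mul_left (by norm_num) this

/-- a totally singular sublattice -/
def singSub : AddSubgroup (GolayPt → ℤ) where
  carrier := {x | IsL 0 ∅ x ∨ IsL 0 Finset.univ x}
  zero_mem' := Or.inl IsL_zero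
  add_mem' := by
    intro x y hx hy
    rcases hx with hx | hx <;> rcases hy with hy | hy
    · left; simpa using hx.add hy
    · right
      have := hx.add hy
      rwa [← Finset.bot_eq_empty, bot_symmDiff, add_zero] at this
    · right
      have := hx.add hy
      rwa [← Finset.bot_eq_empty, symmDiff_bot, add_zero] at this
    · left; simpa using hx.add hy
  neg_mem' := by
    intro x hx
    rcases hx with hx | hx
    · left; simpa using hx.neg
    · right; simpa using hx.neg

theorem mem_singSub (x : GolayPt → ℤ) : x ∈ singSub ↔ IsL 0 ∅ x ∨ IsL 0 Finset.univ x := Iff.rfl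

theorem singSub_le : singSub ≤ leechLattice := by
  intro x hx
  rcases hx with hx | hx
  · exact (mem_leech_iff' x).mpr ⟨0, ∅, empty_mem_CS, hx⟩
  · exact (mem_leech_iff' x).mpr ⟨0, _, univ_mem_CS, hx⟩

theorem two_smul_mem_singSub {v : GolayPt → ℤ} (hv : v ∈ leechLattice) :
    (2 : ℤ) • v ∈ singSub := by
  obtain ⟨A, _, h | h⟩ := exists_norm_type hv
  · left
    constructor
    · intro i
      have := h.1 i
      simp only [ia, Finset.notMem_empty, if_false, Pi.smul_apply, smul_eq_mul]
      unfold Int.ModEq at *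
      rcases ia_cases A i with a | a <;> rw [a] at this <;> omega
    · have := h.2
      simp only [Pi.smul_apply, smul_eq_mul, ← Finset.mul_sum]
      unfold Int.ModEq at *
      omega
  · right
    constructor
    · intro i
      have := h.1 i
      simp only [ia, Finset.mem_univ, if_true, Pi.smul_apply, smul_eq_mul]
      unfold Int.ModEq at *
      rcases ia_cases A i with a | a <;> rw [a] at this <;> omega
    · have := h.2
      simp only [Pi.smul_apply, smul_eq_mul, ← Finset.mul_sum]
      unfold Int.ModEq at *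
      omega

theorem dvd_sqNorm_singSub {v : GolayPt → ℤ} (hv : v ∈ singSub) : (32 : ℤ) ∣ sqNorm v := by
  rcases hv with h | h
  · obtain ⟨z, hz⟩ := h.exists_z
    have h2 := h.2
    rw [sum_decomp hz] at h2
    rw [sqNorm_decomp hz]
    obtain ⟨w, hw⟩ := sum_sq_parity z
    have h4 : ∑ i, (z i ^ 2 + ia ∅ i * z i) = ∑ i, z i ^ 2 := by
      apply Finset.sum_congr rfl
      intro i _
      simp [ia]
    rw [h4, hw]
    simp only [Finset.card_empty] at h2 ⊢
    unfold Int.ModEq at h2
    push_cast at h2 ⊢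
    omega
  · obtain ⟨z, hz⟩ := h.exists_z
    have h2 := h.2
    rw [sum_decomp hz] at h2
    rw [sqNorm_decomp hz]
    obtain ⟨w, hw⟩ := sum_sq_parity z
    have h4 : ∑ i, (z i ^ 2 + ia Finset.univ i * z i) = ∑ i, z i ^ 2 + ∑ i, z i := by
      rw [← Finset.sum_add_distrib]
      apply Finset.sum_congr rfl
      intro i _
      simp [ia]
    rw [h4, hw]
    rw [card_pts] at h2 ⊢
    unfold Int.ModEq at h2
    push_cast at h2 ⊢
    omega

theorem K2_box0 : (K2 boxL 1 0 0 / 2).toNat = 2 ^ 23 := by decide +kernel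
theorem K2_box24 : (K2 boxL 1 0 24 / 2).toNat = 2 ^ 23 := by decide +kernel

theorem singSub_index : singSub.index = 2 ^ 48 := by
  have h := index_mul_box singSub (fun x hx => Or.inl (IsL_of_ker hx))
  have e : {x : GolayPt → ℤ | x ∈ singSub ∧ ∀ i, x i ∈ boxL.toFinset} =
      ↑(TT 0 ∅ boxL.toFinset ∪ TT 0 Finset.univ boxL.toFinset) := by
    ext x
    rw [Finset.coe_union, Set.mem_union, Finset.mem_coe, Finset.mem_coe,
      mem_TT (by norm_num) empty_mem_CS, mem_TT (by norm_num) univ_mem_CS]
    simp only [Set.mem_ofPred_eq, mem_singSub, Nat.cast_zero]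
    tauto
  have hdisj : Disjoint (TT 0 ∅ boxL.toFinset) (TT 0 Finset.univ boxL.toFinset) := by
    rw [Finset.disjoint_left]
    intro x h1 h2
    rw [mem_TT (by norm_num) empty_mem_CS] at h1
    rw [mem_TT (by norm_num) univ_mem_CS] at h2
    have e1 := (h1.1.tau (by norm_num)).2
    have e2 := (h2.1.tau (by norm_num)).2
    rw [e1] at e2
    have : (Finset.univ : Finset GolayPt).card = 0 := by rw [← e2]; rfl
    rw [card_pts] at this
    omega
  rw [e, Set.ncard_coe_finset, Finset.card_union_of_disjoint hdisj,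
    card_TT boxL (by decide) 0 (by norm_num), card_TT boxL (by decide) 0 (by norm_num),
    Finset.card_empty, card_pts, K2_box0, K2_box24] at h
  have : (2 : ℕ) ^ 24 * singSub.index = 2 ^ 24 * 2 ^ 48 := by
    have e2 : (2 : ℕ) ^ 24 = 2 ^ 23 + 2 ^ 23 := by norm_num
    rw [e2, h]; norm_num
  exact Nat.eq_of_mul_eq_mul_left (by norm_num) this

theorem singSub_relIndex : (singSub.addSubgroupOf leechLattice).index = 2 ^ 12 := by
  have h := AddSubgroup.relIndex_mul_index singSub_le
  rw [leech_index, singSub_index] at h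
  have : singSub.relIndex leechLattice * 2 ^ 36 = 2 ^ 12 * 2 ^ 36 := by rw [h]; norm_num
  exact Nat.eq_of_mul_eq_mul_right (by norm_num) this

end Cfsg.Agent.Lib.Helper8
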