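import Cfsg.Agent.Lib.Helper8.LeechC0Data

set_option autoImplicit false

namespace Cfsg.Agent.Lib.Helper8

theorem k0b0 : allBelow 4095 (fun k => k0entry (0 * 4095 + k)) = true := by
  decide +kernel

theorem a2b0 : allBelow 4095 (fun k => a2entry (0 * 4095 + k)) = true := by
  decide +kernel

theorem k0b1 : allBelow 4095 (fun k => k0entry (1 * 4095 + k)) = true := by
  decide +kernel

theorem a2b1 : allBelow 4095 (fun k => a2entry (1 * 4095 + k)) = true := by
  decide +kernel

theorem k0b2 : allBelow 4095 (fun k => k0entry (2 * 4095 + k)) = true := by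
  decide +kernel

theorem a2b2 : allBelow 4095 (fun k => a2entry (2 * 4095 + k)) = true := by
  decide +kernel

theorem k0b3 : allBelow 4095 (fun k => k0entry (3 * 4095 + k)) = true := by
  decide +kernel

theorem a2b3 : allBelow 4095 (fun k => a2entry (3 * 4095 + k)) = true := by
  decide +kernel

theorem k0b4 : allBelow 4095 (fun k => k0entry (4 * 4095 + k)) = true := by
  decide +kernel

theorem a2b4 : allBelow 4095 (fun k => a2entry (4 * 4095 + k)) = true := by
  decide +kernel

theorem k0b5 : allBelow 4095 (fun k => k0entry (5 * 4095 + k)) = true := by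
  decide +kernel

theorem a2b5 : allBelow 4095 (fun k => a2entry (5 * 4095 + k)) = true := by
  decide +kernel

theorem k0b6 : allBelow 4095 (fun k => k0entry (6 * 4095 + k)) = true := by
  decide +kernel

theorem a2b6 : allBelow 4095 (fun k => a2entry (6 * 4095 + k)) = true := by
  decide +kernel

theorem k0b7 : allBelow 4095 (fun k => k0entry (7 * 4095 + k)) = true := by
  decide +kernel

theorem a2b7 : allBelow 4095 (fun k => a2entry (7 * 4095 + k)) = true := by
  decide +kernel

theorem k0b8 : allBelow 4095 (fun k => k0entry (8 * 4095 + k)) = true := by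
  decide +kernel

theorem a2b8 : allBelow 4095 (fun k => a2entry (8 * 4095 + k)) = true := by
  decide +kernel

theorem k0b9 : allBelow 4095 (fun k => k0entry (9 * 4095 + k)) = true := by
  decide +kernel

theorem a2b9 : allBelow 4095 (fun k => a2entry (9 * 4095 + k)) = true := by
  decide +kernel

theorem k0b10 : allBelow 4095 (fun k => k0entry (10 * 4095 + k)) = true := by
  decide +kernel

theorem a2b10 : allBelow 4095 (fun k => a2entry (10 * 4095 + k)) = true := by
  decide +kernel

theorem k0b11 : allBelow 4095 (fun k => k0entry (11 * 4095 + k)) = true := by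
  decide +kernel

theorem a2b11 : allBelow 4095 (fun k => a2entry (11 * 4095 + k)) = true := by
  decide +kernel

end Cfsg.Agent.Lib.Helper8
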