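import Cfsg.Agent.Lib.Helper8.LeechC0Data

set_option autoImplicit false

namespace Cfsg.Agent.Lib.Helper8

theorem k0b12 : allBelow 4095 (fun k => k0entry (12 * 4095 + k)) = true := by
  decide +kernel

theorem a2b12 : allBelow 4095 (fun k => a2entry (12 * 4095 + k)) = true := by
  decide +kernel

theorem k0b13 : allBelow 4095 (fun k => k0entry (13 * 4095 + k)) = true := by
  decide +kernel

theorem a2b13 : allBelow 4095 (fun k => a2entry (13 * 4095 + k)) = true := by
  decide +kernel

theorem k0b14 : allBelow 4095 (fun k => k0entry (14 * 4095 + k)) = true := by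
  decide +kernel

theorem a2b14 : allBelow 4095 (fun k => a2entry (14 * 4095 + k)) = true := by
  decide +kernel

theorem k0b15 : allBelow 4095 (fun k => k0entry (15 * 4095 + k)) = true := by
  decide +kernel

theorem a2b15 : allBelow 4095 (fun k => a2entry (15 * 4095 + k)) = true := by
  decide +kernel

theorem k0b16 : allBelow 4095 (fun k => k0entry (16 * 4095 + k)) = true := by
  decide +kernel

theorem a2b16 : allBelow 4095 (fun k => a2entry (16 * 4095 + k)) = true := by
  decide +kernel

theorem k0b17 : allBelow 4095 (fun k => k0entry (17 * 4095 + k)) = true := by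
  decide +kernel

theorem a2b17 : allBelow 4095 (fun k => a2entry (17 * 4095 + k)) = true := by
  decide +kernel

theorem k0b18 : allBelow 4095 (fun k => k0entry (18 * 4095 + k)) = true := by
  decide +kernel

theorem a2b18 : allBelow 4095 (fun k => a2entry (18 * 4095 + k)) = true := by
  decide +kernel

theorem k0b19 : allBelow 4095 (fun k => k0entry (19 * 4095 + k)) = true := by
  decide +kernel

theorem a2b19 : allBelow 4095 (fun k => a2entry (19 * 4095 + k)) = true := by
  decide +kernel

theorem k0b20 : allBelow 4095 (fun k => k0entry (20 * 4095 + k)) = true := by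
  decide +kernel

theorem a2b20 : allBelow 4095 (fun k => a2entry (20 * 4095 + k)) = true := by
  decide +kernel

theorem k0b21 : allBelow 4095 (fun k => k0entry (21 * 4095 + k)) = true := by
  decide +kernel

theorem a2b21 : allBelow 4095 (fun k => a2entry (21 * 4095 + k)) = true := by
  decide +kernel

theorem k0b22 : allBelow 4095 (fun k => k0entry (22 * 4095 + k)) = true := by
  decide +kernel

theorem a2b22 : allBelow 4095 (fun k => a2entry (22 * 4095 + k)) = true := by
  decide +kernel

theorem k0b23 : allBelow 4095 (fun k => k0entry (23 * 4095 + k)) = true := by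
  decide +kernel

theorem a2b23 : allBelow 4095 (fun k => a2entry (23 * 4095 + k)) = true := by
  decide +kernel

end Cfsg.Agent.Lib.Helper8
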