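import Cfsg.Agent.Lib.Helper8.LeechC0Data

set_option autoImplicit false

namespace Cfsg.Agent.Lib.Helper8

theorem k0b24 : allBelow 4095 (fun k => k0entry (24 * 4095 + k)) = true := by
  decide +kernel

theorem a2b24 : allBelow 4095 (fun k => a2entry (24 * 4095 + k)) = true := by
  decide +kernel

theorem k0b25 : allBelow 4095 (fun k => k0entry (25 * 4095 + k)) = true := by
  decide +kernel

theorem a2b25 : allBelow 4095 (fun k => a2entry (25 * 4095 + k)) = true := by
  decide +kernel

theorem k0b26 : allBelow 4095 (fun k => k0entry (26 * 4095 + k)) = true := by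
  decide +kernel

theorem a2b26 : allBelow 4095 (fun k => a2entry (26 * 4095 + k)) = true := by
  decide +kernel

theorem k0b27 : allBelow 4095 (fun k => k0entry (27 * 4095 + k)) = true := by
  decide +kernel

theorem a2b27 : allBelow 4095 (fun k => a2entry (27 * 4095 + k)) = true := by
  decide +kernel

theorem k0b28 : allBelow 4095 (fun k => k0entry (28 * 4095 + k)) = true := by
  decide +kernel

theorem a2b28 : allBelow 4095 (fun k => a2entry (28 * 4095 + k)) = true := by
  decide +kernel

theorem k0b29 : allBelow 4095 (fun k => k0entry (29 * 4095 + k)) = true := by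
  decide +kernel

theorem a2b29 : allBelow 4095 (fun k => a2entry (29 * 4095 + k)) = true := by
  decide +kernel

theorem k0b30 : allBelow 4095 (fun k => k0entry (30 * 4095 + k)) = true := by
  decide +kernel

theorem a2b30 : allBelow 4095 (fun k => a2entry (30 * 4095 + k)) = true := by
  decide +kernel

theorem k0b31 : allBelow 4095 (fun k => k0entry (31 * 4095 + k)) = true := by
  decide +kernel

theorem a2b31 : allBelow 4095 (fun k => a2entry (31 * 4095 + k)) = true := by
  decide +kernel

theorem k0b32 : allBelow 4095 (fun k => k0entry (32 * 4095 + k)) = true := by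
  decide +kernel

theorem a2b32 : allBelow 4095 (fun k => a2entry (32 * 4095 + k)) = true := by
  decide +kernel

theorem k0b33 : allBelow 4095 (fun k => k0entry (33 * 4095 + k)) = true := by
  decide +kernel

theorem a2b33 : allBelow 4095 (fun k => a2entry (33 * 4095 + k)) = true := by
  decide +kernel

theorem k0b34 : allBelow 4095 (fun k => k0entry (34 * 4095 + k)) = true := by
  decide +kernel

theorem a2b34 : allBelow 4095 (fun k => a2entry (34 * 4095 + k)) = true := by
  decide +kernel

theorem k0b35 : allBelow 4095 (fun k => k0entry (35 * 4095 + k)) = true := by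
  decide +kernel

theorem a2b35 : allBelow 4095 (fun k => a2entry (35 * 4095 + k)) = true := by
  decide +kernel

end Cfsg.Agent.Lib.Helper8
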