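import Cfsg.Agent.Lib.Helper8.LeechC0Data

set_option autoImplicit false

namespace Cfsg.Agent.Lib.Helper8

theorem k0b36 : allBelow 4095 (fun k => k0entry (36 * 4095 + k)) = true := by
  decide +kernel

theorem a2b36 : allBelow 4095 (fun k => a2entry (36 * 4095 + k)) = true := by
  decide +kernel

theorem k0b37 : allBelow 4095 (fun k => k0entry (37 * 4095 + k)) = true := by
  decide +kernel

theorem a2b37 : allBelow 4095 (fun k => a2entry (37 * 4095 + k)) = true := by
  decide +kernel

theorem k0b38 : allBelow 4095 (fun k => k0entry (38 * 4095 + k)) = true := by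
  decide +kernel

theorem a2b38 : allBelow 4095 (fun k => a2entry (38 * 4095 + k)) = true := by
  decide +kernel

theorem k0b39 : allBelow 4095 (fun k => k0entry (39 * 4095 + k)) = true := by
  decide +kernel

theorem a2b39 : allBelow 4095 (fun k => a2entry (39 * 4095 + k)) = true := by
  decide +kernel

theorem k0b40 : allBelow 4095 (fun k => k0entry (40 * 4095 + k)) = true := by
  decide +kernel

theorem a2b40 : allBelow 4095 (fun k => a2entry (40 * 4095 + k)) = true := by
  decide +kernel

theorem k0b41 : allBelow 4095 (fun k => k0entry (41 * 4095 + k)) = true := by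
  decide +kernel

theorem a2b41 : allBelow 4095 (fun k => a2entry (41 * 4095 + k)) = true := by
  decide +kernel

theorem k0b42 : allBelow 4095 (fun k => k0entry (42 * 4095 + k)) = true := by
  decide +kernel

theorem a2b42 : allBelow 4095 (fun k => a2entry (42 * 4095 + k)) = true := by
  decide +kernel

theorem k0b43 : allBelow 4095 (fun k => k0entry (43 * 4095 + k)) = true := by
  decide +kernel

theorem a2b43 : allBelow 4095 (fun k => a2entry (43 * 4095 + k)) = true := by
  decide +kernel

theorem k0b44 : allBelow 4095 (fun k => k0entry (44 * 4095 + k)) = true := by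
  decide +kernel

theorem a2b44 : allBelow 4095 (fun k => a2entry (44 * 4095 + k)) = true := by
  decide +kernel

theorem k0b45 : allBelow 4095 (fun k => k0entry (45 * 4095 + k)) = true := by
  decide +kernel

theorem a2b45 : allBelow 4095 (fun k => a2entry (45 * 4095 + k)) = true := by
  decide +kernel

theorem k0b46 : allBelow 4095 (fun k => k0entry (46 * 4095 + k)) = true := by
  decide +kernel

theorem a2b46 : allBelow 4095 (fun k => a2entry (46 * 4095 + k)) = true := by
  decide +kernel

theorem k0b47 : allBelow 4095 (fun k => k0entry (47 * 4095 + k)) = true := by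
  decide +kernel

theorem a2b47 : allBelow 4095 (fun k => a2entry (47 * 4095 + k)) = true := by
  decide +kernel

end Cfsg.Agent.Lib.Helper8
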