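import Cfsg.Agent.Lib.Helper8.LeechC2Data

set_option autoImplicit false

namespace Cfsg.Agent.Lib.Helper8

theorem k1b0 : allBelow 4095 (fun k => k1entry (0 * 4095 + k)) = true := by
  decide +kernel

theorem s1b0 : sumBelow 4095 (fun k => s1f (0 * 4095 + k)) = 92960995613326945085093990465540213091422129311715695810596148578670619779377770052055844826813162779208900126070611640320 := by
  decide +kernel

theorem k1b1 : allBelow 4095 (fun k => k1entry (1 * 4095 + k)) = true := by
  decide +kernel

theorem s1b1 : sumBelow 4095 (fun k => s1f (1 * 4095 + k)) = 180757491468206683770746475378376081531663960357375145455110031494987150192739226788342294453639708232253584242589690757120 := by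
  decide +kernel

theorem k1b2 : allBelow 4095 (fun k => k1entry (2 * 4095 + k)) = true := by
  decide +kernel

theorem s1b2 : sumBelow 4095 (fun k => s1f (2 * 4095 + k)) = 330527984397395340153504017667071042944597998183673338568675705500940376764446211979598699601599417548739834740564369080320 := by
  decide +kernel

theorem k1b3 : allBelow 4095 (fun k => k1entry (3 * 4095 + k)) = true := by
  decide +kernel

theorem s1b3 : sumBelow 4095 (fun k => s1f (3 * 4095 + k)) = 185921991224335878640985683514611426423016467017966145623773769161491074403303731300580077619254165608811842555392158597120 := by
  decide +kernel

theorem k1b4 : allBelow 4095 (fun k => k1entry (4 * 4095 + k)) = true := by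
  decide +kernel

theorem s1b4 : sumBelow 4095 (fun k => s1f (4 * 4095 + k)) = 98125495369524247690233518014123305482601559212183753094452628558325810484896213138110212365814445402898285408167888158720 := by
  decide +kernel

theorem k1b5 : allBelow 4095 (fun k => k1entry (5 * 4095 + k)) = true := by
  decide +kernel

theorem s1b5 : sumBelow 4095 (fun k => s1f (5 * 4095 + k)) = 284047486591976595179829264400273852002989866867293840983643347878201280529760526692097924519152338857892553792835781918720 := by
  decide +kernel

theorem k1b6 : allBelow 4095 (fun k => k1entry (6 * 4095 + k)) = true := by
  decide +kernel

theorem s1b6 : sumBelow 4095 (fun k => s1f (6 * 4095 + k)) = 258224987811095766570356267593715363474297989643369598703910557417163511046098088731505160165497597229482361430416786718720 := by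
  decide +kernel

theorem k1b7 : allBelow 4095 (fun k => k1entry (7 * 4095 + k)) = true := by
  decide +kernel

theorem s1b7 : sumBelow 4095 (fun k => s1f (7 * 4095 + k)) = 227237989274050514951902519232114265443464204170708970040051913970344095087245158948764035367391030012671075635434325278720 := by
  decide +kernel

theorem k1b8 : allBelow 4095 (fun k => k1entry (8 * 4095 + k)) = true := by
  decide +kernel

theorem s1b8 : sumBelow 4095 (fun k => s1f (8 * 4095 + k)) = 258224987811098115112939039290956217033984696585375268216907351134329695980416850993488666951721335147840196176157731717120 := by
  decide +kernel

theorem k1b9 : allBelow 4095 (fun k => k1entry (9 * 4095 + k)) = true := by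
  decide +kernel

theorem s1b9 : sumBelow 4095 (fun k => s1f (9 * 4095 + k)) = 278882986835788686745020815096706030174687610723664553357243431983686815761475680222019710921174354424027924542674771640320 := by
  decide +kernel

theorem k1b10 : allBelow 4095 (fun k => k1entry (10 * 4095 + k)) = true := by
  decide +kernel

theorem s1b10 : sumBelow 4095 (fun k => s1f (10 * 4095 + k)) = 165263992199964708800160559495432668744267806601011120442430256423394622688145734583280394440721631303059236323680657080320 := by
  decide +kernel

theorem k1b11 : allBelow 4095 (fun k => k1entry (11 * 4095 + k)) = true := by
  decide +kernel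

theorem s1b11 : sumBelow 4095 (fun k => s1f (11 * 4095 + k)) = 250478238176832692258805755468361761655017486698593149325805443485375774393163920028313818402997000385589043963439999877120 := by
  decide +kernel

end Cfsg.Agent.Lib.Helper8
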