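import Cfsg.Agent.Lib.Helper8.LeechC2Data

set_option autoImplicit false

namespace Cfsg.Agent.Lib.Helper8

theorem k1b12 : allBelow 4095 (fun k => k1entry (12 * 4095 + k)) = true := by
  decide +kernel

theorem s1b12 : sumBelow 4095 (fun k => s1f (12 * 4095 + k)) = 245313738420663572164659462654824480952469578068641401014318655761142761499346266790187912687065612331373926777151522078720 := by
  decide +kernel

theorem k1b13 : allBelow 4095 (fun k => k1entry (13 * 4095 + k)) = true := by
  decide +kernel

theorem s1b13 : sumBelow 4095 (fun k => s1f (13 * 4095 + k)) = 260807237689175629532263873809982850584649650328528099481609342888769152799384935488585301902467685476226719138714453278720 := by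
  decide +kernel

theorem k1b14 : allBelow 4095 (fun k => k1entry (14 * 4095 + k)) = true := by
  decide +kernel

theorem s1b14 : sumBelow 4095 (fun k => s1f (14 * 4095 + k)) = 255642737933013555065865891816194058723227035519001405511847630924272687808502842820430979943271684435281814714135053598720 := by
  decide +kernel

theorem k1b15 : allBelow 4095 (fun k => k1entry (15 * 4095 + k)) = true := by
  decide +kernel

theorem s1b15 : sumBelow 4095 (fun k => s1f (15 * 4095 + k)) = 149770492931417423293814607057454070420265746255775012858310106672371512573491441682961896247450103317265254580113605918720 := by
  decide +kernel

theorem k1b16 : allBelow 4095 (fun k => k1entry (16 * 4095 + k)) = true := by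
  decide +kernel

theorem s1b16 : sumBelow 4095 (fun k => s1f (16 * 4095 + k)) = 201415490492911346658324870687635836435650048633718562180263611167936362329658814048827037635595588164080092394768008478720 := by
  decide +kernel

theorem k1b17 : allBelow 4095 (fun k => k1entry (17 * 4095 + k)) = true := by
  decide +kernel

theorem s1b17 : sumBelow 4095 (fun k => s1f (17 * 4095 + k)) = 320198984885068842678125286254226677500000888628206235313420793246543268748383990597285485498919504290295482621178381598720 := by
  decide +kernel

theorem k1b18 : allBelow 4095 (fun k => k1entry (18 * 4095 + k)) = true := by
  decide +kernel

theorem s1b18 : sumBelow 4095 (fun k => s1f (18 * 4095 + k)) = 196250990736721089680933656094788268804563326056471536336764859643898722977086294640733722154297605924562565612136688517120 := by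
  decide +kernel

theorem k1b19 : allBelow 4095 (fun k => k1entry (19 * 4095 + k)) = true := by
  decide +kernel

theorem s1b19 : sumBelow 4095 (fun k => s1f (19 * 4095 + k)) = 320198984885038311624549279821940012251682660415684256828054307273954906002364438487373516889625871802463379779628637880320 := by
  decide +kernel

theorem k1b20 : allBelow 4095 (fun k => k1entry (20 * 4095 + k)) = true := by
  decide +kernel

theorem s1b20 : sumBelow 4095 (fun k => s1f (20 * 4095 + k)) = 211744490005350574177676541040663448634773243271250901324997292444022181592524194822854099030555079700421516897389190840320 := by
  decide +kernel

theorem k1b21 : allBelow 4095 (fun k => k1entry (21 * 4095 + k)) = true := by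
  decide +kernel

theorem s1b21 : sumBelow 4095 (fun k => s1f (21 * 4095 + k)) = 335692484153545671906988156126564818440358972802743524663882017750772941233807035093761765736452122594207085600737192837120 := by
  decide +kernel

theorem k1b22 : allBelow 4095 (fun k => k1entry (22 * 4095 + k)) = true := by
  decide +kernel

theorem s1b22 : sumBelow 4095 (fun k => s1f (22 * 4095 + k)) = 356350483178344276497877331749990243054149385144678660864968585579248409293052225406018580027673071053379508334521294520320 := by
  decide +kernel

theorem k1b23 : allBelow 4095 (fun k => k1entry (23 * 4095 + k)) = true := by
  decide +kernel

theorem s1b23 : sumBelow 4095 (fun k => s1f (23 * 4095 + k)) = 475133977570356162877546036654831426310928776518735652335262215127231548229486112313114873503055651031190204538127143403520 := by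
  decide +kernel

end Cfsg.Agent.Lib.Helper8
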