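import Cfsg.Agent.Lib.Helper8.LeechC2Data

set_option autoImplicit false

namespace Cfsg.Agent.Lib.Helper8

theorem k1b24 : allBelow 4095 (fun k => k1entry (24 * 4095 + k)) = true := by
  decide +kernel

theorem s1b24 : sumBelow 4095 (fun k => s1f (24 * 4095 + k)) = 3121748550315992231382072363770736659562933105927792754395989234281445672825489252889020287423335666645132742116904283210357190120323258693713920 := by
  decide +kernel

theorem k1b25 : allBelow 4095 (fun k => k1entry (25 * 4095 + k)) = true := by
  decide +kernel

theorem s1b25 : sumBelow 4095 (fun k => s1f (25 * 4095 + k)) = 356350483178346625040460105583218132532803505589480307476598031992295597677381350775991555114864722342638988818019117957120 := by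
  decide +kernel

theorem k1b26 : allBelow 4095 (fun k => k1entry (26 * 4095 + k)) = true := by
  decide +kernel

theorem s1b26 : sumBelow 4095 (fun k => s1f (26 * 4095 + k)) = 335692484153543323364405382293336928961704852357941878052252571337725752849477909723788790649260471304947605117239369400320 := by
  decide +kernel

theorem k1b27 : allBelow 4095 (fun k => k1entry (27 * 4095 + k)) = true := by
  decide +kernel

theorem s1b27 : sumBelow 4095 (fun k => s1f (27 * 4095 + k)) = 211744490005352922720259314873891338113427363716052547936626738857069369976853320192827074117746730989680997380887014277120 := by
  decide +kernel

theorem k1b28 : allBelow 4095 (fun k => k1entry (28 * 4095 + k)) = true := by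
  decide +kernel

theorem s1b28 : sumBelow 4095 (fun k => s1f (28 * 4095 + k)) = 320198984885040660167132053655167901730336780860485903439683753687002094386693563857346491976817523091722860263126461317120 := by
  decide +kernel

theorem k1b29 : allBelow 4095 (fun k => k1entry (29 * 4095 + k)) = true := by
  decide +kernel

theorem s1b29 : sumBelow 4095 (fun k => s1f (29 * 4095 + k)) = 196250990736718741138350882261560379325909205611669889725135413230851534592757169270760747067105954635303085128638865080320 := by
  decide +kernel

theorem k1b30 : allBelow 4095 (fun k => k1entry (30 * 4095 + k)) = true := by
  decide +kernel

theorem s1b30 : sumBelow 4095 (fun k => s1f (30 * 4095 + k)) = 320198984885068842678125286254226677500000888628206235313420793246543268748383990597285485498919504290295482621178381598720 := by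
  decide +kernel

theorem k1b31 : allBelow 4095 (fun k => k1entry (31 * 4095 + k)) = true := by
  decide +kernel

theorem s1b31 : sumBelow 4095 (fun k => s1f (31 * 4095 + k)) = 201415490492911346658324870687635836435650048633718562180263611167936362329658814048827037635595588164080092394768008478720 := by
  decide +kernel

theorem k1b32 : allBelow 4095 (fun k => k1entry (32 * 4095 + k)) = true := by
  decide +kernel

theorem s1b32 : sumBelow 4095 (fun k => s1f (32 * 4095 + k)) = 149770492931417423293814607057454070420265746255775012858310106672371512573491441682961896247450103317265254580113605918720 := by
  decide +kernel

theorem k1b33 : allBelow 4095 (fun k => k1entry (33 * 4095 + k)) = true := by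
  decide +kernel

theorem s1b33 : sumBelow 4095 (fun k => s1f (33 * 4095 + k)) = 255642737933013555065865891816194058723227035519001405511847630924272687808502842820430979943271684435281814714135053598720 := by
  decide +kernel

theorem k1b34 : allBelow 4095 (fun k => k1entry (34 * 4095 + k)) = true := by
  decide +kernel

theorem s1b34 : sumBelow 4095 (fun k => s1f (34 * 4095 + k)) = 260807237689175629532263873809982850584649650328528099481609342888769152799384935488585301902467685476226719138714453278720 := by
  decide +kernel

theorem k1b35 : allBelow 4095 (fun k => k1entry (35 * 4095 + k)) = true := by
  decide +kernel

theorem s1b35 : sumBelow 4095 (fun k => s1f (35 * 4095 + k)) = 245313738420663572164659462654824480952469578068641401014318655761142761499346266790187912687065612331373926777151522078720 := by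
  decide +kernel

end Cfsg.Agent.Lib.Helper8
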