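import Cfsg.Agent.Lib.Helper8.LeechC2Data

set_option autoImplicit false

namespace Cfsg.Agent.Lib.Helper8

theorem k1b36 : allBelow 4095 (fun k => k1entry (36 * 4095 + k)) = true := by
  decide +kernel

theorem s1b36 : sumBelow 4095 (fun k => s1f (36 * 4095 + k)) = 250478238176830343716222981635133872176363366253791502714175997072328586008834794658340843315805349096329563479942176440320 := by
  decide +kernel

theorem k1b37 : allBelow 4095 (fun k => k1entry (37 * 4095 + k)) = true := by
  decide +kernel

theorem s1b37 : sumBelow 4095 (fun k => s1f (37 * 4095 + k)) = 165263992199967057342743333328660558222921927045812767054059702836441811072474859953253369527913282592318716807178480517120 := by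
  decide +kernel

theorem k1b38 : allBelow 4095 (fun k => k1entry (38 * 4095 + k)) = true := by
  decide +kernel

theorem s1b38 : sumBelow 4095 (fun k => s1f (38 * 4095 + k)) = 278882986835791035287603588929933919653341731168466199968872878396734004145804805591992686008366005713287405026172595077120 := by
  decide +kernel

theorem k1b39 : allBelow 4095 (fun k => k1entry (39 * 4095 + k)) = true := by
  decide +kernel

theorem s1b39 : sumBelow 4095 (fun k => s1f (39 * 4095 + k)) = 258224987811095766570356265457728327555330576140573621605277904721282507596087725623515691864529683858580715692659908280320 := by
  decide +kernel

theorem k1b40 : allBelow 4095 (fun k => k1entry (40 * 4095 + k)) = true := by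
  decide +kernel

theorem s1b40 : sumBelow 4095 (fun k => s1f (40 * 4095 + k)) = 227237989274050514951902519232114265443464204170708970040051913970344095087245158948764035367391030012671075635434325278720 := by
  decide +kernel

theorem k1b41 : allBelow 4095 (fun k => k1entry (41 * 4095 + k)) = true := by
  decide +kernel

theorem s1b41 : sumBelow 4095 (fun k => s1f (41 * 4095 + k)) = 258224987811095766570356267593715363474297989643369598703910557417163511046098088731505160165497597229482361430416786718720 := by
  decide +kernel

theorem k1b42 : allBelow 4095 (fun k => k1entry (42 * 4095 + k)) = true := by
  decide +kernel

theorem s1b42 : sumBelow 4095 (fun k => s1f (42 * 4095 + k)) = 284047486591976595179829264400273852002989866867293840983643347878201280529760526692097924519152338857892553792835781918720 := by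
  decide +kernel

theorem k1b43 : allBelow 4095 (fun k => k1entry (43 * 4095 + k)) = true := by
  decide +kernel

theorem s1b43 : sumBelow 4095 (fun k => s1f (43 * 4095 + k)) = 98125495369524247690233518014123305482601559212183753094452628558325810484896213138110212365814445402898285408167888158720 := by
  decide +kernel

theorem k1b44 : allBelow 4095 (fun k => k1entry (44 * 4095 + k)) = true := by
  decide +kernel

theorem s1b44 : sumBelow 4095 (fun k => s1f (44 * 4095 + k)) = 185921991224333530098402909681383536944362346573164499012144322748443886018974605930607102532062514319552362071894335160320 := by
  decide +kernel

theorem k1b45 : allBelow 4095 (fun k => k1entry (45 * 4095 + k)) = true := by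
  decide +kernel

theorem s1b45 : sumBelow 4095 (fun k => s1f (45 * 4095 + k)) = 330527984397397688696086791500298932423252118628474985180305151913987565148775337349571674688791068837999315224062192517120 := by
  decide +kernel

theorem k1b46 : allBelow 4095 (fun k => k1entry (46 * 4095 + k)) = true := by
  decide +kernel

theorem s1b46 : sumBelow 4095 (fun k => s1f (46 * 4095 + k)) = 180757491468204335228163701545148192053009839912573498843480585081939961808410101418369319366448056942994103759091867320320 := by
  decide +kernel

theorem k1b47 : allBelow 4095 (fun k => k1entry (47 * 4095 + k)) = true := by
  decide +kernel

theorem s1b47 : sumBelow 4095 (fun k => s1f (47 * 4095 + k)) = 92960995613329293627676764298768102570076249756517342422225594991717808163706895422028819914004814068468380609568435077120 := by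
  decide +kernel

end Cfsg.Agent.Lib.Helper8
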