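import Cfsg.Agent.Lib.Helper8.LeechExt

set_option autoImplicit false

namespace Cfsg.Agent.Lib.Helper8

open Cfsg

/-- the central element `-1` -/
def negCo : Co0 := ⟨Equiv.neg ↥leechLattice, by
  constructor
  · intro v w
    simp only [Equiv.neg_apply, neg_add]
  · intro v
    simp only [Equiv.neg_apply, AddSubgroup.coe_neg, sqNorm_neg]⟩

theorem negCo_smul (v : ↥leechLattice) : negCo • v = -v := rfl

theorem negCo_mem_center : negCo ∈ Subgroup.center Co0 := by
  rw [Subgroup.mem_center_iff]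
  intro g
  apply co_ext
  intro v _
  rw [mul_smul, mul_smul, negCo_smul, negCo_smul, co_neg]

theorem v0_ne_zero : (v0 : ↥leechLattice) ≠ 0 := by
  intro h
  have h1 : sqNorm ((v0 : ↥leechLattice) : GolayPt → ℤ) = 32 := v0c_sq
  rw [h] at h1
  simp [sqNorm] at h1

theorem negCo_ne_one : negCo ≠ 1 := by
  intro h
  have h1 : negCo • v0 = v0 := by rw [h, one_smul]
  rw [negCo_smul] at h1
  have h2 : (v0 : ↥leechLattice) + v0 = 0 := by
    nth_rewrite 1 [← h1]; exact neg_add_cancel v0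
  have h3 : sqNorm (((v0 : ↥leechLattice) + v0 : ↥leechLattice) : GolayPt → ℤ) = 0 := by
    rw [h2]; simp [sqNorm]
  rw [AddSubgroup.coe_add, sqNorm_add] at h3
  have h4 : sqNorm ((v0 : ↥leechLattice) : GolayPt → ℤ) = 32 := v0c_sq
  have h5 : dotInt ((v0 : ↥leechLattice) : GolayPt → ℤ) ((v0 : ↥leechLattice) : GolayPt → ℤ) = 32 := by
    have : dotInt ((v0 : ↥leechLattice) : GolayPt → ℤ) ((v0 : ↥leechLattice) : GolayPt → ℤ) =
        sqNorm ((v0 : ↥leechLattice) : GolayPt → ℤ) := by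
      unfold dotInt sqNorm
      exact Finset.sum_congr rfl fun i _ => by ring
    rw [this, h4]
  omega

theorem cls_one : ∀ s < 64, (∑ i ∈ Finset.range 196560, s1f i) / (2 ^ 20) ^ s % 2 ^ 20 = 1 →
    s = 8 ∨ s = 24 := by
  rw [s1b_all]; decide +kernel

/-- a minimal vector fixed by the whole stabiliser of `v0` is `± v0` -/
theorem fixed_by_co2 (w : ↥leechLattice) (hw : sqNorm (w : GolayPt → ℤ) = 32)
    (hfix : ∀ k ∈ fixS [v0c], k • w = w) : w = v0 ∨ w = -v0 := by
  obtain ⟨i, hi, e⟩ := A2_complete w w.2 hw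
  have hd : dotInt (lvec v0c) (w : GolayPt → ℤ) = 4 * (lab2 (A2 i) : ℤ) - 64 := by rw [e, dot_v0]
  have hset : {x : GolayPt → ℤ | x ∈ leechLattice ∧ sqNorm x = 32 ∧
      dotInt (lvec v0c) x = 4 * (lab2 (A2 i) : ℤ) - 64} = {(w : GolayPt → ℤ)} := by
    ext x
    simp only [Set.mem_ofPred_eq, Set.mem_singleton_iff]
    constructor
    · rintro ⟨h1, h2, h3⟩
      obtain ⟨k, hk, _, _, ek⟩ := co2_conn w.2 hw h1 h2 (by rw [hd, h3])
      have := hfix k hk
      have e2 : k • w = ⟨x, h1⟩ := ek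
      rw [this] at e2
      rw [e2]
    · rintro rfl
      exact ⟨w.2, hw, hd⟩
  have hc := ncard_dot2 (lvec v0c) v0c_mem v0c_sq _ (lab2 (A2 i)) rfl
  rw [hset, Set.ncard_singleton] at hc
  have hlt : lab2 (A2 i) < 64 := by
    rw [lab2_eq]
    have h1 := (A2_valid i hi).2 0 (by norm_num)
    have h2 := (A2_valid i hi).2 1 (by norm_num)
    omega
  have sub0 : ∀ a b : GolayPt → ℤ, sqNorm a = 32 → sqNorm b = 32 → dotInt a b = 32 → a = b := by
    intro a b ha hb hab
    have h := sqNorm_sub a b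
    rw [ha, hb, hab] at h
    exact sub_eq_zero.mp (sqNorm_eq_zero (by omega))
  rcases cls_one _ hlt hc.symm with h8 | h24
  · right
    rw [h8] at hd
    apply Subtype.ext
    have h := sqNorm_add (lvec v0c) (w : GolayPt → ℤ)
    rw [v0c_sq, hw, hd] at h
    have h0 := sqNorm_eq_zero (x := lvec v0c + (w : GolayPt → ℤ)) (by rw [h]; norm_num)
    show (w : GolayPt → ℤ) = -lvec v0c
    exact eq_neg_of_add_eq_zero_right h0
  · left
    rw [h24] at hd
    apply Subtype.ext
    exact (sub0 _ _ v0c_sq hw (by rw [hd]; norm_num)).symm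

theorem center_cases (g : Co0) (hg : g ∈ Subgroup.center Co0) : g = 1 ∨ g = negCo := by
  rw [Subgroup.mem_center_iff] at hg
  have h1 := fixed_by_co2 (g • v0) (by rw [co_norm]; exact v0c_sq) (by
    intro k hk
    rw [← mul_smul, hg k, mul_smul, fixS_v0 hk])
  rcases h1 with h1 | h1
  · left
    apply co_ext
    intro v hv
    obtain ⟨h, hh⟩ := co0_trans2 v0 v v0c_sq hv
    rw [one_smul, ← hh, ← mul_smul, ← hg h, mul_smul, h1]
  · right
    apply co_ext
    intro v hv
    obtain ⟨h, hh⟩ := co0_trans2 v0 v v0c_sq hv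
    rw [negCo_smul, ← hh, ← mul_smul, ← hg h, mul_smul, h1, co_neg]

theorem center_card : Nat.card (Subgroup.center Co0) = 2 := by
  rw [Nat.card_eq_two_iff]
  refine ⟨⟨1, Subgroup.one_mem _⟩, ⟨negCo, negCo_mem_center⟩, ?_, ?_⟩
  · intro h
    exact negCo_ne_one (congrArg Subtype.val h).symm
  · ext ⟨g, hg⟩
    simp only [Set.mem_insert_iff, Set.mem_singleton_iff, Set.mem_univ, iff_true]
    rcases center_cases g hg with rfl | rfl
    · left; rfl
    · right; rfl

end Cfsg.Agent.Lib.Helper8
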