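import Cfsg.Agent.Lib.Helper8.LeechApp

set_option autoImplicit false

namespace Cfsg.Agent.Lib.Helper8

open Cfsg

theorem finite_norm (n : ℕ) (hn : n ≤ 64) :
    {x : GolayPt → ℤ | x ∈ leechLattice ∧ sqNorm x = n}.Finite := by
  apply Set.Finite.subset (Finset.finite_toSet (Fintype.piFinset fun _ => fullL.toFinset))
  intro x hx
  rw [Finset.mem_coe, Fintype.mem_piFinset]
  intro i
  apply mem_fullL
  rw [hx.2]; exact_mod_cast hn

theorem smul8_cancel {a b : GolayPt → ℤ} (h : (8 : ℤ) • a = (8 : ℤ) • b) : a = b := by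
  funext p
  have := congrFun h p
  simp only [Pi.smul_apply, smul_eq_mul] at this
  omega

theorem sqNorm_smul8 (y : GolayPt → ℤ) : sqNorm ((8 : ℤ) • y) = 64 * sqNorm y := by
  unfold sqNorm
  rw [Finset.mul_sum]
  apply Finset.sum_congr rfl
  intro i _
  simp only [Pi.smul_apply, smul_eq_mul]; ring

/-- `g` is the isometry with matrix `oc / 8` -/
def Spec (g : Co0) (oc : ℕ → ℕ) : Prop :=
  ∀ v : ↥leechLattice, mv oc (v : GolayPt → ℤ) = (8 : ℤ) • ((g • v : ↥leechLattice) : GolayPt → ℤ)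

theorem exists_co {oc : ℕ → ℕ} (hG : Gram oc)
    (hL : ∀ c ∈ G0, ∃ y ∈ leechLattice, mv oc (lvec c) = (8 : ℤ) • y) : ∃ g : Co0, Spec g oc := by
  have h1 : ∀ x ∈ leechLattice, ∃ y ∈ leechLattice, mv oc x = (8 : ℤ) • y := by
    intro x hx
    rw [← HG_eq] at hx
    unfold HG at hx
    induction hx using AddSubgroup.closure_induction with
    | mem x hx => obtain ⟨c, hc, rfl⟩ := hx; exact hL c hc
    | zero => exact ⟨0, leechLattice.zero_mem, by rw [mv_zero, smul_zero]⟩
    | add x y _ _ hx hy =>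
      obtain ⟨a, ha, ea⟩ := hx
      obtain ⟨b, hb, eb⟩ := hy
      exact ⟨a + b, leechLattice.add_mem ha hb, by rw [mv_add, ea, eb, smul_add]⟩
    | neg x _ hx =>
      obtain ⟨a, ha, ea⟩ := hx
      exact ⟨-a, leechLattice.neg_mem ha, by rw [mv_neg, ea, smul_neg]⟩
  have h2 : ∀ v : ↥leechLattice, ∃ w : ↥leechLattice,
      mv oc (v : GolayPt → ℤ) = (8 : ℤ) • (w : GolayPt → ℤ) := fun v => by
    obtain ⟨y, hy, e⟩ := h1 v v.2
    exact ⟨⟨y, hy⟩, e⟩
  choose φ hφ using h2
  have hadd : ∀ v w : ↥leechLattice, φ (v + w) = φ v + φ w := by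
    intro v w
    apply Subtype.ext
    apply smul8_cancel
    rw [← hφ, AddSubgroup.coe_add, mv_add, hφ, hφ, ← smul_add, AddSubgroup.coe_add]
  have hnorm : ∀ v : ↥leechLattice, sqNorm ((φ v : ↥leechLattice) : GolayPt → ℤ) =
      sqNorm (v : GolayPt → ℤ) := by
    intro v
    have e1 := sqNorm_mv hG (v : GolayPt → ℤ)
    rw [hφ, sqNorm_smul8] at e1
    omega
  have hinj : Function.Injective φ := by
    intro v w hvw
    have e1 : mv oc ((v : GolayPt → ℤ) - (w : GolayPt → ℤ)) = 0 := by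
      rw [mv_sub, hφ, hφ, hvw, sub_self]
    have e2 := sqNorm_mv hG ((v : GolayPt → ℤ) - (w : GolayPt → ℤ))
    rw [e1] at e2
    have e3 : sqNorm (0 : GolayPt → ℤ) = 0 := by simp [sqNorm]
    rw [e3] at e2
    have e4 : sqNorm ((v : GolayPt → ℤ) - (w : GolayPt → ℤ)) = 0 := by omega
    exact Subtype.ext (sub_eq_zero.mp (sqNorm_eq_zero e4))
  let Φ : ↥leechLattice →+ ↥leechLattice := AddMonoidHom.mk' φ hadd
  have hsurj : Function.Surjective φ := by
    set T : Set ↥leechLattice := {v | sqNorm (v : GolayPt → ℤ) = 32} with hT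
    have hfin : T.Finite := by
      have : T = Subtype.val ⁻¹' {x : GolayPt → ℤ | x ∈ leechLattice ∧ sqNorm x = (32 : ℕ)} := by
        ext v
        simp only [hT, Set.mem_ofPred_eq, Set.mem_preimage, v.2, true_and]
        norm_num
      rw [this]
      exact (finite_norm 32 (by norm_num)).preimage Subtype.val_injective.injOn
    have hmaps : Set.MapsTo φ T T := by
      intro v hv
      show sqNorm _ = 32
      rw [hnorm]; exact hv
    have hbij := (hfin.injOn_iff_bijOn_of_mapsTo hmaps).mp hinj.injOn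
    have hle : leechLattice ≤ (Φ.range).map leechLattice.subtype := by
      refine le_trans (le_of_eq closure_min.symm) ?_
      apply (AddSubgroup.closure_le _).mpr
      rintro x ⟨hx, hx2⟩
      obtain ⟨v, _, hv⟩ := hbij.surjOn (show (⟨x, hx⟩ : ↥leechLattice) ∈ T from hx2)
      exact ⟨⟨x, hx⟩, ⟨v, hv⟩, rfl⟩
    intro w
    obtain ⟨u, ⟨v, hv⟩, hu⟩ := hle w.2
    refine ⟨v, ?_⟩
    have : u = w := Subtype.ext hu
    rw [← this]; exact hv
  exact ⟨⟨Equiv.ofBijective φ ⟨hinj, hsurj⟩, ⟨hadd, hnorm⟩⟩, fun v => hφ v⟩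

/-! ### boolean checks -/

def validY (Y : ℕ) : Bool :=
  Nat.blt Y (256 ^ 24) && allBelow 24 (fun j => Nat.blt (dg Y j) 32)

def ValidP (Y : ℕ) : Prop := Y < 256 ^ 24 ∧ ∀ j < 24, dg Y j < 32

theorem validY_iff {Y : ℕ} (h : validY Y = true) : ValidP Y := by
  unfold validY at h
  rw [Bool.and_eq_true] at h
  exact ⟨Nat.le_of_ble_eq_true h.1, fun j hj => Nat.le_of_ble_eq_true (of_allBelow h.2 j hj)⟩

def HI : ℕ := 224 * ONES

/-- fast validity test -/
def validF (Y : ℕ) : Bool := Nat.blt Y 6277101735386680763835789423207666416102355444464034512896 &&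
  Nat.beq (Nat.land Y 5514003093045554867055752277641244224340892625725269532896) 0

theorem HI_shift : ∀ j < 24, (HI >>> (8 * j)) &&& 224 = 224 := by decide +kernel

theorem lt32_of_and : ∀ x < 256, x &&& 224 = 0 → x < 32 := by decide +kernel

theorem validF_iff {Y : ℕ} (h : validF Y = true) : ValidP Y := by
  unfold validF at h
  rw [Bool.and_eq_true] at h
  have h1 : Y < 256 ^ 24 := Nat.le_of_ble_eq_true h.1
  have h2 : Y &&& HI = 0 := Nat.eq_of_beq_eq_true h.2
  refine ⟨h1, fun j hj => ?_⟩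
  apply lt32_of_and _ (dg_lt Y j)
  show ((Y >>> (8 * j)) &&& 255) &&& 224 = 0
  have e1 : (Y >>> (8 * j)) &&& (HI >>> (8 * j)) = 0 := by
    rw [← Nat.shiftRight_and_distrib, h2, Nat.zero_shiftRight]
  rw [Nat.and_assoc, show (255 &&& 224 : ℕ) = 224 from rfl, ← HI_shift j hj, ← Nat.and_assoc, e1,
    Nat.zero_and]

/-- membership test for the lattice -/
def leechB (Y : ℕ) : Bool :=
  force ((List.range 24).foldl (fun s j => s + (dg Y j / 2 % 2) * 2 ^ j) 0) fun a =>
    Nat.blt a (2 ^ 24) && isCode a && isLB (dg Y 0 % 2) a Y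

theorem mem_of_leechB {Y : ℕ} (h : leechB Y = true) : lvec Y ∈ leechLattice := by
  unfold leechB at h
  rw [force_eq, Bool.and_eq_true, Bool.and_eq_true] at h
  obtain ⟨⟨h1, h2⟩, h3⟩ := h
  exact (mem_leech_iff' _).mpr ⟨_, _, (setOf_mem_supports_iff (Nat.le_of_ble_eq_true h1)).mpr h2,
    IsL_of_isLB h3⟩

def gramB (oc : ℕ → ℕ) : Bool :=
  allBelow 24 fun j => force (oc j) fun cj => allBelow 24 fun k => force (oc k) fun ck =>
    Nat.beq (sum24 (fun i => dg cj i * dg ck i) + 1536)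
      (8 * (sum24 (dg cj) + sum24 (dg ck)) + bif Nat.beq j k then 64 else 0)

theorem Gram_of_gramB {oc : ℕ → ℕ} (h : gramB oc = true) : Gram oc := by
  intro j hj k hk
  have h1 := of_allBelow h j hj
  rw [force_eq] at h1
  have h2 := of_allBelow h1 k hk
  rw [force_eq] at h2
  have h3 := Nat.eq_of_beq_eq_true h2
  rw [sum24_eq, sum24_eq, sum24_eq] at h3
  have e : ∀ i, ((dg (oc j) i : ℤ) - 8) * ((dg (oc k) i : ℤ) - 8) =
      (dg (oc j) i * dg (oc k) i : ℕ) - 8 * ((dg (oc j) i : ℕ) + (dg (oc k) i : ℕ)) + 64 := by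
    intro i; push_cast; ring
  simp only [e, Finset.sum_add_distrib, Finset.sum_sub_distrib, ← Finset.mul_sum, Finset.sum_const,
    Finset.card_range]
  have h4 : ((∑ i ∈ Finset.range 24, dg (oc j) i * dg (oc k) i : ℕ) : ℤ) + 1536 =
      8 * (((∑ i ∈ Finset.range 24, dg (oc j) i : ℕ) : ℤ) + ((∑ i ∈ Finset.range 24, dg (oc k) i : ℕ) : ℤ))
        + ((bif Nat.beq j k then 64 else 0 : ℕ) : ℤ) := by exact_mod_cast h3
  have h5 : ((bif Nat.beq j k then 64 else 0 : ℕ) : ℤ) = if j = k then 64 else 0 := by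
    by_cases hjk : j = k
    · subst hjk; simp
    · have : Nat.beq j k = false := by
        cases hb : Nat.beq j k with
        | false => rfl
        | true => exact absurd (Nat.eq_of_beq_eq_true hb) hjk
      rw [this]; simp [hjk]
  rw [h5] at h4
  push_cast at h4 ⊢
  simp only [nsmul_eq_mul, Nat.cast_ofNat]
  linarith

/-- the packed check `M x = 8 y` -/
def chk1 (C : List ℕ) (km X Y : ℕ) : Bool :=
  Nat.beq (Nat.mod (app24L C X) WW) (Nat.mod (Nat.add (Nat.mul 8 Y) km) WW)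

/-- data of a generator: offset columns, shifted columns, constant, images of the 37 generators -/
abbrev GenData := List ℕ × List ℕ × ℕ × List ℕ

def ocF (d : GenData) : ℕ → ℕ := fun j => d.1.getD j 0

def genOK (d : GenData) : Bool :=
  allBelow 24 (fun j => Nat.beq (d.2.1.getD j 0) (d.1.getD j 0 + KW) &&
      Nat.blt (d.1.getD j 0) (256 ^ 24)) &&
    Nat.beq (d.2.2.1 + 64 * ONES) (8 * sum24 (fun j => d.2.1.getD j 0) + WW) &&
    gramB (ocF d) &&
    Nat.beq d.2.2.2.length 37 &&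
    (G0.zip d.2.2.2).all (fun x => chk1 d.2.1 d.2.2.1 x.1 x.2 && validY x.2 && leechB x.2)

theorem chk1_sound {d : GenData} (h : genOK d = true) {X Y : ℕ} (hX : sqNorm (lvec X) ≤ 64)
    (hY : ValidP Y) (hc : chk1 d.2.1 d.2.2.1 X Y = true) :
    mv (ocF d) (lvec X) = (8 : ℤ) • lvec Y := by
  unfold genOK at h
  simp only [Bool.and_eq_true] at h
  obtain ⟨⟨⟨⟨h1, h2⟩, h3⟩, _⟩, _⟩ := h
  obtain ⟨hY1, hY2⟩ := hY
  have h2' := Nat.eq_of_beq_eq_true h2
  rw [sum24_eq] at h2'
  have hc' := Nat.eq_of_beq_eq_true hc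
  rw [app24L_eq] at hc'
  refine chk_sound (C := fun j => d.2.1.getD j 0) (Gram_of_gramB h3) (fun j hj => ?_) (fun j hj => ?_)
    hY1 hY2 h2' hX hc'
  · have := of_allBelow h1 j hj
    rw [Bool.and_eq_true] at this
    exact Nat.eq_of_beq_eq_true this.1
  · have := of_allBelow h1 j hj
    rw [Bool.and_eq_true] at this
    exact Nat.le_of_ble_eq_true this.2

theorem exists_co_of_genOK {d : GenData} (h : genOK d = true) : ∃ g : Co0, Spec g (ocF d) := by
  have h' := h
  unfold genOK at h'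
  simp only [Bool.and_eq_true] at h'
  obtain ⟨⟨⟨_, h3⟩, h4⟩, h5⟩ := h'
  apply exists_co (Gram_of_gramB h3)
  intro c hc
  obtain ⟨i, hi, rfl⟩ := List.getElem_of_mem hc
  have hlen : d.2.2.2.length = 37 := Nat.eq_of_beq_eq_true h4
  have hi' : i < d.2.2.2.length := by rw [hlen]; exact hi
  have hz : (G0[i], d.2.2.2[i]) ∈ G0.zip d.2.2.2 := by
    have : (G0.zip d.2.2.2)[i]'(by rw [List.length_zip]; exact lt_min hi hi') =
      (G0[i], d.2.2.2[i]) := List.getElem_zip
    rw [← this]; exact List.getElem_mem _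
  have h6 := List.all_eq_true.mp h5 _ hz
  simp only [Bool.and_eq_true] at h6
  obtain ⟨⟨h7, h8⟩, h9⟩ := h6
  refine ⟨_, mem_of_leechB h9, chk1_sound h ?_ (validY_iff h8) h7⟩
  have := sqNorm_of_normIs (List.all_eq_true.mp G0_norm _ (List.getElem_mem hi))
  rw [this]; norm_num

/-- the action of a verified generator, computed by the packed check -/
theorem act_of_chk {d : GenData} (h : genOK d = true) {g : Co0} (hg : Spec g (ocF d))
    (v : ↥leechLattice) {X Y : ℕ} (hv : (v : GolayPt → ℤ) = lvec X)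
    (hn : sqNorm (v : GolayPt → ℤ) ≤ 64) (hY : ValidP Y)
    (hc : chk1 d.2.1 d.2.2.1 X Y = true) : ((g • v : ↥leechLattice) : GolayPt → ℤ) = lvec Y := by
  apply smul8_cancel
  rw [← hg v, hv]
  exact chk1_sound h (hv ▸ hn) hY hc

end Cfsg.Agent.Lib.Helper8
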