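import Cfsg.Agent.Lib.Helper8.LeechC2All

set_option autoImplicit false

namespace Cfsg.Agent.Lib.Helper8

open Cfsg

theorem v0c_digits : ∀ j < 24, dg v0c j = if j < 2 then 12 else 8 := by decide +kernel

theorem lab2_eq (Y : ℕ) : lab2 Y = dg Y 0 + dg Y 1 := rfl

theorem dot_v0 (Y : ℕ) : dotInt (lvec v0c) (lvec Y) = 4 * (lab2 Y : ℤ) - 64 := by
  rw [dotInt_lvec, lab2_eq]
  have h : ∀ j ∈ Finset.range 24, ((dg v0c j : ℤ) - 8) * ((dg Y j : ℤ) - 8) =
      if j < 2 then 4 * ((dg Y j : ℤ) - 8) else 0 := by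
    intro j hj
    rw [v0c_digits j (Finset.mem_range.mp hj)]
    split_ifs <;> simp
  rw [Finset.sum_congr rfl h]
  simp only [Finset.sum_range_succ, Finset.sum_range_zero]
  norm_num
  ring

theorem root2_ok (l : ℕ) : lvec (root2 l) ∈ leechLattice ∧ sqNorm (lvec (root2 l)) ≤ 64 := by
  unfold root2
  by_cases h : l < root2L.length
  · rw [List.getD_eq_getElem _ _ h]
    have := List.all_eq_true.mp root2L_ok _ (List.getElem_mem h)
    rw [Bool.and_eq_true] at this
    refine ⟨mem_of_leechB this.1, ?_⟩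
    rw [sqNorm_of_normIs this.2]; norm_num
  · rw [List.getD_eq_default _ _ (by omega)]
    exact ⟨v0c_mem, by rw [v0c_sq]; norm_num⟩

theorem A2_conn2 : ∀ i < 196560, Conn [v0c] (lvec (root2 (lab2 (A2 i)))) (lvec (A2 i)) := by
  apply orbitL_of_check (gens := co2gens) (S := [v0c]) (cert := K1) (root := root2) (lab := lab2)
  · intro d hd
    have := List.all_eq_true.mp co2gens_ok d hd
    rw [Bool.and_eq_true] at this
    exact this
  · intro c hc
    simp only [List.mem_singleton] at hc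
    rw [hc, v0c_sq]; norm_num
  · exact root2_ok
  · exact A2_valid
  · exact k1b_all

theorem co2_conn {x y : GolayPt → ℤ} (hx : x ∈ leechLattice) (hxn : sqNorm x = 32)
    (hy : y ∈ leechLattice) (hyn : sqNorm y = 32)
    (hd : dotInt (lvec v0c) x = dotInt (lvec v0c) y) : Conn [v0c] x y := by
  obtain ⟨i, hi, rfl⟩ := A2_complete x hx hxn
  obtain ⟨j, hj, rfl⟩ := A2_complete y hy hyn
  rw [dot_v0, dot_v0] at hd
  have e : lab2 (A2 i) = lab2 (A2 j) := by omega
  have h1 := A2_conn2 i hi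
  have h2 := A2_conn2 j hj
  rw [e] at h1
  exact h1.symm.trans h2

/-- the base vector as an element of the lattice -/
def v0 : ↥leechLattice := ⟨lvec v0c, v0c_mem⟩

theorem fixS_v0 {g : Co0} (hg : g ∈ fixS [v0c]) : g • v0 = v0 := hg v0c (by simp) v0c_mem

/-- transitivity on pairs of minimal vectors with given inner product -/
theorem pair_trans2 (v w w' : ↥leechLattice) (hv : sqNorm (v : GolayPt → ℤ) = 32)
    (hw : sqNorm (w : GolayPt → ℤ) = 32) (hw' : sqNorm (w' : GolayPt → ℤ) = 32)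
    (hd : dotInt (v : GolayPt → ℤ) (w : GolayPt → ℤ) = dotInt (v : GolayPt → ℤ) (w' : GolayPt → ℤ)) :
    ∃ g : Co0, g • v = v ∧ g • w = w' := by
  obtain ⟨h, hh⟩ := co0_trans2 v v0 hv v0c_sq
  have h1 : dotInt (lvec v0c) ((h • w : ↥leechLattice) : GolayPt → ℤ) =
      dotInt (lvec v0c) ((h • w' : ↥leechLattice) : GolayPt → ℤ) := by
    have e1 := co_dot h v w
    have e2 := co_dot h v w'
    rw [hh] at e1 e2
    show dotInt (v0 : GolayPt → ℤ) _ = dotInt (v0 : GolayPt → ℤ) _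
    rw [e1, e2, hd]
  obtain ⟨g0, hg0, _, _, e⟩ := co2_conn (h • w).2 (by rw [co_norm]; exact hw) (h • w').2
    (by rw [co_norm]; exact hw') h1
  have e' : g0 • (h • w) = h • w' := e
  refine ⟨h⁻¹ * g0 * h, ?_, ?_⟩
  · rw [mul_smul, mul_smul, hh, fixS_v0 hg0, ← hh, inv_smul_smul]
  · rw [mul_smul, mul_smul, e', inv_smul_smul]

theorem ncard_val (P : (GolayPt → ℤ) → Prop) :
    {v : ↥leechLattice | P v}.ncard = {x : GolayPt → ℤ | x ∈ leechLattice ∧ P x}.ncard := by
  rw [← Set.ncard_image_of_injective _ Subtype.val_injective]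
  congr 1
  ext x
  simp only [Set.mem_image, Set.mem_ofPred_eq, Subtype.exists, exists_and_right, exists_eq_right]
  constructor
  · rintro ⟨h, hp⟩; exact ⟨h, hp⟩
  · rintro ⟨h, hp⟩; exact ⟨h, hp⟩

theorem ncard_transport (g : Co0) (P Q : ↥leechLattice → Prop) (h : ∀ x, P x ↔ Q (g • x)) :
    {x : ↥leechLattice | P x}.ncard = {x : ↥leechLattice | Q x}.ncard := by
  rw [← Set.ncard_image_of_injective _ (MulAction.injective g)]
  congr 1
  ext y
  simp only [Set.mem_image, Set.mem_ofPred_eq]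
  constructor
  · rintro ⟨x, hx, rfl⟩; exact (h x).mp hx
  · intro hy
    exact ⟨g⁻¹ • y, (h _).mpr (by rw [smul_inv_smul]; exact hy), smul_inv_smul g y⟩

theorem s1f_eq (i : ℕ) : s1f i = (2 ^ 20) ^ lab2 (A2 i) := by
  show 1 <<< (20 * lab2 (A2 i)) = _
  rw [Nat.shiftLeft_eq, one_mul, pow_mul]

/-- number of minimal vectors with given inner product with a minimal vector -/
theorem ncard_dot2 (v : GolayPt → ℤ) (hv : v ∈ leechLattice) (hvn : sqNorm v = 32) (t : ℤ) (s : ℕ)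
    (hs : t = 4 * (s : ℤ) - 64) :
    {w : GolayPt → ℤ | w ∈ leechLattice ∧ sqNorm w = 32 ∧ dotInt v w = t}.ncard =
      (∑ i ∈ Finset.range 196560, s1f i) / (2 ^ 20) ^ s % 2 ^ 20 := by
  obtain ⟨h, hh⟩ := co0_trans2 ⟨v, hv⟩ v0 hvn v0c_sq
  rw [← ncard_val (fun w => sqNorm w = 32 ∧ dotInt v w = t),
    ncard_transport h _ (fun w => sqNorm (w : GolayPt → ℤ) = 32 ∧ dotInt (lvec v0c) w = t),
    ncard_val (fun w => sqNorm w = 32 ∧ dotInt (lvec v0c) w = t)]
  · rw [ncard_class (fun w => dotInt (lvec v0c) w = t) lab2 s]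
    · simp only [s1f_eq]
    · intro i _
      rw [dot_v0, hs]
      omega
  · intro x
    have e1 := co_dot h ⟨v, hv⟩ x
    rw [hh] at e1
    rw [co_norm]
    have e2 : dotInt (lvec v0c) ((h • x : ↥leechLattice) : GolayPt → ℤ) = dotInt v x := e1
    rw [e2]

theorem cls12 : (∑ i ∈ Finset.range 196560, s1f i) / (2 ^ 20) ^ 12 % 2 ^ 20 = 4600 := by
  rw [s1b_all]; decide +kernel
theorem cls14 : (∑ i ∈ Finset.range 196560, s1f i) / (2 ^ 20) ^ 14 % 2 ^ 20 = 47104 := by
  rw [s1b_all]; decide +kernel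
theorem cls16 : (∑ i ∈ Finset.range 196560, s1f i) / (2 ^ 20) ^ 16 % 2 ^ 20 = 93150 := by
  rw [s1b_all]; decide +kernel
theorem cls18 : (∑ i ∈ Finset.range 196560, s1f i) / (2 ^ 20) ^ 18 % 2 ^ 20 = 47104 := by
  rw [s1b_all]; decide +kernel
theorem cls20 : (∑ i ∈ Finset.range 196560, s1f i) / (2 ^ 20) ^ 20 % 2 ^ 20 = 4600 := by
  rw [s1b_all]; decide +kernel

end Cfsg.Agent.Lib.Helper8
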