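import Cfsg.Agent.Lib.Helper8.LeechLam3b
import Cfsg.Prelude.Def_SporadicCombinatorics

set_option autoImplicit false

namespace Cfsg.Agent.Lib.Helper8

open Cfsg

theorem Dset_finite (u : GolayPt → ℤ) : (Dset u).Finite := by
  apply (finite_norm 32 (by norm_num)).subset
  rintro x ⟨h1, h2, _⟩
  exact ⟨h1, by rw [h2]; norm_num⟩

theorem two_smul_inj {a b : GolayPt → ℤ} (h : 2 • a = 2 • b) : a = b := by
  funext p
  have := congrFun h p
  simp only [Pi.smul_apply, nsmul_eq_mul, Nat.cast_ofNat] at this
  omega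

theorem cross_eq (x : GolayPt → ℤ) (hx : x ∈ leechLattice) (hxn : sqNorm x = 64) :
    cross x = insert x (insert (-x) ((fun z => x - 2 • z) '' Dset x)) := by
  ext y
  simp only [cross, Set.mem_ofPred_eq, Set.mem_insert_iff, Set.mem_image]
  constructor
  · rintro ⟨hy, hyn, z, hz, e⟩
    by_cases h1 : y = x
    · left; exact h1
    right
    rw [hxn] at hyn
    rcases cong_two hx hy (fun h => h1 h.symm) (by rw [hxn]) (by rw [hyn]) ⟨z, hz, e⟩ with h2 | ⟨_, _, h2⟩
    · left; rw [h2, neg_neg]
    · right
      refine ⟨z, ⟨hz, ?_, ?_⟩, ?_⟩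
      · have h3 := sqNorm_sub x y
        rw [e, sqNorm_two_smul, hxn, hyn, h2] at h3
        omega
      · have h3 := sqNorm_add x y
        have e2 : x + y = 2 • (x - z) := by
          rw [smul_sub, ← e]; rw [two_smul]; abel
        rw [e2, sqNorm_two_smul, hxn, hyn, h2] at h3
        omega
      · rw [← e]; abel
  · rintro (rfl | rfl | ⟨z, ⟨hz, hzn, hxz⟩, rfl⟩)
    · exact ⟨hx, rfl, 0, leechLattice.zero_mem, by simp⟩
    · exact ⟨leechLattice.neg_mem hx, sqNorm_neg x, x, hx, by rw [two_smul]; abel⟩
    · refine ⟨leechLattice.sub_mem hx (leechLattice.nsmul_mem hz 2), ?_, z, hz, by abel⟩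
      have h3 := sqNorm_sub x z
      rw [hxz, hxn, hzn] at h3
      have h4 := sqNorm_sub x (2 • z)
      have h5 : dotInt x (2 • z) = 2 * dotInt x z := by
        unfold dotInt
        rw [Finset.mul_sum]
        exact Finset.sum_congr rfl fun i _ => by simp only [Pi.smul_apply, nsmul_eq_mul, Nat.cast_ofNat]; ring
      rw [sqNorm_two_smul, hxn, hzn, h5] at h4
      rw [h4, hxn]; omega

theorem cross_card (x : GolayPt → ℤ) (hx : x ∈ leechLattice) (hxn : sqNorm x = 64) :
    (cross x).ncard = 48 := by
  have hfin : ((fun z => x - 2 • z) '' Dset x).Finite := (Dset_finite x).image _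
  have hinj : Function.Injective (fun z : GolayPt → ℤ => x - 2 • z) := by
    intro a b h
    exact two_smul_inj (sub_right_injective h)
  have hx0 : x ≠ 0 := by
    rintro rfl
    simp [sqNorm] at hxn
  rw [cross_eq x hx hxn, Set.ncard_insert_of_notMem _ (hfin.insert _),
    Set.ncard_insert_of_notMem _ hfin, Set.ncard_image_of_injective _ hinj,
    Dset64 ⟨x, hx⟩ hxn]
  · rintro ⟨z, ⟨_, hzn, _⟩, e⟩
    have e1 : 2 • z = 2 • x := by
      have : x - 2 • z = -x := e
      rw [two_smul, two_smul]
      rw [two_smul] at this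
      have h2 : x + x = z + z := by
        calc x + x = x - (x - (z + z)) := by rw [this]; abel
          _ = z + z := by abel
      exact h2.symm
    rw [two_smul_inj e1, hxn] at hzn
    norm_num at hzn
  · rw [Set.mem_insert_iff]
    rintro (h | ⟨z, ⟨_, hzn, _⟩, e⟩)
    · apply hx0
      have : 2 • x = 2 • (0 : GolayPt → ℤ) := by
        rw [two_smul, smul_zero]
        nth_rewrite 1 [h]; exact neg_add_cancel x
      exact two_smul_inj this
    · have e1 : 2 • z = 2 • (0 : GolayPt → ℤ) := by
        have : x - 2 • z = x := e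
        rw [smul_zero]
        exact sub_eq_self.mp this
      rw [two_smul_inj e1] at hzn
      simp [sqNorm] at hzn

end Cfsg.Agent.Lib.Helper8
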