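import Cfsg.Agent.Lib.Helper8.LeechCo

set_option autoImplicit false

namespace Cfsg.Agent.Lib.Helper8

open Cfsg

/-- the vectors of norm `n` as a finset -/
noncomputable def XF (n : ℕ) (hn : n ≤ 64) : Finset (GolayPt → ℤ) := (finite_norm n hn).toFinset

theorem mem_XF {n : ℕ} {hn : n ≤ 64} {x : GolayPt → ℤ} :
    x ∈ XF n hn ↔ x ∈ leechLattice ∧ sqNorm x = n := by
  unfold XF; rw [Set.Finite.mem_toFinset]; rfl

theorem card_XF (n : ℕ) (hn : n ≤ 64) : (XF n hn).card = cntN fullL n := by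
  rw [← ncard_norm n hn, ← Set.ncard_coe_finset]
  congr 1
  ext x
  rw [Finset.mem_coe, mem_XF]; rfl

open Classical in
/-- double counting of decompositions into two minimal vectors -/
theorem decomp_count (n : ℕ) (hn : n ≤ 64) (t : ℤ) (hnt : (n : ℤ) = 64 + 2 * t) (ct c0 : ℕ)
    (hct : ∀ v ∈ XF 32 (by norm_num), ((XF 32 (by norm_num)).filter fun w => dotInt v w = t).card = ct)
    (hc0 : ∀ u ∈ XF n hn, ((XF 32 (by norm_num)).filter fun v => sqNorm (u - v) = 32).card = 0 ∨
      ((XF 32 (by norm_num)).filter fun v => sqNorm (u - v) = 32).card = c0)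
    (harith : cntN fullL 32 * ct = cntN fullL n * c0) :
    ∀ u ∈ XF n hn, ((XF 32 (by norm_num)).filter fun v => sqNorm (u - v) = 32).card = c0 := by
  set X2 := XF 32 (by norm_num) with hX2
  set P : Finset (Σ _ : GolayPt → ℤ, GolayPt → ℤ) :=
    X2.sigma fun v => X2.filter fun w => dotInt v w = t with hP
  have hPcard : P.card = cntN fullL 32 * ct := by
    rw [hP, Finset.card_sigma, Finset.sum_congr rfl hct, Finset.sum_const, smul_eq_mul, hX2, card_XF]
  have hmaps : ∀ p ∈ P, p.1 + p.2 ∈ XF n hn := by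
    rintro ⟨v, w⟩ hp
    rw [hP, Finset.mem_sigma, Finset.mem_filter, hX2, mem_XF, mem_XF] at hp
    obtain ⟨⟨h1, h2⟩, ⟨h3, h4⟩, h5⟩ := hp
    rw [mem_XF]
    refine ⟨leechLattice.add_mem h1 h3, ?_⟩
    simp only at h5 ⊢
    rw [sqNorm_add, h2, h4, h5, hnt]; norm_num
  have hfib : ∀ u ∈ XF n hn, (P.filter fun p => p.1 + p.2 = u).card =
      (X2.filter fun v => sqNorm (u - v) = 32).card := by
    intro u hu
    rw [mem_XF] at hu
    apply Finset.card_bij (fun p _ => p.1)
    · rintro ⟨v, w⟩ hp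
      rw [Finset.mem_filter, hP, Finset.mem_sigma, Finset.mem_filter, hX2, mem_XF, mem_XF] at hp
      obtain ⟨⟨⟨h1, h2⟩, ⟨h3, h4⟩, h5⟩, h6⟩ := hp
      rw [Finset.mem_filter, hX2, mem_XF]
      refine ⟨⟨h1, h2⟩, ?_⟩
      simp only at h6 ⊢
      rw [← h6, add_sub_cancel_left, h4]; norm_num
    · rintro ⟨v, w⟩ hp ⟨v', w'⟩ hp' hvv
      rw [Finset.mem_filter] at hp hp'
      simp only at hvv hp hp'
      subst hvv
      have : w = w' := by
        have := hp.2.trans hp'.2.symm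
        exact add_left_cancel this
      rw [this]
    · intro v hv
      rw [Finset.mem_filter, hX2, mem_XF] at hv
      obtain ⟨⟨h1, h2⟩, h3⟩ := hv
      refine ⟨⟨v, u - v⟩, ?_, rfl⟩
      rw [Finset.mem_filter, hP, Finset.mem_sigma, Finset.mem_filter, hX2, mem_XF, mem_XF]
      refine ⟨⟨⟨h1, h2⟩, ⟨leechLattice.sub_mem hu.1 h1, by rw [h3]; norm_num⟩, ?_⟩, by simp⟩
      simp only
      have e := sqNorm_add v (u - v)
      rw [add_sub_cancel, hu.2, h2, h3, hnt] at e
      push_cast at e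
      omega
  have hsum : ∑ u ∈ XF n hn, (X2.filter fun v => sqNorm (u - v) = 32).card =
      ∑ _u ∈ XF n hn, c0 := by
    rw [← Finset.sum_congr rfl hfib, ← Finset.card_eq_sum_card_fiberwise hmaps, hPcard, harith,
      Finset.sum_const, smul_eq_mul, card_XF]
  have hle : ∀ u ∈ XF n hn, (X2.filter fun v => sqNorm (u - v) = 32).card ≤ c0 := by
    intro u hu
    rcases hc0 u hu with h | h <;> omega
  exact (Finset.sum_eq_sum_iff_of_le hle).mp hsum

end Cfsg.Agent.Lib.Helper8
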