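import Cfsg.Agent.Lib.Helper8.LeechSub

set_option autoImplicit false

namespace Cfsg.Agent.Lib.Helper8

open Cfsg

theorem dotInt_comm (x y : GolayPt → ℤ) : dotInt x y = dotInt y x := by
  unfold dotInt; exact Finset.sum_congr rfl fun i _ => mul_comm _ _

theorem dotInt_add_right (x y z : GolayPt → ℤ) : dotInt x (y + z) = dotInt x y + dotInt x z := by
  unfold dotInt
  rw [← Finset.sum_add_distrib]
  exact Finset.sum_congr rfl fun i _ => by simp only [Pi.add_apply]; ring

theorem dotInt_sub_right (x y z : GolayPt → ℤ) : dotInt x (y - z) = dotInt x y - dotInt x z := by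
  unfold dotInt
  rw [← Finset.sum_sub_distrib]
  exact Finset.sum_congr rfl fun i _ => by simp only [Pi.sub_apply]; ring

theorem dotInt_neg_right (x y : GolayPt → ℤ) : dotInt x (-y) = -dotInt x y := by
  unfold dotInt
  rw [← Finset.sum_neg_distrib]
  exact Finset.sum_congr rfl fun i _ => by simp only [Pi.neg_apply]; ring

theorem dotInt_add_left (x y z : GolayPt → ℤ) : dotInt (x + y) z = dotInt x z + dotInt y z := by
  rw [dotInt_comm, dotInt_add_right, dotInt_comm z x, dotInt_comm z y]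

theorem dotInt_sub_left (x y z : GolayPt → ℤ) : dotInt (x - y) z = dotInt x z - dotInt y z := by
  rw [dotInt_comm, dotInt_sub_right, dotInt_comm z x, dotInt_comm z y]

theorem dotInt_neg_left (x y : GolayPt → ℤ) : dotInt (-x) y = -dotInt x y := by
  rw [dotInt_comm, dotInt_neg_right, dotInt_comm]

theorem dotInt_self (x : GolayPt → ℤ) : dotInt x x = sqNorm x := by
  unfold dotInt sqNorm
  exact Finset.sum_congr rfl fun i _ => by ring

/-- ordered pairs of vectors of norm 48 with inner product -32 form one orbit -/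
theorem hs_pair_trans (v w v' w' : ↥leechLattice) (hv : sqNorm (v : GolayPt → ℤ) = 48)
    (hw : sqNorm (w : GolayPt → ℤ) = 48) (hvw : dotInt (v : GolayPt → ℤ) (w : GolayPt → ℤ) = -32)
    (hv' : sqNorm (v' : GolayPt → ℤ) = 48) (hw' : sqNorm (w' : GolayPt → ℤ) = 48)
    (hvw' : dotInt (v' : GolayPt → ℤ) (w' : GolayPt → ℤ) = -32) :
    ∃ g : Co0, g • v = v' ∧ g • w = w' := by
  obtain ⟨h, hh⟩ := co0_trans3 v v' hv hv'
  have key : ∀ a b : ↥leechLattice, sqNorm (a : GolayPt → ℤ) = 48 → sqNorm (b : GolayPt → ℤ) = 48 →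
      dotInt (a : GolayPt → ℤ) (b : GolayPt → ℤ) = -32 →
      sqNorm ((-(a + b) : ↥leechLattice) : GolayPt → ℤ) = 32 ∧
      dotInt (a : GolayPt → ℤ) ((-(a + b) : ↥leechLattice) : GolayPt → ℤ) = -16 := by
    intro a b ha hb hab
    constructor
    · rw [AddSubgroup.coe_neg, sqNorm_neg, AddSubgroup.coe_add, sqNorm_add, ha, hb, hab]; norm_num
    · rw [AddSubgroup.coe_neg, dotInt_neg_right, AddSubgroup.coe_add, dotInt_add_right, dotInt_self,
        ha, hab]; norm_num
  obtain ⟨k1, k2⟩ := key v w hv hw hvw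
  obtain ⟨k1', k2'⟩ := key v' w' hv' hw' hvw'
  have e1 := co_dot h v (-(v + w))
  rw [hh] at e1
  obtain ⟨g, hg1, hg2⟩ := trans3_transport (-16)
    (fun a b ha han hb hbn hda hdb => co3_conn48 ha han hb hbn hda hdb)
    v' (h • (-(v + w))) (-(v' + w')) hv' (by rw [co_norm]; exact k1) k1' (e1.trans k2) k2'
  refine ⟨g * h, by rw [mul_smul, hh, hg1], ?_⟩
  have e2 : w = -(-(v + w)) - v := by abel
  have e3 : w' = -(-(v' + w')) - v' := by abel
  rw [e2, e3, mul_smul, co_sub, co_neg, co_sub, co_neg, hg2, hh, hg1]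

end Cfsg.Agent.Lib.Helper8
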