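import Cfsg.Agent.Lib.Helper8.LeechLam3

set_option autoImplicit false

namespace Cfsg.Agent.Lib.Helper8

open Cfsg

/-- two automorphisms agreeing on the 37 generators are equal -/
theorem co_ext_G0 {g g' : Co0}
    (h : ∀ c ∈ G0, ∀ hc : lvec c ∈ leechLattice,
      g • (⟨lvec c, hc⟩ : ↥leechLattice) = g' • (⟨lvec c, hc⟩ : ↥leechLattice)) : g = g' := by
  have key : ∀ x ∈ HG, ∃ hx : x ∈ leechLattice,
      g • (⟨x, hx⟩ : ↥leechLattice) = g' • (⟨x, hx⟩ : ↥leechLattice) := by
    intro x hx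
    unfold HG at hx
    induction hx using AddSubgroup.closure_induction with
    | mem x hx =>
      obtain ⟨c, hc, rfl⟩ := hx
      have hm : lvec c ∈ leechLattice := by rw [← HG_eq]; exact lvec_mem_HG hc
      exact ⟨hm, h c hc hm⟩
    | zero => exact ⟨leechLattice.zero_mem, by
        have : (⟨0, leechLattice.zero_mem⟩ : ↥leechLattice) = 0 := rfl
        rw [this, co_zero, co_zero]⟩
    | add x y _ _ hx hy =>
      obtain ⟨a, ea⟩ := hx
      obtain ⟨b, eb⟩ := hy
      refine ⟨leechLattice.add_mem a b, ?_⟩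
      have : (⟨x + y, leechLattice.add_mem a b⟩ : ↥leechLattice) = ⟨x, a⟩ + ⟨y, b⟩ := rfl
      rw [this, co_add, co_add, ea, eb]
    | neg x _ hx =>
      obtain ⟨a, ea⟩ := hx
      refine ⟨leechLattice.neg_mem a, ?_⟩
      have : (⟨-x, leechLattice.neg_mem a⟩ : ↥leechLattice) = -⟨x, a⟩ := rfl
      rw [this, co_neg, co_neg, ea]
  apply Subtype.ext
  apply Equiv.ext
  intro v
  obtain ⟨_, e⟩ := key v (by rw [HG_eq]; exact v.2)
  exact e

/-- two automorphisms agreeing on the minimal vectors are equal -/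
theorem co_ext {g g' : Co0}
    (h : ∀ v : ↥leechLattice, sqNorm (v : GolayPt → ℤ) = 32 → g • v = g' • v) : g = g' := by
  apply co_ext_G0
  intro c hc hm
  apply h
  rw [sqNorm_of_normIs (List.all_eq_true.mp G0_norm _ hc)]; norm_num

def invBB (d : GenData) : Bool :=
  (G0.zip d.2.2.2).all (fun x => chk1 d.2.1 d.2.2.1 x.2 x.1 && validY x.1)

theorem sq_one_of_invBB {d : GenData} (h : genOK d = true) (hi : invBB d = true) {g : Co0}
    (hg : Spec g (ocF d)) : g * g = 1 := by
  apply co_ext_G0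
  intro c hc hm
  rw [mul_smul, one_smul]
  have h' := h
  unfold genOK at h'
  simp only [Bool.and_eq_true] at h'
  obtain ⟨⟨⟨_, _⟩, h4⟩, h5⟩ := h'
  obtain ⟨i, hi0, rfl⟩ := List.getElem_of_mem hc
  have hlen : d.2.2.2.length = 37 := Nat.eq_of_beq_eq_true h4
  have hi' : i < d.2.2.2.length := by rw [hlen]; exact hi0
  have hz : (G0[i], d.2.2.2[i]) ∈ G0.zip d.2.2.2 := by
    have : (G0.zip d.2.2.2)[i]'(by rw [List.length_zip]; exact lt_min hi0 hi') =
      (G0[i], d.2.2.2[i]) := List.getElem_zip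
    rw [← this]; exact List.getElem_mem _
  have h6 := List.all_eq_true.mp h5 _ hz
  simp only [Bool.and_eq_true] at h6
  obtain ⟨⟨h7, h8⟩, _⟩ := h6
  have h9 := List.all_eq_true.mp hi _ hz
  simp only [Bool.and_eq_true] at h9
  have hn : sqNorm (lvec G0[i]) = 32 := by
    rw [sqNorm_of_normIs (List.all_eq_true.mp G0_norm _ (List.getElem_mem hi0))]; norm_num
  have e1 := act_of_chk h hg ⟨lvec G0[i], hm⟩ rfl (by show sqNorm (lvec G0[i]) ≤ 64; rw [hn]; norm_num)
    (validY_iff h8) h7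
  have e2 := act_of_chk h hg (g • ⟨lvec G0[i], hm⟩) e1
    (by rw [co_norm]; show sqNorm (lvec G0[i]) ≤ 64; rw [hn]; norm_num) (validY_iff h9.2) h9.1
  exact Subtype.ext e2

end Cfsg.Agent.Lib.Helper8
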