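import Cfsg.Agent.Lib.Helper8.LeechMcL

set_option autoImplicit false

namespace Cfsg.Agent.Lib.Helper8

open Cfsg

theorem r48c_mem : lvec r48c ∈ leechLattice := (baseOK_spec base_r48).2.1
theorem r48c_sq : sqNorm (lvec r48c) = 32 := by rw [(baseOK_spec base_r48).2.2.1]; norm_num
theorem z0c_mem : lvec z0c ∈ leechLattice := (baseOK_spec base_z0).2.1
theorem z0c_sq : sqNorm (lvec z0c) = 32 := by rw [(baseOK_spec base_z0).2.2.1]; norm_num
theorem whc_mem : lvec whc ∈ leechLattice := (baseOK_spec base_wh).2.1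
theorem whc_sq : sqNorm (lvec whc) = 48 := by rw [(baseOK_spec base_wh).2.2.1]; norm_num
def r48 : ↥leechLattice := ⟨lvec r48c, r48c_mem⟩
def z0 : ↥leechLattice := ⟨lvec z0c, z0c_mem⟩
def wh : ↥leechLattice := ⟨lvec whc, whc_mem⟩

theorem wh_digits : ∀ j < 24, dg whc j + dg u0c j + dg r48c j = 24 := by decide +kernel

theorem wh_eq : lvec whc = -(lvec u0c + lvec r48c) := by
  funext p
  rw [Pi.neg_apply, Pi.add_apply, lvec_apply, lvec_apply, lvec_apply]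
  have := wh_digits (idx p) (idx_lt p)
  omega

theorem dot_u0_r48 : dotInt (lvec u0c) (lvec r48c) = -16 := by
  rw [dot_val (l := 48) base_u0 base_r48 (by decide +kernel)]; norm_num
theorem dot_u0_z0 : dotInt (lvec u0c) (lvec z0c) = 24 := by
  rw [dot_val (l := 88) base_u0 base_z0 (by decide +kernel)]; norm_num
theorem dot_r48_z0 : dotInt (lvec r48c) (lvec z0c) = 0 := by
  rw [dot_val (l := 64) base_r48 base_z0 (by decide +kernel)]; norm_num
theorem dot_u0_wh : dotInt (lvec u0c) (lvec whc) = -32 := by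
  rw [wh_eq, dotInt_neg_right, dotInt_add_right, dotInt_self, u0c_sq, dot_u0_r48]; norm_num

theorem hs_base (v w : ↥leechLattice) (hv : sqNorm (v : GolayPt → ℤ) = 48)
    (hw : sqNorm (w : GolayPt → ℤ) = 48) (hvw : dotInt (v : GolayPt → ℤ) (w : GolayPt → ℤ) = -32) :
    ∃ h : Co0, h • v = u0 ∧ h • w = wh :=
  hs_pair_trans v w u0 wh hv hw hvw u0c_sq whc_sq dot_u0_wh

theorem labR_iff {P0 : (GolayPt → ℤ) → Prop} {A : ℕ → ℕ} {N : ℕ} (h : SubArr P0 A N)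
    (i : ℕ) (hi : i < N) (t : ℤ) (s : ℕ) (hts : t = (s : ℤ) - 64) :
    dotInt (lvec r48c) (lvec (A i)) = t ↔ labR (A i) = s := by
  rw [dotD h base_r48 i hi]
  unfold labR
  omega

theorem hs100_conn {x y : GolayPt → ℤ} (hx : x ∈ leechLattice) (hxn : sqNorm x = 32)
    (hx0 : dotInt (lvec u0c) x = 24) (hx1 : dotInt (lvec r48c) x = 0)
    (hy : y ∈ leechLattice) (hyn : sqNorm y = 32)
    (hy0 : dotInt (lvec u0c) y = 24) (hy1 : dotInt (lvec r48c) y = 0) :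
    Conn [u0c, r48c, whc] x y :=
  SA.conn' hsgens_ok S3h kHsARL_ok kHsAb_all (fun x => dotInt (lvec r48c) x = 0) 64 rfl
    (fun i hi h => (labR_iff SA i hi 0 64 (by norm_num)).mp h) hx hxn hx0 hx1 hy hyn hy0 hy1

theorem hs100_card : {x : GolayPt → ℤ | x ∈ leechLattice ∧ sqNorm x = 32 ∧
    dotInt (lvec u0c) x = 24 ∧ dotInt (lvec r48c) x = 0}.ncard = 100 := by
  rw [SA.ncard_class (by norm_num) (fun x => dotInt (lvec r48c) x = 0) labR 64
    (fun i hi => labR_iff SA i hi 0 64 (by norm_num)), sAR_all]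
  decide +kernel

theorem labMb_iff (i : ℕ) (hi : i < 552) (t : ℤ) (s : ℕ) (hs : s ≠ 0) (hts : t = (s : ℤ) - 64) :
    (dotInt (lvec r48c) (lvec (BA i)) = 0 ∧ dotInt (lvec z0c) (lvec (BA i)) = t) ↔
      labMb (BA i) = s := by
  unfold labMb
  rw [lab2L_eq_iff hs, labR_iff SA i hi 0 64 (by norm_num), dotD SA base_z0 i hi]
  unfold labZ
  omega

theorem m22b_conn (t : ℤ) (ht : t = 8 ∨ t = 16) {x y : GolayPt → ℤ}
    (hx : x ∈ leechLattice) (hxn : sqNorm x = 32)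
    (hx0 : dotInt (lvec u0c) x = 24) (hx1 : dotInt (lvec r48c) x = 0) (hx2 : dotInt (lvec z0c) x = t)
    (hy : y ∈ leechLattice) (hyn : sqNorm y = 32)
    (hy0 : dotInt (lvec u0c) y = 24) (hy1 : dotInt (lvec r48c) y = 0) (hy2 : dotInt (lvec z0c) y = t) :
    Conn [u0c, r48c, whc, z0c] x y := by
  rcases ht with rfl | rfl
  · exact SA.conn' m22bgens_ok S3z kMbRL_ok kMbb_all
      (fun x => dotInt (lvec r48c) x = 0 ∧ dotInt (lvec z0c) x = 8) 72 rfl
      (fun i hi h => (labMb_iff i hi 8 72 (by norm_num) (by norm_num)).mp h)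
      hx hxn hx0 ⟨hx1, hx2⟩ hy hyn hy0 ⟨hy1, hy2⟩
  · exact SA.conn' m22bgens_ok S3z kMbRL_ok kMbb_all
      (fun x => dotInt (lvec r48c) x = 0 ∧ dotInt (lvec z0c) x = 16) 80 rfl
      (fun i hi h => (labMb_iff i hi 16 80 (by norm_num) (by norm_num)).mp h)
      hx hxn hx0 ⟨hx1, hx2⟩ hy hyn hy0 ⟨hy1, hy2⟩

theorem m22b_card8 : {x : GolayPt → ℤ | x ∈ leechLattice ∧ sqNorm x = 32 ∧
    dotInt (lvec u0c) x = 24 ∧ dotInt (lvec r48c) x = 0 ∧ dotInt (lvec z0c) x = 8}.ncard = 22 := by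
  rw [SA.ncard_class (by norm_num)
    (fun x => dotInt (lvec r48c) x = 0 ∧ dotInt (lvec z0c) x = 8) labMb 72
    (fun i hi => labMb_iff i hi 8 72 (by norm_num) (by norm_num)), sAMb_all]
  decide +kernel

theorem m22b_card16 : {x : GolayPt → ℤ | x ∈ leechLattice ∧ sqNorm x = 32 ∧
    dotInt (lvec u0c) x = 24 ∧ dotInt (lvec r48c) x = 0 ∧ dotInt (lvec z0c) x = 16}.ncard = 77 := by
  rw [SA.ncard_class (by norm_num)
    (fun x => dotInt (lvec r48c) x = 0 ∧ dotInt (lvec z0c) x = 16) labMb 80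
    (fun i hi => labMb_iff i hi 16 80 (by norm_num) (by norm_num)), sAMb_all]
  decide +kernel

theorem m22b_cov {x : GolayPt → ℤ} (hx : x ∈ leechLattice) (hxn : sqNorm x = 32)
    (hx0 : dotInt (lvec u0c) x = 24) (hx1 : dotInt (lvec r48c) x = 0) :
    dotInt (lvec z0c) x = 8 ∨ dotInt (lvec z0c) x = 16 ∨ dotInt (lvec z0c) x = 32 := by
  obtain ⟨i, hi, rfl⟩ := SA.complete x hx hxn hx0
  have h := cov4_spec (of_allBelow covMb i hi)
  have h64 : labR (BA i) = 64 := (labR_iff SA i hi 0 64 (by norm_num)).mp hx1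
  have e : labMb (BA i) = labZ (BA i) := by
    unfold labMb lab2L
    rw [h64, Nat.beq_refl, cond_true]
  rw [e] at h
  have hpos : dotInt (lvec z0c) (lvec (BA i)) = (labZ (BA i) : ℤ) - 64 := dotD SA base_z0 i hi
  have h3 := sqNorm_add (lvec z0c) (lvec (BA i))
  have h4 := sqNorm_nonneg (lvec z0c + lvec (BA i))
  have h5 := base_le base_z0
  omega

/-- the predicate defining the 100 points -/
def Q100 (v w x : GolayPt → ℤ) : Prop := sqNorm x = 32 ∧ dotInt v x = 24 ∧ dotInt w x = -24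

theorem Q100_smul (h : Co0) {v w v' w' : ↥leechLattice} (hv : h • v = v') (hw : h • w = w')
    (x : ↥leechLattice) : Q100 v w x ↔ Q100 v' w' ((h • x : ↥leechLattice) : GolayPt → ℤ) := by
  unfold Q100
  rw [co_norm, co_dot' h hv, co_dot' h hw]

theorem Q100_base {x : GolayPt → ℤ} : Q100 (lvec u0c) (lvec whc) x ↔
    sqNorm x = 32 ∧ dotInt (lvec u0c) x = 24 ∧ dotInt (lvec r48c) x = 0 := by
  unfold Q100
  rw [wh_eq, dotInt_neg_left, dotInt_add_left]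
  constructor
  · rintro ⟨h1, h2, h3⟩; exact ⟨h1, h2, by omega⟩
  · rintro ⟨h1, h2, h3⟩; exact ⟨h1, h2, by omega⟩

theorem Q100_z0 : Q100 (lvec u0c) (lvec whc) (lvec z0c) :=
  Q100_base.mpr ⟨z0c_sq, dot_u0_z0, dot_r48_z0⟩

theorem hs_fix {g : Co0} (hg : g ∈ fixS [u0c, r48c, whc]) :
    g • u0 = u0 ∧ g • r48 = r48 ∧ g • wh = wh :=
  ⟨fixS_apply hg (by simp) u0c_mem, fixS_apply hg (by simp) r48c_mem, fixS_apply hg (by simp) whc_mem⟩

theorem hs100_trans_base (x y : ↥leechLattice) (hx : Q100 (lvec u0c) (lvec whc) x)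
    (hy : Q100 (lvec u0c) (lvec whc) y) : ∃ g : Co0, g • u0 = u0 ∧ g • wh = wh ∧ g • x = y := by
  rw [Q100_base] at hx hy
  obtain ⟨g, hg, _, _, e⟩ := hs100_conn x.2 hx.1 hx.2.1 hx.2.2 y.2 hy.1 hy.2.1 hy.2.2
  exact ⟨g, (hs_fix hg).1, (hs_fix hg).2.2, e⟩

theorem hs100_gen (v w : ↥leechLattice) (hv : sqNorm (v : GolayPt → ℤ) = 48)
    (hw : sqNorm (w : GolayPt → ℤ) = 48) (hvw : dotInt (v : GolayPt → ℤ) (w : GolayPt → ℤ) = -32) :
    {x : ↥leechLattice | Q100 v w x}.ncard = 100 ∧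
      ∀ x x' : ↥leechLattice, Q100 v w x → Q100 v w x' →
        ∃ g : Co0, g • v = v ∧ g • w = w ∧ g • x = x' := by
  obtain ⟨h, h1, h2⟩ := hs_base v w hv hw hvw
  constructor
  · rw [ncard_transport h _ (fun x => Q100 (lvec u0c) (lvec whc) x) (fun x => Q100_smul h h1 h2 x),
      ncard_val (fun x => Q100 (lvec u0c) (lvec whc) x), ← hs100_card]
    congr 1
    ext x
    simp only [Set.mem_ofPred_eq, Q100_base]
  · intro x x' hx hx'
    obtain ⟨g0, e1, e2, e3⟩ := hs100_trans_base (h • x) (h • x') ((Q100_smul h h1 h2 x).mp hx)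
      ((Q100_smul h h1 h2 x').mp hx')
    exact ⟨h⁻¹ * g0 * h, conj_fix h1 e1, conj_fix h2 e2, conj_map e3⟩

theorem m22b_fix {g : Co0} (hg : g ∈ fixS [u0c, r48c, whc, z0c]) :
    g • u0 = u0 ∧ g • wh = wh ∧ g • z0 = z0 :=
  ⟨fixS_apply hg (by simp) u0c_mem, fixS_apply hg (by simp) whc_mem, fixS_apply hg (by simp) z0c_mem⟩

theorem m22b_gen (v w x : ↥leechLattice) (hv : sqNorm (v : GolayPt → ℤ) = 48)
    (hw : sqNorm (w : GolayPt → ℤ) = 48) (hvw : dotInt (v : GolayPt → ℤ) (w : GolayPt → ℤ) = -32)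
    (hx : Q100 v w x) :
    {y : ↥leechLattice | Q100 v w y ∧ dotInt (x : GolayPt → ℤ) (y : GolayPt → ℤ) = 8}.ncard = 22 ∧
    {y : ↥leechLattice | Q100 v w y ∧ dotInt (x : GolayPt → ℤ) (y : GolayPt → ℤ) = 16}.ncard = 77 ∧
    (∀ y : ↥leechLattice, Q100 v w y → y ≠ x → dotInt (x : GolayPt → ℤ) (y : GolayPt → ℤ) = 8 ∨
      dotInt (x : GolayPt → ℤ) (y : GolayPt → ℤ) = 16) ∧
    ∀ y y' : ↥leechLattice, Q100 v w y → Q100 v w y' → y ≠ x → y' ≠ x →
      dotInt (x : GolayPt → ℤ) (y : GolayPt → ℤ) = dotInt (x : GolayPt → ℤ) (y' : GolayPt → ℤ) →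
      ∃ g : Co0, g • v = v ∧ g • w = w ∧ g • x = x ∧ g • y = y' := by
  obtain ⟨h0, a1, a2⟩ := hs_base v w hv hw hvw
  obtain ⟨g1, b1, b2, b3⟩ := hs100_trans_base (h0 • x) z0 ((Q100_smul h0 a1 a2 x).mp hx) Q100_z0
  obtain ⟨h, h1, h2, h3⟩ : ∃ h : Co0, h • v = u0 ∧ h • w = wh ∧ h • x = z0 :=
    ⟨g1 * h0, by rw [mul_smul, a1, b1], by rw [mul_smul, a2, b2], by rw [mul_smul, b3]⟩
  have tr : ∀ t : ℤ, ∀ y : ↥leechLattice,
      (Q100 v w y ∧ dotInt (x : GolayPt → ℤ) (y : GolayPt → ℤ) = t) ↔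
      (Q100 (lvec u0c) (lvec whc) ((h • y : ↥leechLattice) : GolayPt → ℤ) ∧
        dotInt (lvec z0c) ((h • y : ↥leechLattice) : GolayPt → ℤ) = t) := by
    intro t y
    rw [Q100_smul h h1 h2 y]
    have := co_dot' h (b := y) h3
    rw [← this]; rfl
  have hcov : ∀ y : ↥leechLattice, Q100 v w y → y ≠ x →
      dotInt (x : GolayPt → ℤ) (y : GolayPt → ℤ) = 8 ∨
      dotInt (x : GolayPt → ℤ) (y : GolayPt → ℤ) = 16 := by
    intro y hy hne
    obtain ⟨q1, d1⟩ := (tr _ y).mp ⟨hy, rfl⟩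
    rw [Q100_base] at q1
    rcases m22b_cov (h • y).2 q1.1 q1.2.1 q1.2.2 with c | c | c
    · left; rw [← d1]; exact c
    · right; rw [← d1]; exact c
    · exfalso
      have e := eq_of_dot_eq_norm z0c_sq q1.1 c
      apply hne
      have e2 : h • y = h • x := by rw [h3]; exact Subtype.ext e.symm
      exact MulAction.injective h e2
  refine ⟨?_, ?_, hcov, ?_⟩
  · rw [ncard_transport h _ (fun y => Q100 (lvec u0c) (lvec whc) y ∧ dotInt (lvec z0c) y = 8) (tr 8),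
      ncard_val (fun y => Q100 (lvec u0c) (lvec whc) y ∧ dotInt (lvec z0c) y = 8)]
    refine Eq.trans ?_ m22b_card8
    congr 1
    ext y
    simp only [Set.mem_ofPred_eq, Q100_base, and_assoc]
  · rw [ncard_transport h _ (fun y => Q100 (lvec u0c) (lvec whc) y ∧ dotInt (lvec z0c) y = 16) (tr 16),
      ncard_val (fun y => Q100 (lvec u0c) (lvec whc) y ∧ dotInt (lvec z0c) y = 16), ← m22b_card16]
    congr 1
    ext y
    simp only [Set.mem_ofPred_eq, Q100_base, and_assoc]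
  · intro y y' hy hy' hne hne' hd
    obtain ⟨q1, d1⟩ := (tr _ y).mp ⟨hy, rfl⟩
    obtain ⟨q2, d2⟩ := (tr _ y').mp ⟨hy', rfl⟩
    rw [Q100_base] at q1 q2
    obtain ⟨g0, hg0, _, _, e⟩ := m22b_conn _ (hcov y hy hne) (h • y).2 q1.1 q1.2.1 q1.2.2 d1
      (h • y').2 q2.1 q2.2.1 q2.2.2 (by rw [d2, hd])
    have e' : g0 • (h • y) = h • y' := e
    exact ⟨h⁻¹ * g0 * h, conj_fix h1 (m22b_fix hg0).1, conj_fix h2 (m22b_fix hg0).2.1,
      conj_fix h3 (m22b_fix hg0).2.2, conj_map e'⟩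

end Cfsg.Agent.Lib.Helper8
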