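import Cfsg.Agent.Lib.Helper8.LeechHS

set_option autoImplicit false

namespace Cfsg.Agent.Lib.Helper8

open Cfsg

theorem hsM_conn (t : ℤ) (ht : t = -8 ∨ t = 0 ∨ t = 8 ∨ t = 16) {x y : GolayPt → ℤ}
    (hx : x ∈ leechLattice) (hxn : sqNorm x = 32)
    (hx0 : dotInt (lvec u0c) x = -16) (hx1 : dotInt (lvec r48c) x = t)
    (hy : y ∈ leechLattice) (hyn : sqNorm y = 32)
    (hy0 : dotInt (lvec u0c) y = -16) (hy1 : dotInt (lvec r48c) y = t) :
    Conn [u0c, r48c, whc] x y := by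
  rcases ht with rfl | rfl | rfl | rfl
  · exact SM.conn' hsgens_ok S3h kHsMRL_ok kHsMb_all (fun x => dotInt (lvec r48c) x = -8) 56 rfl
      (fun i hi h => (labR_iff SM i hi (-8) 56 (by norm_num)).mp h) hx hxn hx0 hx1 hy hyn hy0 hy1
  · exact SM.conn' hsgens_ok S3h kHsMRL_ok kHsMb_all (fun x => dotInt (lvec r48c) x = 0) 64 rfl
      (fun i hi h => (labR_iff SM i hi 0 64 (by norm_num)).mp h) hx hxn hx0 hx1 hy hyn hy0 hy1
  · exact SM.conn' hsgens_ok S3h kHsMRL_ok kHsMb_all (fun x => dotInt (lvec r48c) x = 8) 72 rfl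
      (fun i hi h => (labR_iff SM i hi 8 72 (by norm_num)).mp h) hx hxn hx0 hx1 hy hyn hy0 hy1
  · exact SM.conn' hsgens_ok S3h kHsMRL_ok kHsMb_all (fun x => dotInt (lvec r48c) x = 16) 80 rfl
      (fun i hi h => (labR_iff SM i hi 16 80 (by norm_num)).mp h) hx hxn hx0 hx1 hy hyn hy0 hy1

theorem hsM_card (t : ℤ) (s : ℕ) (hts : t = (s : ℤ) - 64) :
    {x : GolayPt → ℤ | x ∈ leechLattice ∧ sqNorm x = 32 ∧
    dotInt (lvec u0c) x = -16 ∧ dotInt (lvec r48c) x = t}.ncard =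
      (∑ i ∈ Finset.range 11178, (2 ^ 20) ^ labR (BM i)) / (2 ^ 20) ^ s % 2 ^ 20 :=
  SM.ncard_class (by norm_num) (fun x => dotInt (lvec r48c) x = t) labR s
    (fun i hi => labR_iff SM i hi t s hts)

theorem hsM_c56 : (∑ i ∈ Finset.range 11178, (2 ^ 20) ^ labR (BM i)) / (2 ^ 20) ^ 56 % 2 ^ 20 = 352 := by
  rw [sMR_all]; decide +kernel
theorem hsM_c64 : (∑ i ∈ Finset.range 11178, (2 ^ 20) ^ labR (BM i)) / (2 ^ 20) ^ 64 % 2 ^ 20 = 4125 := by
  rw [sMR_all]; decide +kernel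
theorem hsM_c72 : (∑ i ∈ Finset.range 11178, (2 ^ 20) ^ labR (BM i)) / (2 ^ 20) ^ 72 % 2 ^ 20 = 5600 := by
  rw [sMR_all]; decide +kernel
theorem hsM_c80 : (∑ i ∈ Finset.range 11178, (2 ^ 20) ^ labR (BM i)) / (2 ^ 20) ^ 80 % 2 ^ 20 = 1100 := by
  rw [sMR_all]; decide +kernel

theorem cov5_spec {l : ℕ} (h : cov5 l = true) : l = 56 ∨ l = 64 ∨ l = 72 ∨ l = 80 ∨ l = 96 := by
  unfold cov5 at h
  simp only [Bool.or_eq_true] at h
  rcases h with (((h | h) | h) | h) | h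
  · left; exact Nat.eq_of_beq_eq_true h
  · right; left; exact Nat.eq_of_beq_eq_true h
  · right; right; left; exact Nat.eq_of_beq_eq_true h
  · right; right; right; left; exact Nat.eq_of_beq_eq_true h
  · right; right; right; right; exact Nat.eq_of_beq_eq_true h

theorem hsM_cov {x : GolayPt → ℤ} (hx : x ∈ leechLattice) (hxn : sqNorm x = 32)
    (hx0 : dotInt (lvec u0c) x = -16) :
    dotInt (lvec r48c) x = -8 ∨ dotInt (lvec r48c) x = 0 ∨ dotInt (lvec r48c) x = 8 ∨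
      dotInt (lvec r48c) x = 16 ∨ dotInt (lvec r48c) x = 32 := by
  obtain ⟨i, hi, rfl⟩ := SM.complete x hx hxn hx0
  have h := cov5_spec (covR i hi)
  have hpos : dotInt (lvec r48c) (lvec (BM i)) = (labR (BM i) : ℤ) - 64 := dotD SM base_r48 i hi
  omega

def Q16 (u x : GolayPt → ℤ) : Prop := sqNorm x = 32 ∧ dotInt u x = -16

theorem Q16_smul (h : Co0) {u u' : ↥leechLattice} (hu : h • u = u')
    (x : ↥leechLattice) : Q16 u x ↔ Q16 u' ((h • x : ↥leechLattice) : GolayPt → ℤ) := by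
  unfold Q16
  rw [co_norm, co_dot' h hu]

theorem hs_base2 (u x : ↥leechLattice) (hu : sqNorm (u : GolayPt → ℤ) = 48) (hx : Q16 u x) :
    ∃ h : Co0, h • u = u0 ∧ h • x = r48 := by
  obtain ⟨h0, a1⟩ := co0_trans3 u u0 hu u0c_sq
  have q := (Q16_smul h0 a1 x).mp hx
  obtain ⟨g0, hg0, _, _, e⟩ := co3_conn48 (h0 • x).2 q.1 r48c_mem r48c_sq q.2 dot_u0_r48
  have e' : g0 • (h0 • x) = r48 := e
  exact ⟨g0 * h0, by rw [mul_smul, a1, fixS_u0 hg0], by rw [mul_smul, e']⟩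

theorem hsM_gen (u x : ↥leechLattice) (hu : sqNorm (u : GolayPt → ℤ) = 48) (hx : Q16 u x) :
    (∀ (t : ℤ) (s : ℕ), t = (s : ℤ) - 64 →
      {y : ↥leechLattice | Q16 u y ∧ dotInt (x : GolayPt → ℤ) (y : GolayPt → ℤ) = t}.ncard =
      (∑ i ∈ Finset.range 11178, (2 ^ 20) ^ labR (BM i)) / (2 ^ 20) ^ s % 2 ^ 20) ∧
    (∀ y : ↥leechLattice, Q16 u y → y = x ∨ dotInt (x : GolayPt → ℤ) (y : GolayPt → ℤ) = -8 ∨
      dotInt (x : GolayPt → ℤ) (y : GolayPt → ℤ) = 0 ∨ dotInt (x : GolayPt → ℤ) (y : GolayPt → ℤ) = 8 ∨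
      dotInt (x : GolayPt → ℤ) (y : GolayPt → ℤ) = 16) ∧
    ∀ (t : ℤ), (t = -8 ∨ t = 0 ∨ t = 8 ∨ t = 16) → ∀ y y' : ↥leechLattice, Q16 u y → Q16 u y' →
      dotInt (x : GolayPt → ℤ) (y : GolayPt → ℤ) = t → dotInt (x : GolayPt → ℤ) (y' : GolayPt → ℤ) = t →
      ∃ g : Co0, g • u = u ∧ g • x = x ∧ g • y = y' := by
  obtain ⟨h, h1, h3⟩ := hs_base2 u x hu hx
  have tr : ∀ t : ℤ, ∀ y : ↥leechLattice,
      (Q16 u y ∧ dotInt (x : GolayPt → ℤ) (y : GolayPt → ℤ) = t) ↔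
      (Q16 (lvec u0c) ((h • y : ↥leechLattice) : GolayPt → ℤ) ∧
        dotInt (lvec r48c) ((h • y : ↥leechLattice) : GolayPt → ℤ) = t) := by
    intro t y
    rw [Q16_smul h h1 y]
    have := co_dot' h (b := y) h3
    rw [← this]; rfl
  refine ⟨?_, ?_, ?_⟩
  · intro t s hts
    rw [ncard_transport h _ (fun y => Q16 (lvec u0c) y ∧ dotInt (lvec r48c) y = t) (tr t),
      ncard_val (fun y => Q16 (lvec u0c) y ∧ dotInt (lvec r48c) y = t), ← hsM_card t s hts]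
    congr 1
    ext y
    simp only [Set.mem_ofPred_eq, Q16, and_assoc]
  · intro y hy
    obtain ⟨q1, d1⟩ := (tr _ y).mp ⟨hy, rfl⟩
    rcases hsM_cov (h • y).2 q1.1 q1.2 with c | c | c | c | c
    · right; left; rw [← d1]; exact c
    · right; right; left; rw [← d1]; exact c
    · right; right; right; left; rw [← d1]; exact c
    · right; right; right; right; rw [← d1]; exact c
    · left
      have e := eq_of_dot_eq_norm r48c_sq q1.1 c
      have e2 : h • y = h • x := by rw [h3]; exact Subtype.ext e.symm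
      exact MulAction.injective h e2
  · intro t ht y y' hy hy' hd hd'
    obtain ⟨q1, d1⟩ := (tr t y).mp ⟨hy, hd⟩
    obtain ⟨q2, d2⟩ := (tr t y').mp ⟨hy', hd'⟩
    obtain ⟨g0, hg0, _, _, e⟩ := hsM_conn t ht (h • y).2 q1.1 q1.2 d1 (h • y').2 q2.1 q2.2 d2
    have e' : g0 • (h • y) = h • y' := e
    exact ⟨h⁻¹ * g0 * h, conj_fix h1 (hs_fix hg0).1, conj_fix h3 (hs_fix hg0).2.1, conj_map e'⟩

theorem hsM_orbit (u x : ↥leechLattice) (hu : sqNorm (u : GolayPt → ℤ) = 48) (hx : Q16 u x)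
    (t : ℤ) (s n : ℕ) (hts : t = (s : ℤ) - 64) (ht : t = -8 ∨ t = 0 ∨ t = 8 ∨ t = 16)
    (hn : (∑ i ∈ Finset.range 11178, (2 ^ 20) ^ labR (BM i)) / (2 ^ 20) ^ s % 2 ^ 20 = n)
    (hpos : 0 < n) :
    ∃ y : ↥leechLattice, Q16 u y ∧
      MulAction.orbit ↥(MulAction.stabilizer Co0 u ⊓ MulAction.stabilizer Co0 x) y =
        {y : ↥leechLattice | Q16 u y ∧ dotInt (x : GolayPt → ℤ) (y : GolayPt → ℤ) = t} ∧
      (MulAction.orbit ↥(MulAction.stabilizer Co0 u ⊓ MulAction.stabilizer Co0 x) y).ncard = n := by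
  obtain ⟨c, _, tr⟩ := hsM_gen u x hu hx
  have c := c t s hts
  rw [hn] at c
  obtain ⟨y, hy⟩ : {y : ↥leechLattice | Q16 u y ∧
      dotInt (x : GolayPt → ℤ) (y : GolayPt → ℤ) = t}.Nonempty := by
    apply Set.nonempty_of_ncard_ne_zero; omega
  have key := orbit_eq_of_trans (MulAction.stabilizer Co0 u ⊓ MulAction.stabilizer Co0 x)
    {y : ↥leechLattice | Q16 u y ∧ dotInt (x : GolayPt → ℤ) (y : GolayPt → ℤ) = t} y hy
    (by
      intro g hg z hz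
      rw [Subgroup.mem_inf, MulAction.mem_stabilizer_iff, MulAction.mem_stabilizer_iff] at hg
      exact ⟨(Q16_smul g hg.1 z).mp hz.1, by rw [co_dot' g hg.2]; exact hz.2⟩)
    (by
      intro z hz
      obtain ⟨g, g1, g3, g4⟩ := tr t ht y z hy.1 hz.1 hy.2 hz.2
      refine ⟨g, ?_, g4⟩
      rw [Subgroup.mem_inf, MulAction.mem_stabilizer_iff, MulAction.mem_stabilizer_iff]
      exact ⟨g1, g3⟩)
  exact ⟨y, hy.1, key, by rw [key, c]⟩

end Cfsg.Agent.Lib.Helper8
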