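import Cfsg.Agent.Lib.Helper8.LeechHS
import Cfsg.Agent.Lib.Helper8.LeechExt

set_option autoImplicit false

namespace Cfsg.Agent.Lib.Helper8

open Cfsg

theorem hs_inv_base : ∃ g : Co0, g • u0 = u0 ∧ g • wh = wh ∧ g * g = 1 ∧
    ∀ x : ↥leechLattice, Q100 (lvec u0c) (lvec whc) x → g • x ≠ x := by
  have h0 := hsinv_ok
  rw [Bool.and_eq_true] at h0
  have h1 : genOK hsinv = true := h0.1
  have h2 : fixB hsinv [u0c, r48c, whc] = true := of_decide_eq_true h0.2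
  obtain ⟨g, hg, hs⟩ := exists_gen h1 h2 S3h
  refine ⟨g, (hs_fix hg).1, (hs_fix hg).2.2, sq_one_of_invBB h1 hsinv_inv hs, ?_⟩
  intro x hx hfix
  rw [Q100_base] at hx
  obtain ⟨i, hi, e⟩ := SA.complete x x.2 hx.1 hx.2.1
  have hl : labR (BA i) = 64 := (labR_iff SA i hi 0 64 (by norm_num)).mp (e ▸ hx.2.2)
  have hc := invb_all i hi
  unfold invE at hc
  rw [force_eq, force_eq, Bool.and_eq_true, Bool.and_eq_true] at hc
  obtain ⟨⟨c1, c2⟩, c3⟩ := hc
  have c1' : invP i < 552 := Nat.le_of_ble_eq_true c1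
  have hact := act_of_chk h1 hs x e (by rw [hx.1]; norm_num) (SA.valid _ c1') c3
  rw [hfix, e] at hact
  have e2 := SA.inj i hi _ c1' (lvec_inj (SA.valid i hi).1 (SA.valid _ c1').1 hact)
  rw [← e2, hl] at c2
  simp at c2

theorem hs_inv_gen (v w : ↥leechLattice) (hv : sqNorm (v : GolayPt → ℤ) = 48)
    (hw : sqNorm (w : GolayPt → ℤ) = 48) (hvw : dotInt (v : GolayPt → ℤ) (w : GolayPt → ℤ) = -32) :
    ∃ g : Co0, g • v = v ∧ g • w = w ∧ orderOf g = 2 ∧ ∀ x : ↥leechLattice, Q100 v w x → g • x ≠ x := by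
  obtain ⟨h, h1, h2⟩ := hs_base v w hv hw hvw
  obtain ⟨g0, e1, e2, e3, e4⟩ := hs_inv_base
  have hmove : ∀ x : ↥leechLattice, Q100 v w x → (h⁻¹ * g0 * h) • x ≠ x := by
    intro x hx hfix
    apply e4 (h • x) ((Q100_smul h h1 h2 x).mp hx)
    rw [mul_smul, mul_smul, inv_smul_eq_iff] at hfix
    exact hfix
  refine ⟨h⁻¹ * g0 * h, conj_fix h1 e1, conj_fix h2 e2, ?_, hmove⟩
  apply orderOf_eq_prime
  · have : (h⁻¹ * g0 * h) ^ 2 = h⁻¹ * (g0 * g0) * h := by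
      rw [pow_two]; simp only [mul_assoc, mul_inv_cancel_left]
    rw [this, e3, mul_one, inv_mul_cancel]
  · intro hone
    obtain ⟨x, hx⟩ : {x : ↥leechLattice | Q100 v w x}.Nonempty := by
      apply Set.nonempty_of_ncard_ne_zero
      rw [(hs100_gen v w hv hw hvw).1]; norm_num
    apply hmove x hx
    rw [hone, one_smul]

end Cfsg.Agent.Lib.Helper8
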