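import Cfsg.Agent.Lib.Helper8.LeechIData

set_option autoImplicit false

namespace Cfsg.Agent.Lib.Helper8

open Cfsg

theorem zip_mem' {α β : Type} (l1 : List α) (l2 : List β) (i : ℕ) (h1 : i < l1.length)
    (h2 : i < l2.length) : (l1[i]'h1, l2[i]'h2) ∈ l1.zip l2 := by
  have : (l1.zip l2)[i]'(by rw [List.length_zip]; exact lt_min h1 h2) = (l1[i]'h1, l2[i]'h2) :=
    List.getElem_zip
  rw [← this]; exact List.getElem_mem _

theorem exists_i : ∃ g : Co0, g * g = negCo := by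
  obtain ⟨g, hg⟩ := exists_co_of_genOK imat_ok
  refine ⟨g, ?_⟩
  apply co_ext_G0
  intro c hc hm
  rw [mul_smul, negCo_smul]
  have h' := imat_ok
  unfold genOK at h'
  simp only [Bool.and_eq_true] at h'
  obtain ⟨⟨⟨_, _⟩, h4⟩, h5⟩ := h'
  have hlen : imat.2.2.2.length = 37 := Nat.eq_of_beq_eq_true h4
  obtain ⟨Y, N, hz, hz2, hz3⟩ : ∃ Y N, (c, Y) ∈ G0.zip imat.2.2.2 ∧ (N, Y) ∈ NG0.zip imat.2.2.2 ∧
      (c, N) ∈ G0.zip NG0 := by
    obtain ⟨i, hi0, rfl⟩ := List.getElem_of_mem hc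
    exact ⟨_, _, zip_mem' G0 imat.2.2.2 i hi0 (by rw [hlen]; exact hi0),
      zip_mem' NG0 imat.2.2.2 i (by rw [NG0_len]; exact hi0) (by rw [hlen]; exact hi0),
      zip_mem' G0 NG0 i hi0 (by rw [NG0_len]; exact hi0)⟩
  have h6 := List.all_eq_true.mp h5 _ hz
  simp only [Bool.and_eq_true] at h6
  obtain ⟨⟨h7, h8⟩, _⟩ := h6
  have h9 := List.all_eq_true.mp imat_sq _ hz2
  have h10 := List.all_eq_true.mp NG0_ok _ hz3
  rw [Bool.and_eq_true] at h10
  have hn : sqNorm (lvec c) = 32 := by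
    rw [sqNorm_of_normIs (List.all_eq_true.mp G0_norm _ hc)]; norm_num
  have e1 := act_of_chk imat_ok hg ⟨lvec c, hm⟩ rfl
    (by show sqNorm (lvec c) ≤ 64; rw [hn]; norm_num) (validY_iff h8) h7
  have e2 := act_of_chk imat_ok hg (g • ⟨lvec c, hm⟩) e1
    (by rw [co_norm]; show sqNorm (lvec c) ≤ 64; rw [hn]; norm_num) (validY_iff h10.2) h9
  apply Subtype.ext
  rw [e2]
  show lvec N = -lvec c
  funext p
  rw [Pi.neg_apply, lvec_apply, lvec_apply]
  have := Nat.eq_of_beq_eq_true (of_allBelow h10.1 (idx p) (idx_lt p))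
  simp only at this
  omega

theorem negCo_sq : negCo * negCo = 1 := by
  apply co_ext
  intro v _
  rw [mul_smul, negCo_smul, negCo_smul, neg_neg, one_smul]

theorem no_complement (K : Subgroup Co0) : ¬ (Subgroup.zpowers negCo).IsComplement' K := by
  intro hK
  obtain ⟨g, hg⟩ := exists_i
  obtain ⟨⟨a, k⟩, e⟩ := hK.2 g
  have e' : (a : Co0) * (k : Co0) = g := e
  have hac : (a : Co0) ∈ Subgroup.center Co0 :=
    (Subgroup.zpowers_le.mpr negCo_mem_center) a.2
  rw [Subgroup.mem_center_iff] at hac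
  have haa : (a : Co0) * (a : Co0) = 1 := by
    obtain ⟨m, hm⟩ := Subgroup.mem_zpowers_iff.mp a.2
    rw [← hm, ← zpow_add, ← two_mul, zpow_mul, zpow_two, negCo_sq, one_zpow]
  have hkk : (k : Co0) * (k : Co0) = negCo := by
    rw [← hg, ← e']
    calc (k : Co0) * k = ((a : Co0) * a) * (k * k) := by rw [haa, one_mul]
      _ = (a : Co0) * ((a : Co0) * k) * k := by simp only [mul_assoc]
      _ = (a : Co0) * ((k : Co0) * a) * k := by rw [hac k]
      _ = (a : Co0) * k * (a * k) := by simp only [mul_assoc]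
  have hmem : negCo ∈ K := by rw [← hkk]; exact K.mul_mem k.2 k.2
  have hdis := hK.disjoint
  have := Subgroup.disjoint_def.mp hdis (Subgroup.mem_zpowers negCo) hmem
  exact negCo_ne_one this

end Cfsg.Agent.Lib.Helper8
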