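import Cfsg.Agent.Lib.Helper8.LeechQuad
import Cfsg.Agent.Lib.Helper8.LeechCenter

set_option autoImplicit false

namespace Cfsg.Agent.Lib.Helper8

open Cfsg

def lkc : ℕ := 98848967279067215459914085892424648832004004241866229772
theorem blk : baseOK lkc 32 5888 = true := by decide +kernel
theorem bw2 : baseOK w2c 32 5824 = true := by decide +kernel

theorem dot_v0_lk : dotInt (lvec v0c) (lvec lkc) = 16 := by
  rw [dot_val' (l := 80) bv0 blk (by decide +kernel)]; norm_num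
theorem dot_lk_w2 : dotInt (lvec lkc) (lvec w2c) = 16 := by
  rw [dot_val' (l := 80) blk bw2 (by decide +kernel)]; norm_num
theorem dot_v0_w2 : dotInt (lvec v0c) (lvec w2c) = 0 := by
  rw [dot_val' (l := 64) bv0 bw2 (by decide +kernel)]; norm_num

/-- any two orthogonal minimal vectors are linked by a third one -/
theorem exists_link (v w : ↥leechLattice) (hv : sqNorm (v : GolayPt → ℤ) = 32)
    (hw : sqNorm (w : GolayPt → ℤ) = 32) (hd : dotInt (v : GolayPt → ℤ) (w : GolayPt → ℤ) = 0) :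
    ∃ x : ↥leechLattice, sqNorm (x : GolayPt → ℤ) = 32 ∧
      dotInt (v : GolayPt → ℤ) (x : GolayPt → ℤ) ≠ 0 ∧ dotInt (x : GolayPt → ℤ) (w : GolayPt → ℤ) ≠ 0 := by
  have nw2 : sqNorm (lvec w2c) = 32 := by rw [(baseOK_spec bw2).2.2.1]; norm_num
  have nlk : sqNorm (lvec lkc) = 32 := by rw [(baseOK_spec blk).2.2.1]; norm_num
  obtain ⟨h, h1, h2⟩ := ordered_pair_trans v0 ⟨lvec w2c, (baseOK_spec bw2).2.1⟩ v w v0c_sq nw2 hv hw
    (by rw [hd]; exact dot_v0_w2)
  refine ⟨h • ⟨lvec lkc, (baseOK_spec blk).2.1⟩, by rw [co_norm]; exact nlk, ?_, ?_⟩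
  · rw [← h1, co_dot]
    show dotInt (lvec v0c) (lvec lkc) ≠ 0
    rw [dot_v0_lk]; norm_num
  · rw [← h2, co_dot]
    show dotInt (lvec lkc) (lvec w2c) ≠ 0
    rw [dot_lk_w2]; norm_num

theorem sign_prop (g : Co0)
    (hpm : ∀ v : ↥leechLattice, sqNorm (v : GolayPt → ℤ) = 32 → g • v = v ∨ g • v = -v)
    {v w : ↥leechLattice} (hw : sqNorm (w : GolayPt → ℤ) = 32) (hv : g • v = v)
    (hd : dotInt (v : GolayPt → ℤ) (w : GolayPt → ℤ) ≠ 0) : g • w = w := by
  rcases hpm w hw with h | h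
  · exact h
  · exfalso
    have := co_dot g v w
    rw [hv, h, AddSubgroup.coe_neg, dotInt_neg_right] at this
    apply hd; omega

theorem eq_one_of_pm (g : Co0)
    (hpm : ∀ v : ↥leechLattice, sqNorm (v : GolayPt → ℤ) = 32 → g • v = v ∨ g • v = -v)
    (h0 : g • v0 = v0) : g = 1 := by
  apply co_ext
  intro w hw
  rw [one_smul]
  by_cases hd : dotInt (v0 : GolayPt → ℤ) (w : GolayPt → ℤ) = 0
  · obtain ⟨x, hx, d1, d2⟩ := exists_link v0 w v0c_sq hw hd
    exact sign_prop g hpm hw (sign_prop g hpm hx h0 d1) d2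
  · exact sign_prop g hpm hw h0 hd

theorem pm_cases (g : Co0)
    (hpm : ∀ v : ↥leechLattice, sqNorm (v : GolayPt → ℤ) = 32 → g • v = v ∨ g • v = -v) :
    g = 1 ∨ g = negCo := by
  rcases hpm v0 v0c_sq with h | h
  · left; exact eq_one_of_pm g hpm h
  · right
    have : negCo * g = 1 := by
      apply eq_one_of_pm
      · intro v hv
        rw [mul_smul, negCo_smul]
        rcases hpm v hv with h' | h'
        · right; rw [h']
        · left; rw [h', neg_neg]
      · rw [mul_smul, negCo_smul, h, neg_neg]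
    have h2 : negCo * negCo = 1 := by
      apply co_ext
      intro v _
      rw [mul_smul, negCo_smul, negCo_smul, neg_neg, one_smul]
    calc g = (negCo * negCo) * g := by rw [h2, one_mul]
      _ = negCo * (negCo * g) := mul_assoc _ _ _
      _ = negCo := by rw [this, mul_one]

theorem faithful_mod2 (g : Co0)
    (h : ∀ v : ↥leechLattice, ∃ w : ↥leechLattice,
      ((g • v : ↥leechLattice) : GolayPt → ℤ) - (v : GolayPt → ℤ) = 2 • (w : GolayPt → ℤ)) :
    g ∈ Subgroup.center Co0 := by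
  have hpm : ∀ v : ↥leechLattice, sqNorm (v : GolayPt → ℤ) = 32 → g • v = v ∨ g • v = -v := by
    intro v hv
    by_cases hne : g • v = v
    · left; exact hne
    right
    obtain ⟨w, hw⟩ := h v
    have hn : sqNorm ((g • v : ↥leechLattice) : GolayPt → ℤ) = 32 := by rw [co_norm]; exact hv
    rcases cong_two (g • v).2 v.2 (fun e => hne (Subtype.ext e)) (by rw [hn]; norm_num)
      (by rw [hv]; norm_num) ⟨w, w.2, hw⟩ with e | ⟨e, _, _⟩
    · exact Subtype.ext e
    · rw [hn] at e; norm_num at e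
  rcases pm_cases g hpm with rfl | rfl
  · exact Subgroup.one_mem _
  · exact negCo_mem_center

theorem cls3_80' : (∑ i ∈ Finset.range 196560, s3f i) / (2 ^ 20) ^ 80 % 2 ^ 20 = 11178 := by
  rw [s3b_all]; decide +kernel
theorem cls4_80 : (∑ i ∈ Finset.range 196560, s4f i) / (2 ^ 20) ^ 80 % 2 ^ 20 = 16192 := by
  rw [s4b_all]; decide +kernel

theorem irreducible_mod2 (M : AddSubgroup (GolayPt → ℤ))
    (h2 : ∀ v ∈ leechLattice, (2 : ℤ) • v ∈ M) (hle : M ≤ leechLattice)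
    (hinv : ∀ g : Co0, ∀ v : ↥leechLattice, (v : GolayPt → ℤ) ∈ M →
      ((g • v : ↥leechLattice) : GolayPt → ℤ) ∈ M) :
    (∀ x ∈ M, ∃ w ∈ leechLattice, x = (2 : ℤ) • w) ∨ M = leechLattice := by
  have z2 : ∀ x : GolayPt → ℤ, (2 : ℤ) • x = 2 • x := by
    intro x; rw [two_smul ℤ, two_smul ℕ]
  by_cases hall : ∀ x ∈ M, ∃ w ∈ leechLattice, x = (2 : ℤ) • w
  · left; exact hall
  right
  push_neg at hall
  obtain ⟨x, hxM, hx⟩ := hall
  obtain ⟨y, hy, hyn, z, hz, e⟩ := short_rep x (hle hxM)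
  have hyM : y ∈ M := by
    have : y = x - (2 : ℤ) • z := by rw [z2, ← e]; abel
    rw [this]; exact M.sub_mem hxM (h2 z hz)
  have from2 : (∃ t : ↥leechLattice, sqNorm (t : GolayPt → ℤ) = 32 ∧ (t : GolayPt → ℤ) ∈ M) →
      M = leechLattice := by
    rintro ⟨t, ht, htM⟩
    apply le_antisymm hle
    rw [← closure_min]
    apply (AddSubgroup.closure_le _).mpr
    rintro s ⟨hs, hsn⟩
    obtain ⟨g, hg⟩ := co0_trans2 t ⟨s, hs⟩ ht hsn
    have := hinv g t htM
    rw [hg] at this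
    exact this
  rcases norm_cases hy hyn with h | h | h | h
  · exfalso
    apply hx z hz
    rw [z2, ← e, h, sub_zero]
  · exact from2 ⟨⟨y, hy⟩, h, hyM⟩
  · apply from2
    have hall3 : ∀ s : ↥leechLattice, sqNorm (s : GolayPt → ℤ) = 48 → (s : GolayPt → ℤ) ∈ M := by
      intro s hs
      obtain ⟨g, hg⟩ := co0_trans3 ⟨y, hy⟩ s h hs
      have := hinv g ⟨y, hy⟩ hyM
      rw [hg] at this
      exact this
    obtain ⟨t, ht1, ht2, ht3⟩ : {w : GolayPt → ℤ | w ∈ leechLattice ∧ sqNorm w = 32 ∧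
        dotInt (lvec u0c) w = 16}.Nonempty := by
      apply Set.nonempty_of_ncard_ne_zero
      rw [ncard_dot_u0 16 80 (by norm_num), cls3_80']; norm_num
    refine ⟨⟨t, ht1⟩, ht2, ?_⟩
    have a1 := hall3 u0 u0c_sq
    have a2 := hall3 (u0 - ⟨t, ht1⟩) (by
      show sqNorm (lvec u0c - t) = 48
      rw [sqNorm_sub, u0c_sq, ht2, ht3]; norm_num)
    have : t = lvec u0c - (lvec u0c - t) := by abel
    show t ∈ M
    rw [this]
    exact M.sub_mem a1 a2
  · apply from2
    have hall4 : ∀ s : ↥leechLattice, sqNorm (s : GolayPt → ℤ) = 64 → (s : GolayPt → ℤ) ∈ M := by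
      intro s hs
      obtain ⟨g, hg⟩ := co0_trans4 ⟨y, hy⟩ s h hs
      have := hinv g ⟨y, hy⟩ hyM
      rw [hg] at this
      exact this
    obtain ⟨t, ht1, ht2, ht3⟩ : {w : GolayPt → ℤ | w ∈ leechLattice ∧ sqNorm w = 32 ∧
        dotInt (lvec x40c) w = 16}.Nonempty := by
      apply Set.nonempty_of_ncard_ne_zero
      rw [ncard_dot_x40 16 80 (by norm_num), cls4_80]; norm_num
    refine ⟨⟨t, ht1⟩, ht2, ?_⟩
    have a1 := hall4 ⟨lvec x40c, x40c_mem⟩ x40c_sq
    have a2 := hall4 (⟨lvec x40c, x40c_mem⟩ - ⟨t, ht1⟩) (by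
      show sqNorm (lvec x40c - t) = 64
      rw [sqNorm_sub, x40c_sq, ht2, ht3]; norm_num)
    have : t = lvec x40c - (lvec x40c - t) := by abel
    show t ∈ M
    rw [this]
    exact M.sub_mem a1 a2

end Cfsg.Agent.Lib.Helper8
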