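import Cfsg.Agent.Lib.Helper8.LeechC0p0
import Cfsg.Agent.Lib.Helper8.LeechC0p1
import Cfsg.Agent.Lib.Helper8.LeechC0p2
import Cfsg.Agent.Lib.Helper8.LeechC0p3

set_option autoImplicit false

namespace Cfsg.Agent.Lib.Helper8

open Cfsg

theorem k0b_all : ∀ i < 196560, k0entry i = true := by
  apply of_blocks (B := 48) (K := 4095)
  intro b hb
  interval_cases b
  · exact k0b0
  · exact k0b1
  · exact k0b2
  · exact k0b3
  · exact k0b4
  · exact k0b5
  · exact k0b6
  · exact k0b7
  · exact k0b8
  · exact k0b9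
  · exact k0b10
  · exact k0b11
  · exact k0b12
  · exact k0b13
  · exact k0b14
  · exact k0b15
  · exact k0b16
  · exact k0b17
  · exact k0b18
  · exact k0b19
  · exact k0b20
  · exact k0b21
  · exact k0b22
  · exact k0b23
  · exact k0b24
  · exact k0b25
  · exact k0b26
  · exact k0b27
  · exact k0b28
  · exact k0b29
  · exact k0b30
  · exact k0b31
  · exact k0b32
  · exact k0b33
  · exact k0b34
  · exact k0b35
  · exact k0b36
  · exact k0b37
  · exact k0b38
  · exact k0b39
  · exact k0b40
  · exact k0b41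
  · exact k0b42
  · exact k0b43
  · exact k0b44
  · exact k0b45
  · exact k0b46
  · exact k0b47

theorem a2b_all : ∀ i < 196560, a2entry i = true := by
  apply of_blocks (B := 48) (K := 4095)
  intro b hb
  interval_cases b
  · exact a2b0
  · exact a2b1
  · exact a2b2
  · exact a2b3
  · exact a2b4
  · exact a2b5
  · exact a2b6
  · exact a2b7
  · exact a2b8
  · exact a2b9
  · exact a2b10
  · exact a2b11
  · exact a2b12
  · exact a2b13
  · exact a2b14
  · exact a2b15
  · exact a2b16
  · exact a2b17
  · exact a2b18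
  · exact a2b19
  · exact a2b20
  · exact a2b21
  · exact a2b22
  · exact a2b23
  · exact a2b24
  · exact a2b25
  · exact a2b26
  · exact a2b27
  · exact a2b28
  · exact a2b29
  · exact a2b30
  · exact a2b31
  · exact a2b32
  · exact a2b33
  · exact a2b34
  · exact a2b35
  · exact a2b36
  · exact a2b37
  · exact a2b38
  · exact a2b39
  · exact a2b40
  · exact a2b41
  · exact a2b42
  · exact a2b43
  · exact a2b44
  · exact a2b45
  · exact a2b46
  · exact a2b47

theorem A2_valid : ∀ i < 196560, ValidP (A2 i) := by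
  intro i hi
  have h := a2b_all i hi
  unfold a2entry at h
  rw [force_eq, Bool.and_eq_true] at h
  exact validF_iff h.1

theorem A2_sorted : ∀ i, i + 1 < 196560 → A2 i < A2 (i + 1) := by
  intro i hi
  have h := a2b_all i (by omega)
  unfold a2entry at h
  rw [force_eq, Bool.and_eq_true, Bool.or_eq_true] at h
  rcases h.2 with h' | h'
  · exact Nat.le_of_ble_eq_true h'
  · have := Nat.eq_of_beq_eq_true h'
    omega

theorem v0c_leech : leechB v0c = true := by decide +kernel
theorem v0c_norm : normIs 32 v0c = true := by decide +kernel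

theorem v0c_mem : lvec v0c ∈ leechLattice := mem_of_leechB v0c_leech
theorem v0c_sq : sqNorm (lvec v0c) = 32 := by
  have := sqNorm_of_normIs v0c_norm
  exact_mod_cast this

theorem A2_conn : ∀ i < 196560, Conn [] (lvec v0c) (lvec (A2 i)) := by
  apply orbitL_of_check (gens := co0gens) (S := []) (cert := K0) (root := fun _ => v0c)
    (lab := fun _ => 0)
  · intro d hd
    exact ⟨List.all_eq_true.mp co0gens_ok d hd, rfl⟩
  · intro c hc; simp at hc
  · intro _
    exact ⟨v0c_mem, by rw [v0c_sq]; norm_num⟩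
  · exact A2_valid
  · exact k0b_all

theorem A2_mem : ∀ i < 196560, lvec (A2 i) ∈ leechLattice ∧ sqNorm (lvec (A2 i)) = (32 : ℕ) := by
  intro i hi
  have h := A2_conn i hi
  have hn := h.norm
  obtain ⟨_, _, _, hy, _⟩ := h
  exact ⟨hy, by rw [hn, v0c_sq]; norm_num⟩

theorem A2_complete : ∀ x ∈ leechLattice, sqNorm x = 32 → ∃ i < 196560, x = lvec (A2 i) := by
  intro x hx hn
  exact array_complete (n := 32) (by norm_num) (fun i hi => (A2_valid i hi).1) A2_sorted A2_mem
    (by rw [ncard_norm 32 (by norm_num), cnt32]) x hx (by rw [hn]; norm_num)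

theorem conn_v0 {x : GolayPt → ℤ} (hx : x ∈ leechLattice) (hn : sqNorm x = 32) :
    Conn [] (lvec v0c) x := by
  obtain ⟨i, hi, rfl⟩ := A2_complete x hx hn
  exact A2_conn i hi

theorem co0_trans2 (v w : ↥leechLattice) (hv : sqNorm (v : GolayPt → ℤ) = 32)
    (hw : sqNorm (w : GolayPt → ℤ) = 32) : ∃ g : Co0, g • v = w := by
  obtain ⟨g, _, _, _, e⟩ := (conn_v0 v.2 hv).symm.trans (conn_v0 w.2 hw)
  exact ⟨g, e⟩

end Cfsg.Agent.Lib.Helper8
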