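import Cfsg.Agent.Lib.Helper8.LeechC3All
import Cfsg.Agent.Lib.Helper8.LeechDecomp

set_option autoImplicit false

namespace Cfsg.Agent.Lib.Helper8

open Cfsg

theorem co_add (g : Co0) (a b : ↥leechLattice) : g • (a + b) = g • a + g • b := g.2.1 a b

theorem co_sub (g : Co0) (a b : ↥leechLattice) : g • (a - b) = g • a - g • b := by
  have h := co_add g (a - b) b
  rw [sub_add_cancel] at h
  rw [h, add_sub_cancel_right]

theorem co_zero (g : Co0) : g • (0 : ↥leechLattice) = 0 := by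
  have h := co_add g 0 0
  rw [add_zero] at h
  exact left_eq_add.mp h

theorem co_neg (g : Co0) (a : ↥leechLattice) : g • (-a) = -(g • a) := by
  have h := co_sub g 0 a
  rw [zero_sub, co_zero, zero_sub] at h
  exact h

theorem ordered_pair_trans (v w v' w' : ↥leechLattice) (hv : sqNorm (v : GolayPt → ℤ) = 32)
    (hw : sqNorm (w : GolayPt → ℤ) = 32) (hv' : sqNorm (v' : GolayPt → ℤ) = 32)
    (hw' : sqNorm (w' : GolayPt → ℤ) = 32)
    (hd : dotInt (v : GolayPt → ℤ) (w : GolayPt → ℤ) = dotInt (v' : GolayPt → ℤ) (w' : GolayPt → ℤ)) :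
    ∃ g : Co0, g • v = v' ∧ g • w = w' := by
  obtain ⟨g1, h1⟩ := co0_trans2 v v' hv hv'
  obtain ⟨g2, h2, h3⟩ := pair_trans2 v' (g1 • w) w' hv' (by rw [co_norm]; exact hw) hw' (by
    have := co_dot g1 v w
    rw [h1] at this
    rw [this, hd])
  exact ⟨g2 * g1, by rw [mul_smul, h1, h2], by rw [mul_smul, h3]⟩

/-- decompositions of `u` into two minimal vectors -/
def Dset (u : GolayPt → ℤ) : Set (GolayPt → ℤ) :=
  {x | x ∈ leechLattice ∧ sqNorm x = 32 ∧ sqNorm (u - x) = 32}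

theorem dot_of_decomp {u x : GolayPt → ℤ} (hx : sqNorm x = 32) (hux : sqNorm (u - x) = 32) :
    2 * dotInt x (u - x) = sqNorm u - 64 := by
  have e := sqNorm_add x (u - x)
  rw [add_sub_cancel, hx, hux] at e
  omega

theorem decomp_trans (u u' : ↥leechLattice) (hn : sqNorm (u : GolayPt → ℤ) = sqNorm (u' : GolayPt → ℤ))
    {x x' : GolayPt → ℤ} (hx : x ∈ Dset u) (hx' : x' ∈ Dset u') :
    ∃ g : Co0, g • u = u' ∧ g • (⟨x, hx.1⟩ : ↥leechLattice) = ⟨x', hx'.1⟩ := by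
  obtain ⟨h1, h2, h3⟩ := hx
  obtain ⟨h1', h2', h3'⟩ := hx'
  have d1 := dot_of_decomp h2 h3
  have d2 := dot_of_decomp h2' h3'
  obtain ⟨g, e1, e2⟩ := ordered_pair_trans ⟨x, h1⟩ (u - ⟨x, h1⟩) ⟨x', h1'⟩ (u' - ⟨x', h1'⟩) h2 h3 h2' h3'
    (by
      show dotInt x ((u : GolayPt → ℤ) - x) = dotInt x' ((u' : GolayPt → ℤ) - x')
      omega)
  refine ⟨g, ?_, e1⟩
  have : u = ⟨x, h1⟩ + (u - ⟨x, h1⟩) := by abel
  rw [this, co_add, e1, e2]; abel

theorem ncard_Dset_smul (g : Co0) (u : ↥leechLattice) :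
    (Dset (u : GolayPt → ℤ)).ncard = (Dset ((g • u : ↥leechLattice) : GolayPt → ℤ)).ncard := by
  unfold Dset
  rw [← ncard_val (fun x => sqNorm x = 32 ∧ sqNorm ((u : GolayPt → ℤ) - x) = 32),
    ← ncard_val (fun x => sqNorm x = 32 ∧ sqNorm (((g • u : ↥leechLattice) : GolayPt → ℤ) - x) = 32)]
  apply ncard_transport g
  intro x
  rw [co_norm]
  have : sqNorm (((g • u : ↥leechLattice) : GolayPt → ℤ) - ((g • x : ↥leechLattice) : GolayPt → ℤ)) =
      sqNorm ((u : GolayPt → ℤ) - (x : GolayPt → ℤ)) := by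
    have h := co_norm g (u - x)
    rw [co_sub] at h
    exact h
  rw [this]

open Classical in
theorem card_filter_Dset (u : GolayPt → ℤ) :
    ((XF 32 (by norm_num)).filter fun v => sqNorm (u - v) = 32).card = (Dset u).ncard := by
  rw [← Set.ncard_coe_finset]
  congr 1
  ext x
  simp only [Finset.coe_filter, mem_XF, Set.mem_ofPred_eq, Dset]
  constructor
  · rintro ⟨⟨h1, h2⟩, h3⟩; exact ⟨h1, by rw [h2]; norm_num, h3⟩
  · rintro ⟨h1, h2, h3⟩; exact ⟨⟨h1, by rw [h2]; norm_num⟩, h3⟩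

open Classical in
theorem card_filter_dot (v : GolayPt → ℤ) (t : ℤ) :
    ((XF 32 (by norm_num)).filter fun w => dotInt v w = t).card =
      {w : GolayPt → ℤ | w ∈ leechLattice ∧ sqNorm w = 32 ∧ dotInt v w = t}.ncard := by
  rw [← Set.ncard_coe_finset]
  congr 1
  ext x
  simp only [Finset.coe_filter, mem_XF, Set.mem_ofPred_eq]
  constructor
  · rintro ⟨⟨h1, h2⟩, h3⟩; exact ⟨h1, by rw [h2]; norm_num, h3⟩
  · rintro ⟨h1, h2, h3⟩; exact ⟨⟨h1, by rw [h2]; norm_num⟩, h3⟩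

/-- the general counting argument: all vectors of norm `n` decompose, and form one orbit -/
theorem all_decomp (n : ℕ) (hn : n ≤ 64) (t : ℤ) (s : ℕ) (hnt : (n : ℤ) = 64 + 2 * t)
    (hs : t = 4 * (s : ℤ) - 64) (ct c0 : ℕ)
    (hct : (∑ i ∈ Finset.range 196560, s1f i) / (2 ^ 20) ^ s % 2 ^ 20 = ct)
    (b : ↥leechLattice) (hb : sqNorm (b : GolayPt → ℤ) = n) (hbc : (Dset (b : GolayPt → ℤ)).ncard = c0)
    (hc0 : 0 < c0) (harith : cntN fullL 32 * ct = cntN fullL n * c0) :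
    ∀ u : ↥leechLattice, sqNorm (u : GolayPt → ℤ) = n → (Dset (u : GolayPt → ℤ)).ncard = c0 := by
  classical
  have hbne : (Dset (b : GolayPt → ℤ)).Nonempty := by
    apply Set.nonempty_of_ncard_ne_zero; omega
  obtain ⟨xb, hxb⟩ := hbne
  have key := decomp_count n hn t hnt ct c0
    (fun v hv => by
      rw [mem_XF] at hv
      rw [card_filter_dot, ncard_dot2 v hv.1 (by rw [hv.2]; norm_num) t s hs, hct])
    (fun u hu => by
      rw [mem_XF] at hu
      rw [card_filter_Dset]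
      by_cases hne : (Dset u).Nonempty
      · right
        obtain ⟨x, hx⟩ := hne
        obtain ⟨g, hg, _⟩ := decomp_trans ⟨u, hu.1⟩ b (by rw [hb]; exact hu.2) hx hxb
        have := ncard_Dset_smul g ⟨u, hu.1⟩
        rw [hg, hbc] at this
        exact this
      · left
        rw [Set.not_nonempty_iff_eq_empty] at hne
        rw [hne, Set.ncard_empty])
    harith
  intro u hu
  have := key u (mem_XF.mpr ⟨u.2, hu⟩)
  rwa [card_filter_Dset] at this

theorem trans_of_all_decomp {n : ℕ} {c0 : ℕ} (hc0 : 0 < c0)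
    (h : ∀ u : ↥leechLattice, sqNorm (u : GolayPt → ℤ) = n → (Dset (u : GolayPt → ℤ)).ncard = c0)
    (u u' : ↥leechLattice) (hu : sqNorm (u : GolayPt → ℤ) = n) (hu' : sqNorm (u' : GolayPt → ℤ) = n) :
    ∃ g : Co0, g • u = u' := by
  obtain ⟨x, hx⟩ : (Dset (u : GolayPt → ℤ)).Nonempty := by
    apply Set.nonempty_of_ncard_ne_zero; rw [h u hu]; omega
  obtain ⟨x', hx'⟩ : (Dset (u' : GolayPt → ℤ)).Nonempty := by
    apply Set.nonempty_of_ncard_ne_zero; rw [h u' hu']; omega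
  obtain ⟨g, hg, _⟩ := decomp_trans u u' (by rw [hu, hu']) hx hx'
  exact ⟨g, hg⟩

end Cfsg.Agent.Lib.Helper8
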