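import Cfsg.Agent.Lib.Helper8.LeechLam3

set_option autoImplicit false

namespace Cfsg.Agent.Lib.Helper8

open Cfsg

/-- generic translation between labels and inner products -/
theorem labV_sub {V : ℕ} (hV : ValidP V) (hn64 : sqNorm (lvec V) ≤ 64) {c : ℕ}
    (hc : 8 * sdg V + 4416 = c + 64) {Y : ℕ} (hY : ValidP Y) (hYn : sqNorm (lvec Y) = 32) :
    dotInt (lvec V) (lvec Y) = ((Nat.sub (labV (kList V) Y) c : ℕ) : ℤ) - 64 := by
  have h1 := labV_eq hV hY
  have h2 := sqNorm_add (lvec V) (lvec Y)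
  have h3 := sqNorm_nonneg (lvec V + lvec Y)
  have h4 : (Nat.sub (labV (kList V) Y) c : ℕ) = labV (kList V) Y - c := rfl
  rw [h4]
  omega

theorem u0c_valid : ValidP u0c := validY_iff (by decide +kernel)
theorem x40c_valid : ValidP x40c := validY_iff (by decide +kernel)
theorem u0c_mem : lvec u0c ∈ leechLattice := mem_of_leechB (by decide +kernel)
theorem x40c_mem : lvec x40c ∈ leechLattice := mem_of_leechB (by decide +kernel)
theorem u0c_sq : sqNorm (lvec u0c) = 48 := by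
  rw [sqNorm_of_normIs (n := 48) (by decide +kernel)]; norm_num
theorem x40c_sq : sqNorm (lvec x40c) = 64 := by
  rw [sqNorm_of_normIs (n := 64) (by decide +kernel)]; norm_num
theorem u0c_sdg : sdg u0c = 188 := by decide +kernel
theorem x40c_sdg : sdg x40c = 192 := by decide +kernel

theorem A2_sq (i : ℕ) (hi : i < 196560) : sqNorm (lvec (A2 i)) = 32 := by
  rw [(A2_mem i hi).2]; norm_num

theorem dot_u0 (i : ℕ) (hi : i < 196560) :
    dotInt (lvec u0c) (lvec (A2 i)) = (lab3 (A2 i) : ℤ) - 64 :=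
  labV_sub u0c_valid (by rw [u0c_sq]; norm_num) (by rw [u0c_sdg]) (A2_valid i hi) (A2_sq i hi)

theorem dot_x40 (i : ℕ) (hi : i < 196560) :
    dotInt (lvec x40c) (lvec (A2 i)) = (lab4 (A2 i) : ℤ) - 64 :=
  labV_sub x40c_valid (by rw [x40c_sq]) (by rw [x40c_sdg]) (A2_valid i hi) (A2_sq i hi)

theorem s3f_eq (i : ℕ) : s3f i = (2 ^ 20) ^ lab3 (A2 i) := by
  show 1 <<< (20 * lab3 (A2 i)) = _
  rw [Nat.shiftLeft_eq, one_mul, pow_mul]

theorem s4f_eq (i : ℕ) : s4f i = (2 ^ 20) ^ lab4 (A2 i) := by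
  show 1 <<< (20 * lab4 (A2 i)) = _
  rw [Nat.shiftLeft_eq, one_mul, pow_mul]

theorem ncard_dot_u0 (t : ℤ) (s : ℕ) (hs : t = (s : ℤ) - 64) :
    {w : GolayPt → ℤ | w ∈ leechLattice ∧ sqNorm w = 32 ∧ dotInt (lvec u0c) w = t}.ncard =
      (∑ i ∈ Finset.range 196560, s3f i) / (2 ^ 20) ^ s % 2 ^ 20 := by
  rw [ncard_class (fun w => dotInt (lvec u0c) w = t) lab3 s]
  · simp only [s3f_eq]
  · intro i hi
    rw [dot_u0 i hi, hs]
    omega

theorem ncard_dot_x40 (t : ℤ) (s : ℕ) (hs : t = (s : ℤ) - 64) :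
    {w : GolayPt → ℤ | w ∈ leechLattice ∧ sqNorm w = 32 ∧ dotInt (lvec x40c) w = t}.ncard =
      (∑ i ∈ Finset.range 196560, s4f i) / (2 ^ 20) ^ s % 2 ^ 20 := by
  rw [ncard_class (fun w => dotInt (lvec x40c) w = t) lab4 s]
  · simp only [s4f_eq]
  · intro i hi
    rw [dot_x40 i hi, hs]
    omega

theorem Dset_eq_dot (u : GolayPt → ℤ) (t : ℤ) (ht : sqNorm u = 2 * t) :
    Dset u = {w : GolayPt → ℤ | w ∈ leechLattice ∧ sqNorm w = 32 ∧ dotInt u w = t} := by
  ext x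
  simp only [Dset, Set.mem_ofPred_eq]
  constructor
  · rintro ⟨h1, h2, h3⟩
    rw [sqNorm_sub] at h3
    exact ⟨h1, h2, by omega⟩
  · rintro ⟨h1, h2, h3⟩
    refine ⟨h1, h2, ?_⟩
    rw [sqNorm_sub]; omega

theorem cls3_88 : (∑ i ∈ Finset.range 196560, s3f i) / (2 ^ 20) ^ 88 % 2 ^ 20 = 552 := by
  rw [s3b_all]; decide +kernel
theorem cls3_48 : (∑ i ∈ Finset.range 196560, s3f i) / (2 ^ 20) ^ 48 % 2 ^ 20 = 11178 := by
  rw [s3b_all]; decide +kernel
theorem cls4_96 : (∑ i ∈ Finset.range 196560, s4f i) / (2 ^ 20) ^ 96 % 2 ^ 20 = 46 := by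
  rw [s4b_all]; decide +kernel

theorem Dset_u0 : (Dset (lvec u0c)).ncard = 552 := by
  rw [Dset_eq_dot _ 24 (by rw [u0c_sq]; norm_num), ncard_dot_u0 24 88 (by norm_num), cls3_88]

theorem Dset_x40 : (Dset (lvec x40c)).ncard = 46 := by
  rw [Dset_eq_dot _ 32 (by rw [x40c_sq]; norm_num), ncard_dot_x40 32 96 (by norm_num), cls4_96]

theorem Dset48 (u : ↥leechLattice) (hu : sqNorm (u : GolayPt → ℤ) = 48) :
    (Dset (u : GolayPt → ℤ)).ncard = 552 :=
  all_decomp 48 (by norm_num) (-8) 14 (by norm_num) (by norm_num) 47104 552 cls14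
    ⟨lvec u0c, u0c_mem⟩ (by rw [u0c_sq]; norm_num) Dset_u0 (by norm_num)
    (by rw [cnt32, cnt48]) u (by rw [hu]; norm_num)

theorem Dset64 (u : ↥leechLattice) (hu : sqNorm (u : GolayPt → ℤ) = 64) :
    (Dset (u : GolayPt → ℤ)).ncard = 46 :=
  all_decomp 64 (by norm_num) 0 16 (by norm_num) (by norm_num) 93150 46 cls16
    ⟨lvec x40c, x40c_mem⟩ (by rw [x40c_sq]; norm_num) Dset_x40 (by norm_num)
    (by rw [cnt32, cnt64]) u (by rw [hu]; norm_num)

theorem co0_trans3 (u u' : ↥leechLattice) (hu : sqNorm (u : GolayPt → ℤ) = 48)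
    (hu' : sqNorm (u' : GolayPt → ℤ) = 48) : ∃ g : Co0, g • u = u' :=
  trans_of_all_decomp (n := 48) (c0 := 552) (by norm_num)
    (fun u hu => Dset48 u (by rw [hu]; norm_num)) u u' (by rw [hu]; norm_num) (by rw [hu']; norm_num)

theorem co0_trans4 (u u' : ↥leechLattice) (hu : sqNorm (u : GolayPt → ℤ) = 64)
    (hu' : sqNorm (u' : GolayPt → ℤ) = 64) : ∃ g : Co0, g • u = u' :=
  trans_of_all_decomp (n := 64) (c0 := 46) (by norm_num)
    (fun u hu => Dset64 u (by rw [hu]; norm_num)) u u' (by rw [hu]; norm_num) (by rw [hu']; norm_num)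

/-- the base vector of norm 48 -/
def u0 : ↥leechLattice := ⟨lvec u0c, u0c_mem⟩

theorem fixS_u0 {g : Co0} (hg : g ∈ fixS [u0c]) : g • u0 = u0 := hg u0c (by simp) u0c_mem

theorem r48c_ok : lvec r48c ∈ leechLattice ∧ sqNorm (lvec r48c) ≤ 64 :=
  ⟨mem_of_leechB (by decide +kernel), by
    rw [sqNorm_of_normIs (n := 32) (by decide +kernel)]; norm_num⟩

theorem A2_conn3 : ∀ i < 196560, lab3 (A2 i) = 48 → Conn [u0c] (lvec r48c) (lvec (A2 i)) := by
  intro i hi hl
  have := orbitF_of_check (gens := co3gens) (S := [u0c]) (A := A2) (cert := K3)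
    (root := fun _ => r48c) (lab := lab3) (rel := fun l => Nat.beq l 48) (N := 196560)
    (by
      intro d hd
      have := List.all_eq_true.mp co3gens_ok d hd
      rw [Bool.and_eq_true] at this
      exact this)
    (by
      intro c hc
      simp only [List.mem_singleton] at hc
      rw [hc, u0c_sq]; norm_num)
    (fun _ => r48c_ok) A2_valid k3b_all i hi (by rw [hl]; rfl)
  exact this

theorem co3_conn48 {x y : GolayPt → ℤ} (hx : x ∈ leechLattice) (hxn : sqNorm x = 32)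
    (hy : y ∈ leechLattice) (hyn : sqNorm y = 32)
    (hdx : dotInt (lvec u0c) x = -16) (hdy : dotInt (lvec u0c) y = -16) : Conn [u0c] x y := by
  obtain ⟨i, hi, rfl⟩ := A2_complete x hx hxn
  obtain ⟨j, hj, rfl⟩ := A2_complete y hy hyn
  rw [dot_u0 i hi] at hdx
  rw [dot_u0 j hj] at hdy
  exact (A2_conn3 i hi (by omega)).symm.trans (A2_conn3 j hj (by omega))

end Cfsg.Agent.Lib.Helper8
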