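import Cfsg.Agent.Lib.Helper8.LeechLam3b

set_option autoImplicit false

namespace Cfsg.Agent.Lib.Helper8

open Cfsg

/-- counting minimal vectors with a given inner product with a vector of norm 48 -/
theorem ncard_dot3 (u : ↥leechLattice) (hu : sqNorm (u : GolayPt → ℤ) = 48) (t : ℤ) (s : ℕ)
    (hs : t = (s : ℤ) - 64) :
    {x : ↥leechLattice | sqNorm (x : GolayPt → ℤ) = 32 ∧
      dotInt (u : GolayPt → ℤ) (x : GolayPt → ℤ) = t}.ncard =
      (∑ i ∈ Finset.range 196560, s3f i) / (2 ^ 20) ^ s % 2 ^ 20 := by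
  obtain ⟨h, hh⟩ := co0_trans3 u u0 hu u0c_sq
  rw [ncard_transport h _ (fun w => sqNorm (w : GolayPt → ℤ) = 32 ∧ dotInt (lvec u0c) w = t),
    ncard_val (fun w => sqNorm w = 32 ∧ dotInt (lvec u0c) w = t), ncard_dot_u0 t s hs]
  intro x
  have e1 := co_dot h u x
  rw [hh] at e1
  rw [co_norm]
  have e2 : dotInt (lvec u0c) ((h • x : ↥leechLattice) : GolayPt → ℤ) =
      dotInt (u : GolayPt → ℤ) (x : GolayPt → ℤ) := e1
  rw [e2]

/-- transport of a transitivity statement for the stabiliser of `u0` to any vector of norm 48 -/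
theorem trans3_transport (t : ℤ)
    (H : ∀ x y : GolayPt → ℤ, x ∈ leechLattice → sqNorm x = 32 → y ∈ leechLattice → sqNorm y = 32 →
      dotInt (lvec u0c) x = t → dotInt (lvec u0c) y = t → Conn [u0c] x y)
    (u x y : ↥leechLattice) (hu : sqNorm (u : GolayPt → ℤ) = 48)
    (hx : sqNorm (x : GolayPt → ℤ) = 32) (hy : sqNorm (y : GolayPt → ℤ) = 32)
    (hdx : dotInt (u : GolayPt → ℤ) (x : GolayPt → ℤ) = t)
    (hdy : dotInt (u : GolayPt → ℤ) (y : GolayPt → ℤ) = t) :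
    ∃ g : Co0, g • u = u ∧ g • x = y := by
  obtain ⟨h, hh⟩ := co0_trans3 u u0 hu u0c_sq
  have e1 := co_dot h u x
  have e2 := co_dot h u y
  rw [hh] at e1 e2
  obtain ⟨g0, hg0, _, _, e⟩ := H _ _ (h • x).2 (by rw [co_norm]; exact hx) (h • y).2
    (by rw [co_norm]; exact hy) (e1.trans hdx) (e2.trans hdy)
  have e' : g0 • (h • x) = h • y := e
  refine ⟨h⁻¹ * g0 * h, ?_, ?_⟩
  · rw [mul_smul, mul_smul, hh, fixS_u0 hg0, ← hh, inv_smul_smul]
  · rw [mul_smul, mul_smul, e', inv_smul_smul]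

end Cfsg.Agent.Lib.Helper8
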