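import Cfsg.Agent.Lib.Helper8.LeechGen
import Cfsg.Agent.Lib.Helper8.Leech4

set_option autoImplicit false

namespace Cfsg.Agent.Lib.Helper8

open Cfsg

/-! ### signed digits -/

def PZ (d : ℕ → ℤ) (n : ℕ) : ℤ := ∑ i ∈ Finset.range n, d i * 256 ^ i

theorem PZ_succ (d : ℕ → ℤ) (n : ℕ) : PZ d (n + 1) = PZ d n + d n * 256 ^ n :=
  Finset.sum_range_succ _ _

theorem PZ_abs_lt (d : ℕ → ℤ) (n : ℕ) (h : ∀ i < n, |d i| < 256) : |PZ d n| < 256 ^ n := by
  induction n with
  | zero => simp [PZ]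
  | succ n ih =>
    rw [PZ_succ]
    have h1 := ih (fun i hi => h i (by omega))
    have h2 : |d n| ≤ 255 := by have := h n (by omega); omega
    have h3 : |d n * 256 ^ n| ≤ 255 * 256 ^ n := by
      rw [abs_mul, abs_of_pos (by positivity : (0 : ℤ) < 256 ^ n)]
      exact mul_le_mul_of_nonneg_right h2 (by positivity)
    calc |PZ d n + d n * 256 ^ n| ≤ |PZ d n| + |d n * 256 ^ n| := abs_add_le _ _
      _ < 256 ^ n + 255 * 256 ^ n := by linarith
      _ = 256 ^ (n + 1) := by ring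

theorem PZ_eq_zero (d : ℕ → ℤ) (n : ℕ) (h : ∀ i < n, |d i| < 256) (h0 : PZ d n = 0) :
    ∀ i < n, d i = 0 := by
  induction n with
  | zero => intro i hi; omega
  | succ n ih =>
    rw [PZ_succ] at h0
    have h1 := PZ_abs_lt d n (fun i hi => h i (by omega))
    have hdn : d n = 0 := by
      by_contra hne
      have h2 : 1 ≤ |d n| := Int.one_le_abs hne
      have h3 : |d n * 256 ^ n| = |PZ d n| := by
        have : d n * 256 ^ n = -PZ d n := by linarith
        rw [this, abs_neg]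
      rw [abs_mul, abs_of_pos (by positivity : (0 : ℤ) < 256 ^ n)] at h3
      have : (256 : ℤ) ^ n ≤ |d n| * 256 ^ n := by
        have hp : (0 : ℤ) < 256 ^ n := by positivity
        nlinarith
      linarith
    rw [hdn, zero_mul, add_zero] at h0
    intro i hi
    rcases Nat.lt_succ_iff_lt_or_eq.mp hi with h' | h'
    · exact ih (fun i hi => h i (by omega)) h0 i h'
    · rw [h']; exact hdn

def WW : ℕ := 2 ^ 200
def ONES : ℕ := 24 |> fun n => (256 ^ n - 1) / 255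
def KW : ℕ := WW - 8 * ONES

theorem ONES_eq : ONES = ∑ i ∈ Finset.range 24, 256 ^ i := by decide +kernel
theorem KW_add : KW + 8 * ONES = WW := by decide +kernel
theorem WW_gt : (256 : ℤ) ^ 24 < WW := by
  have : 256 ^ 24 < WW := by decide +kernel
  exact_mod_cast this

/-- the linear map with column codes `oc` -/
def mv (oc : ℕ → ℕ) (x : GolayPt → ℤ) : GolayPt → ℤ :=
  fun p => ∑ j ∈ Finset.range 24, ((dg (oc j) (idx p) : ℤ) - 8) * x (pt j)

theorem mv_add (oc : ℕ → ℕ) (x y : GolayPt → ℤ) : mv oc (x + y) = mv oc x + mv oc y := by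
  funext p
  simp only [mv, Pi.add_apply, mul_add, Finset.sum_add_distrib]

theorem mv_neg (oc : ℕ → ℕ) (x : GolayPt → ℤ) : mv oc (-x) = -mv oc x := by
  funext p
  simp only [mv, Pi.neg_apply, mul_neg, Finset.sum_neg_distrib]

theorem mv_zero (oc : ℕ → ℕ) : mv oc 0 = 0 := by
  funext p
  simp [mv]

theorem mv_sub (oc : ℕ → ℕ) (x y : GolayPt → ℤ) : mv oc (x - y) = mv oc x - mv oc y := by
  rw [sub_eq_add_neg, mv_add, mv_neg, sub_eq_add_neg]

/-- orthogonality of the columns -/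
def Gram (oc : ℕ → ℕ) : Prop := ∀ j < 24, ∀ k < 24,
  ∑ i ∈ Finset.range 24, ((dg (oc j) i : ℤ) - 8) * ((dg (oc k) i : ℤ) - 8) = if j = k then 64 else 0

theorem sqNorm_range (x : GolayPt → ℤ) : sqNorm x = ∑ j ∈ Finset.range 24, x (pt j) ^ 2 := by
  unfold sqNorm
  rw [← sum_pts (fun j => x (pt j) ^ 2)]
  simp only [pt_idx]

theorem sqNorm_mv {oc : ℕ → ℕ} (h : Gram oc) (x : GolayPt → ℤ) :
    sqNorm (mv oc x) = 64 * sqNorm x := by
  rw [sqNorm_range, sqNorm_range]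
  have e1 : ∀ i ∈ Finset.range 24, mv oc x (pt i) ^ 2 =
      ∑ j ∈ Finset.range 24, ∑ k ∈ Finset.range 24,
        (((dg (oc j) i : ℤ) - 8) * ((dg (oc k) i : ℤ) - 8)) * (x (pt j) * x (pt k)) := by
    intro i hi
    rw [Finset.mem_range] at hi
    rw [mv, idx_pt hi, sq, Finset.sum_mul_sum]
    apply Finset.sum_congr rfl; intro j _
    apply Finset.sum_congr rfl; intro k _
    ring
  rw [Finset.sum_congr rfl e1, Finset.sum_comm]
  have e2 : ∀ j ∈ Finset.range 24, ∑ i ∈ Finset.range 24, ∑ k ∈ Finset.range 24,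
        (((dg (oc j) i : ℤ) - 8) * ((dg (oc k) i : ℤ) - 8)) * (x (pt j) * x (pt k)) =
      64 * x (pt j) ^ 2 := by
    intro j hj
    rw [Finset.sum_comm]
    have e3 : ∀ k ∈ Finset.range 24, ∑ i ∈ Finset.range 24,
        (((dg (oc j) i : ℤ) - 8) * ((dg (oc k) i : ℤ) - 8)) * (x (pt j) * x (pt k)) =
        (if j = k then 64 else 0) * (x (pt j) * x (pt k)) := by
      intro k hk
      rw [← Finset.sum_mul, h j (Finset.mem_range.mp hj) k (Finset.mem_range.mp hk)]
    rw [Finset.sum_congr rfl e3, Finset.sum_eq_single j]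
    · simp; ring
    · intro k _ hk; simp [Ne.symm hk]
    · intro hh; exact absurd hj hh
  rw [Finset.sum_congr rfl e2, Finset.mul_sum]

/-- the core of the packed check -/
theorem chk_dvd {oc C : ℕ → ℕ} {km X Y : ℕ} (hC : ∀ j < 24, C j = oc j + KW)
    (hoc : ∀ j < 24, oc j < 256 ^ 24) (hY : Y < 256 ^ 24)
    (hkm : km + 64 * ONES = 8 * ∑ j ∈ Finset.range 24, C j + WW)
    (hchk : (∑ j ∈ Finset.range 24, dg X j * C j) % WW = (8 * Y + km) % WW) :
    (WW : ℤ) ∣ PZ (fun i => mv oc (lvec X) (pt i) - 8 * lvec Y (pt i)) 24 := by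
  have h1 : (WW : ℤ) ∣ ((8 * Y + km : ℕ) : ℤ) - ((∑ j ∈ Finset.range 24, dg X j * C j : ℕ) : ℤ) :=
    (Nat.modEq_iff_dvd).mp hchk
  set E : ℤ := ∑ i ∈ Finset.range 24, (256 : ℤ) ^ i with hE
  have hONES : (ONES : ℤ) = E := by rw [ONES_eq]; push_cast; rfl
  have hKW : (KW : ℤ) = WW - 8 * E := by
    have := KW_add
    have h2 : (KW : ℤ) + 8 * ONES = WW := by exact_mod_cast this
    rw [← hONES]; linarith
  set Q : ℕ → ℤ := fun j => ∑ i ∈ Finset.range 24, ((dg (oc j) i : ℤ) - 8) * 256 ^ i with hQ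
  have hCj : ∀ j ∈ Finset.range 24, (C j : ℤ) = Q j + WW := by
    intro j hj
    rw [Finset.mem_range] at hj
    rw [hC j hj]
    push_cast
    rw [hKW]
    have := digit_expand 24 (oc j) (hoc j hj)
    have h3 : (oc j : ℤ) = ∑ i ∈ Finset.range 24, (dg (oc j) i : ℤ) * 256 ^ i := by
      conv_lhs => rw [this]
      push_cast; rfl
    rw [h3, hQ, hE]
    simp only [sub_mul, Finset.sum_sub_distrib, ← Finset.mul_sum]
    ring
  have hYe : (Y : ℤ) = ∑ i ∈ Finset.range 24, (dg Y i : ℤ) * 256 ^ i := by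
    have := digit_expand 24 Y hY
    conv_lhs => rw [this]
    push_cast; rfl
  have hkm' : (km : ℤ) = 8 * ∑ j ∈ Finset.range 24, (C j : ℤ) + WW - 64 * E := by
    have h2 : (km : ℤ) + 64 * ONES = 8 * ∑ j ∈ Finset.range 24, (C j : ℤ) + WW := by
      exact_mod_cast hkm
    rw [← hONES]; linarith
  -- the target
  have hT : PZ (fun i => mv oc (lvec X) (pt i) - 8 * lvec Y (pt i)) 24 =
      ∑ j ∈ Finset.range 24, ((dg X j : ℤ) - 8) * Q j - 8 * (Y : ℤ) + 64 * E := by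
    unfold PZ
    have e1 : ∀ i ∈ Finset.range 24, (mv oc (lvec X) (pt i) - 8 * lvec Y (pt i)) * 256 ^ i =
        ∑ j ∈ Finset.range 24, ((dg X j : ℤ) - 8) * (((dg (oc j) i : ℤ) - 8) * 256 ^ i) -
          8 * ((dg Y i : ℤ) * 256 ^ i) + 64 * 256 ^ i := by
      intro i hi
      rw [Finset.mem_range] at hi
      rw [mv, lvec_apply, idx_pt hi, sub_mul, Finset.sum_mul]
      have : ∀ j ∈ Finset.range 24, ((dg (oc j) i : ℤ) - 8) * lvec X (pt j) * 256 ^ i =
          ((dg X j : ℤ) - 8) * (((dg (oc j) i : ℤ) - 8) * 256 ^ i) := by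
        intro j hj
        rw [Finset.mem_range] at hj
        rw [lvec_apply, idx_pt hj]; ring
      rw [Finset.sum_congr rfl this]
      ring
    rw [Finset.sum_congr rfl e1, Finset.sum_add_distrib, Finset.sum_sub_distrib, Finset.sum_comm,
      ← Finset.mul_sum, ← Finset.mul_sum, ← hYe]
    simp only [← Finset.mul_sum]
    rfl
  have hS : ((∑ j ∈ Finset.range 24, dg X j * C j : ℕ) : ℤ) - 8 * ∑ j ∈ Finset.range 24, (C j : ℤ) =
      ∑ j ∈ Finset.range 24, ((dg X j : ℤ) - 8) * Q j +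
        WW * ∑ j ∈ Finset.range 24, ((dg X j : ℤ) - 8) := by
    push_cast
    rw [Finset.mul_sum, ← Finset.sum_sub_distrib, Finset.mul_sum, ← Finset.sum_add_distrib]
    apply Finset.sum_congr rfl
    intro j hj
    rw [hCj j hj]; ring
  obtain ⟨t, ht⟩ := h1
  refine ⟨∑ j ∈ Finset.range 24, ((dg X j : ℤ) - 8) * 0 - t - ∑ j ∈ Finset.range 24, ((dg X j : ℤ) - 8) + 1 - 0, ?_⟩
  rw [hT]
  push_cast at ht hS ⊢
  rw [hkm'] at ht
  simp only [mul_zero, Finset.sum_const_zero]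
  linear_combination (-1 : ℤ) * ht - hS

theorem abs_le_of_sq_le {a : ℤ} {b : ℤ} (hb : 0 ≤ b) (h : a ^ 2 ≤ b ^ 2) : |a| ≤ b :=
  abs_le_of_sq_le_sq h hb

/-- soundness of the packed check -/
theorem chk_sound {oc C : ℕ → ℕ} {km X Y : ℕ} (hG : Gram oc) (hC : ∀ j < 24, C j = oc j + KW)
    (hoc : ∀ j < 24, oc j < 256 ^ 24) (hY : Y < 256 ^ 24) (hY2 : ∀ j < 24, dg Y j < 32)
    (hkm : km + 64 * ONES = 8 * ∑ j ∈ Finset.range 24, C j + WW)
    (hX : sqNorm (lvec X) ≤ 64)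
    (hchk : (∑ j ∈ Finset.range 24, dg X j * C j) % WW = (8 * Y + km) % WW) :
    mv oc (lvec X) = (8 : ℤ) • lvec Y := by
  have hd := chk_dvd hC hoc hY hkm hchk
  have hb : ∀ i < 24, |mv oc (lvec X) (pt i) - 8 * lvec Y (pt i)| < 256 := by
    intro i hi
    have h1 : mv oc (lvec X) (pt i) ^ 2 ≤ 64 ^ 2 := by
      have := sq_le_sqNorm (mv oc (lvec X)) (pt i)
      rw [sqNorm_mv hG] at this
      linarith
    have h2 := abs_le.mp (abs_le_of_sq_le (by norm_num) h1)
    have h3 := hY2 i hi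
    rw [lvec_apply, idx_pt hi, abs_lt]
    constructor <;> omega
  have h0 : PZ (fun i => mv oc (lvec X) (pt i) - 8 * lvec Y (pt i)) 24 = 0 := by
    have h1 := PZ_abs_lt _ 24 hb
    have h2 := WW_gt
    exact Int.eq_zero_of_abs_lt_dvd hd (by linarith)
  have := PZ_eq_zero _ 24 hb h0
  funext p
  have h3 := this (idx p) (idx_lt p)
  simp only [pt_idx] at h3
  simp only [Pi.smul_apply, smul_eq_mul]
  linarith

end Cfsg.Agent.Lib.Helper8
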