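import Cfsg.Agent.Lib.Helper8.LeechSubF

set_option autoImplicit false

namespace Cfsg.Agent.Lib.Helper8

open Cfsg

theorem x0c_mem : lvec x0c ∈ leechLattice := (baseOK_spec base_x0).2.1
theorem x0c_sq : sqNorm (lvec x0c) = 32 := by rw [(baseOK_spec base_x0).2.2.1]; norm_num
theorem w1c_mem : lvec w1c ∈ leechLattice := (baseOK_spec base_w1).2.1
theorem w1c_sq : sqNorm (lvec w1c) = 32 := by rw [(baseOK_spec base_w1).2.2.1]; norm_num
def x0 : ↥leechLattice := ⟨lvec x0c, x0c_mem⟩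
def w1 : ↥leechLattice := ⟨lvec w1c, w1c_mem⟩

theorem dot_u0_v0 : dotInt (lvec u0c) (lvec v0c) = 24 := by
  rw [dot_val (l := 88) base_u0 base_v0 (by decide +kernel)]; norm_num
theorem dot_u0_x0 : dotInt (lvec u0c) (lvec x0c) = 24 := by
  rw [dot_val (l := 88) base_u0 base_x0 (by decide +kernel)]; norm_num
theorem dot_v0_x0 : dotInt (lvec v0c) (lvec x0c) = 16 := by
  rw [dot_val (l := 80) base_v0 base_x0 (by decide +kernel)]; norm_num

theorem sq_sub_iff {u x : GolayPt → ℤ} (hu : sqNorm u = 48) (hx : sqNorm x = 32) :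
    sqNorm (u - x) = 32 ↔ dotInt u x = 24 := by
  rw [sqNorm_sub, hu, hx]; omega

theorem v0_Dset : lvec v0c ∈ Dset (lvec u0c) :=
  ⟨v0c_mem, v0c_sq, (sq_sub_iff u0c_sq v0c_sq).mpr dot_u0_v0⟩

theorem mcl_base (u v : ↥leechLattice) (hu : sqNorm (u : GolayPt → ℤ) = 48)
    (hv : sqNorm (v : GolayPt → ℤ) = 32 ∧ sqNorm ((u : GolayPt → ℤ) - (v : GolayPt → ℤ)) = 32) :
    ∃ h : Co0, h • u = u0 ∧ h • v = v0 := by
  obtain ⟨g, h1, h2⟩ := decomp_trans u u0 (by rw [hu]; exact u0c_sq.symm)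
    (x := (v : GolayPt → ℤ)) (x' := lvec v0c) ⟨v.2, hv.1, hv.2⟩ v0_Dset
  exact ⟨g, h1, h2⟩

/-- the predicate defining the 275 points -/
def Q275 (u v x : GolayPt → ℤ) : Prop := sqNorm x = 32 ∧ sqNorm (u - x) = 32 ∧ dotInt v x = 16

theorem Q275_smul (h : Co0) {u v u' v' : ↥leechLattice} (hu : h • u = u') (hv : h • v = v')
    (x : ↥leechLattice) : Q275 u v x ↔ Q275 u' v' ((h • x : ↥leechLattice) : GolayPt → ℤ) := by
  unfold Q275
  rw [co_norm, co_sqsub h hu, co_dot' h hv]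

theorem Q275_base {x : GolayPt → ℤ} : Q275 (lvec u0c) (lvec v0c) x ↔
    sqNorm x = 32 ∧ dotInt (lvec u0c) x = 24 ∧ dotInt (lvec v0c) x = 16 := by
  unfold Q275
  constructor
  · rintro ⟨h1, h2, h3⟩; exact ⟨h1, (sq_sub_iff u0c_sq h1).mp h2, h3⟩
  · rintro ⟨h1, h2, h3⟩; exact ⟨h1, (sq_sub_iff u0c_sq h1).mpr h2, h3⟩

theorem Q275_x0 : Q275 (lvec u0c) (lvec v0c) (lvec x0c) :=
  Q275_base.mpr ⟨x0c_sq, dot_u0_x0, dot_v0_x0⟩

theorem mcl_fix {g : Co0} (hg : g ∈ fixS [u0c, v0c, w1c]) : g • u0 = u0 ∧ g • v0 = v0 ∧ g • w1 = w1 :=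
  ⟨fixS_apply hg (by simp) u0c_mem, fixS_apply hg (by simp) v0c_mem, fixS_apply hg (by simp) w1c_mem⟩

theorem mcl275_trans_base (x y : ↥leechLattice) (hx : Q275 (lvec u0c) (lvec v0c) x)
    (hy : Q275 (lvec u0c) (lvec v0c) y) : ∃ g : Co0, g • u0 = u0 ∧ g • v0 = v0 ∧ g • x = y := by
  rw [Q275_base] at hx hy
  obtain ⟨g, hg, _, _, e⟩ := mcl275_conn x.2 hx.1 hx.2.1 hx.2.2 y.2 hy.1 hy.2.1 hy.2.2
  exact ⟨g, (mcl_fix hg).1, (mcl_fix hg).2.1, e⟩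

theorem mcl275_gen (u v : ↥leechLattice) (hu : sqNorm (u : GolayPt → ℤ) = 48)
    (hv : sqNorm (v : GolayPt → ℤ) = 32 ∧ sqNorm ((u : GolayPt → ℤ) - (v : GolayPt → ℤ)) = 32) :
    {x : ↥leechLattice | Q275 u v x}.ncard = 275 ∧
      ∀ x x' : ↥leechLattice, Q275 u v x → Q275 u v x' → ∃ g : Co0, g • u = u ∧ g • v = v ∧ g • x = x' := by
  obtain ⟨h, h1, h2⟩ := mcl_base u v hu hv
  constructor
  · rw [ncard_transport h _ (fun x => Q275 (lvec u0c) (lvec v0c) x) (fun x => Q275_smul h h1 h2 x),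
      ncard_val (fun x => Q275 (lvec u0c) (lvec v0c) x), ← mcl275_card]
    congr 1
    ext x
    simp only [Set.mem_ofPred_eq, Q275_base]
  · intro x x' hx hx'
    obtain ⟨g0, e1, e2, e3⟩ := mcl275_trans_base (h • x) (h • x') ((Q275_smul h h1 h2 x).mp hx)
      ((Q275_smul h h1 h2 x').mp hx')
    exact ⟨h⁻¹ * g0 * h, conj_fix h1 e1, conj_fix h2 e2, conj_map e3⟩

theorem u43_base (u v x : ↥leechLattice) (hu : sqNorm (u : GolayPt → ℤ) = 48)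
    (hv : sqNorm (v : GolayPt → ℤ) = 32 ∧ sqNorm ((u : GolayPt → ℤ) - (v : GolayPt → ℤ)) = 32)
    (hx : Q275 u v x) : ∃ h : Co0, h • u = u0 ∧ h • v = v0 ∧ h • x = x0 := by
  obtain ⟨h, h1, h2⟩ := mcl_base u v hu hv
  obtain ⟨g0, e1, e2, e3⟩ := mcl275_trans_base (h • x) x0 ((Q275_smul h h1 h2 x).mp hx) Q275_x0
  exact ⟨g0 * h, by rw [mul_smul, h1, e1], by rw [mul_smul, h2, e2], by rw [mul_smul, e3]⟩

theorem u43_fix {g : Co0} (hg : g ∈ fixS [u0c, v0c, w1c, x0c]) :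
    g • u0 = u0 ∧ g • v0 = v0 ∧ g • x0 = x0 :=
  ⟨fixS_apply hg (by simp) u0c_mem, fixS_apply hg (by simp) v0c_mem, fixS_apply hg (by simp) x0c_mem⟩

theorem u43_gen (u v x : ↥leechLattice) (hu : sqNorm (u : GolayPt → ℤ) = 48)
    (hv : sqNorm (v : GolayPt → ℤ) = 32 ∧ sqNorm ((u : GolayPt → ℤ) - (v : GolayPt → ℤ)) = 32)
    (hx : Q275 u v x) :
    {y : ↥leechLattice | Q275 u v y ∧ dotInt (x : GolayPt → ℤ) (y : GolayPt → ℤ) = 8}.ncard = 112 ∧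
    {y : ↥leechLattice | Q275 u v y ∧ dotInt (x : GolayPt → ℤ) (y : GolayPt → ℤ) = 16}.ncard = 162 ∧
    ∀ y y' : ↥leechLattice, Q275 u v y → Q275 u v y' → y ≠ x → y' ≠ x →
      dotInt (x : GolayPt → ℤ) (y : GolayPt → ℤ) = dotInt (x : GolayPt → ℤ) (y' : GolayPt → ℤ) →
      ∃ g : Co0, g • u = u ∧ g • v = v ∧ g • x = x ∧ g • y = y' := by
  obtain ⟨h, h1, h2, h3⟩ := u43_base u v x hu hv hx
  have tr : ∀ t : ℤ, ∀ y : ↥leechLattice,
      (Q275 u v y ∧ dotInt (x : GolayPt → ℤ) (y : GolayPt → ℤ) = t) ↔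
      (Q275 (lvec u0c) (lvec v0c) ((h • y : ↥leechLattice) : GolayPt → ℤ) ∧
        dotInt (lvec x0c) ((h • y : ↥leechLattice) : GolayPt → ℤ) = t) := by
    intro t y
    rw [Q275_smul h h1 h2 y]
    have := co_dot' h (b := y) h3
    rw [← this]; rfl
  refine ⟨?_, ?_, ?_⟩
  · rw [ncard_transport h _ (fun y => Q275 (lvec u0c) (lvec v0c) y ∧ dotInt (lvec x0c) y = 8) (tr 8),
      ncard_val (fun y => Q275 (lvec u0c) (lvec v0c) y ∧ dotInt (lvec x0c) y = 8), ← u43_card8]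
    congr 1
    ext y
    simp only [Set.mem_ofPred_eq, Q275_base, and_assoc]
  · rw [ncard_transport h _ (fun y => Q275 (lvec u0c) (lvec v0c) y ∧ dotInt (lvec x0c) y = 16) (tr 16),
      ncard_val (fun y => Q275 (lvec u0c) (lvec v0c) y ∧ dotInt (lvec x0c) y = 16), ← u43_card16]
    congr 1
    ext y
    simp only [Set.mem_ofPred_eq, Q275_base, and_assoc]
  · intro y y' hy hy' hne hne' hd
    obtain ⟨q1, d1⟩ := (tr _ y).mp ⟨hy, rfl⟩
    obtain ⟨q2, d2⟩ := (tr _ y').mp ⟨hy', rfl⟩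
    rw [Q275_base] at q1 q2
    have hcase : dotInt (x : GolayPt → ℤ) (y : GolayPt → ℤ) = 8 ∨
        dotInt (x : GolayPt → ℤ) (y : GolayPt → ℤ) = 16 := by
      rcases u43_cov (h • y).2 q1.1 q1.2.1 q1.2.2 with c | c | c
      · left; rw [← d1]; exact c
      · right; rw [← d1]; exact c
      · exfalso
        have e := eq_of_dot_eq_norm x0c_sq q1.1 c
        apply hne
        have e2 : h • y = h • x := by rw [h3]; exact Subtype.ext e.symm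
        exact MulAction.injective h e2
    obtain ⟨g0, hg0, _, _, e⟩ := u43_conn _ hcase (h • y).2 q1.1 q1.2.1 q1.2.2 d1
      (h • y').2 q2.1 q2.2.1 q2.2.2 (by rw [d2, hd])
    have e' : g0 • (h • y) = h • y' := e
    exact ⟨h⁻¹ * g0 * h, conj_fix h1 (u43_fix hg0).1, conj_fix h2 (u43_fix hg0).2.1,
      conj_fix h3 (u43_fix hg0).2.2, conj_map e'⟩

end Cfsg.Agent.Lib.Helper8
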