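import Cfsg.Agent.Lib.Helper8.LeechMcL

set_option autoImplicit false

namespace Cfsg.Agent.Lib.Helper8

open Cfsg

theorem y0c_mem : lvec y0c ∈ leechLattice := (baseOK_spec base_y0).2.1
theorem y0c_sq : sqNorm (lvec y0c) = 32 := by rw [(baseOK_spec base_y0).2.2.1]; norm_num
def y0 : ↥leechLattice := ⟨lvec y0c, y0c_mem⟩

theorem u0_digits : ∀ j < 24, dg u0c j + 8 = dg v0c j + dg w1c j := by decide +kernel

theorem u0_eq : lvec u0c = lvec v0c + lvec w1c := by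
  funext p
  rw [Pi.add_apply, lvec_apply, lvec_apply, lvec_apply]
  have := u0_digits (idx p) (idx_lt p)
  omega

theorem dot_v0_w1 : dotInt (lvec v0c) (lvec w1c) = -8 := by
  rw [dot_val (l := 56) base_v0 base_w1 (by decide +kernel)]; norm_num
theorem dot_v0_y0 : dotInt (lvec v0c) (lvec y0c) = 0 := by
  rw [dot_val (l := 64) base_v0 base_y0 (by decide +kernel)]; norm_num
theorem dot_w1_y0 : dotInt (lvec w1c) (lvec y0c) = 16 := by
  rw [dot_val (l := 80) base_w1 base_y0 (by decide +kernel)]; norm_num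

theorem mcl2025_conn {x y : GolayPt → ℤ} (hx : x ∈ leechLattice) (hxn : sqNorm x = 32)
    (hx0 : dotInt (lvec u0c) x = 16) (hx1 : dotInt (lvec v0c) x = 0)
    (hy : y ∈ leechLattice) (hyn : sqNorm y = 32)
    (hy0 : dotInt (lvec u0c) y = 16) (hy1 : dotInt (lvec v0c) y = 0) :
    Conn [u0c, v0c, w1c] x y :=
  SP.conn' mclgens_ok S3le kMcPRL_ok kMcPb_all (fun x => dotInt (lvec v0c) x = 0) 16 rfl
    (fun i _ h => by rw [dot_v0] at h; omega) hx hxn hx0 hx1 hy hyn hy0 hy1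

theorem mcl2025_card : {x : GolayPt → ℤ | x ∈ leechLattice ∧ sqNorm x = 32 ∧
    dotInt (lvec u0c) x = 16 ∧ dotInt (lvec v0c) x = 0}.ncard = 2025 := by
  rw [SP.ncard_class (by norm_num) (fun x => dotInt (lvec v0c) x = 0) lab2 16
    (fun i _ => by rw [dot_v0]; omega), sP2_all]
  decide +kernel

theorem labMa_iff (i : ℕ) (hi : i < 11178) (t : ℤ) (s : ℕ) (hs : s ≠ 0) (hts : t = (s : ℤ) - 64) :
    (dotInt (lvec v0c) (lvec (BP i)) = 0 ∧ dotInt (lvec y0c) (lvec (BP i)) = t) ↔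
      labMa (BP i) = s := by
  unfold labMa
  rw [lab2L_eq_iff hs, dot_v0, dotD SP base_y0 i hi]
  unfold labY
  omega

theorem m22a_conn (t : ℤ) (ht : t = 0 ∨ t = 8 ∨ t = 16) {x y : GolayPt → ℤ}
    (hx : x ∈ leechLattice) (hxn : sqNorm x = 32)
    (hx0 : dotInt (lvec u0c) x = 16) (hx1 : dotInt (lvec v0c) x = 0) (hx2 : dotInt (lvec y0c) x = t)
    (hy : y ∈ leechLattice) (hyn : sqNorm y = 32)
    (hy0 : dotInt (lvec u0c) y = 16) (hy1 : dotInt (lvec v0c) y = 0) (hy2 : dotInt (lvec y0c) y = t) :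
    Conn [u0c, v0c, w1c, y0c] x y := by
  rcases ht with rfl | rfl | rfl
  · exact SP.conn' m22agens_ok S3y kMaRL_ok kMab_all
      (fun x => dotInt (lvec v0c) x = 0 ∧ dotInt (lvec y0c) x = 0) 64 rfl
      (fun i hi h => (labMa_iff i hi 0 64 (by norm_num) (by norm_num)).mp h)
      hx hxn hx0 ⟨hx1, hx2⟩ hy hyn hy0 ⟨hy1, hy2⟩
  · exact SP.conn' m22agens_ok S3y kMaRL_ok kMab_all
      (fun x => dotInt (lvec v0c) x = 0 ∧ dotInt (lvec y0c) x = 8) 72 rfl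
      (fun i hi h => (labMa_iff i hi 8 72 (by norm_num) (by norm_num)).mp h)
      hx hxn hx0 ⟨hx1, hx2⟩ hy hyn hy0 ⟨hy1, hy2⟩
  · exact SP.conn' m22agens_ok S3y kMaRL_ok kMab_all
      (fun x => dotInt (lvec v0c) x = 0 ∧ dotInt (lvec y0c) x = 16) 80 rfl
      (fun i hi h => (labMa_iff i hi 16 80 (by norm_num) (by norm_num)).mp h)
      hx hxn hx0 ⟨hx1, hx2⟩ hy hyn hy0 ⟨hy1, hy2⟩

theorem m22a_card (t : ℤ) (s : ℕ) (hs : s ≠ 0) (hts : t = (s : ℤ) - 64) :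
    {x : GolayPt → ℤ | x ∈ leechLattice ∧ sqNorm x = 32 ∧
    dotInt (lvec u0c) x = 16 ∧ dotInt (lvec v0c) x = 0 ∧ dotInt (lvec y0c) x = t}.ncard =
      (∑ i ∈ Finset.range 11178, (2 ^ 20) ^ labMa (BP i)) / (2 ^ 20) ^ s % 2 ^ 20 :=
  SP.ncard_class (by norm_num)
    (fun x => dotInt (lvec v0c) x = 0 ∧ dotInt (lvec y0c) x = t) labMa s
    (fun i hi => labMa_iff i hi t s hs hts)

theorem m22a_c64 : (∑ i ∈ Finset.range 11178, (2 ^ 20) ^ labMa (BP i)) / (2 ^ 20) ^ 64 % 2 ^ 20 = 330 := by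
  rw [sPMa_all]; decide +kernel
theorem m22a_c72 : (∑ i ∈ Finset.range 11178, (2 ^ 20) ^ labMa (BP i)) / (2 ^ 20) ^ 72 % 2 ^ 20 = 1232 := by
  rw [sPMa_all]; decide +kernel
theorem m22a_c80 : (∑ i ∈ Finset.range 11178, (2 ^ 20) ^ labMa (BP i)) / (2 ^ 20) ^ 80 % 2 ^ 20 = 462 := by
  rw [sPMa_all]; decide +kernel

/-- the predicate defining the 2025 points -/
def Q2025 (v w x : GolayPt → ℤ) : Prop := sqNorm x = 32 ∧ dotInt v x = 0 ∧ dotInt w x = 16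

theorem Q2025_smul (h : Co0) {v w v' w' : ↥leechLattice} (hv : h • v = v') (hw : h • w = w')
    (x : ↥leechLattice) : Q2025 v w x ↔ Q2025 v' w' ((h • x : ↥leechLattice) : GolayPt → ℤ) := by
  unfold Q2025
  rw [co_norm, co_dot' h hv, co_dot' h hw]

theorem Q2025_base {x : GolayPt → ℤ} : Q2025 (lvec v0c) (lvec w1c) x ↔
    sqNorm x = 32 ∧ dotInt (lvec u0c) x = 16 ∧ dotInt (lvec v0c) x = 0 := by
  unfold Q2025
  rw [u0_eq, dotInt_add_left]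
  constructor
  · rintro ⟨h1, h2, h3⟩; exact ⟨h1, by omega, h2⟩
  · rintro ⟨h1, h2, h3⟩; exact ⟨h1, h3, by omega⟩

theorem Q2025_y0 : Q2025 (lvec v0c) (lvec w1c) (lvec y0c) := ⟨y0c_sq, dot_v0_y0, dot_w1_y0⟩

theorem mcl_base2 (v w : ↥leechLattice) (hv : sqNorm (v : GolayPt → ℤ) = 32)
    (hw : sqNorm (w : GolayPt → ℤ) = 32) (hvw : dotInt (v : GolayPt → ℤ) (w : GolayPt → ℤ) = -8) :
    ∃ h : Co0, h • v = v0 ∧ h • w = w1 :=
  ordered_pair_trans v w v0 w1 hv hw v0c_sq w1c_sq (by rw [hvw]; exact dot_v0_w1.symm)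

theorem mcl2025_trans_base (x y : ↥leechLattice) (hx : Q2025 (lvec v0c) (lvec w1c) x)
    (hy : Q2025 (lvec v0c) (lvec w1c) y) : ∃ g : Co0, g • v0 = v0 ∧ g • w1 = w1 ∧ g • x = y := by
  rw [Q2025_base] at hx hy
  obtain ⟨g, hg, _, _, e⟩ := mcl2025_conn x.2 hx.1 hx.2.1 hx.2.2 y.2 hy.1 hy.2.1 hy.2.2
  exact ⟨g, (mcl_fix hg).2.1, (mcl_fix hg).2.2, e⟩

theorem mcl2025_gen (v w : ↥leechLattice) (hv : sqNorm (v : GolayPt → ℤ) = 32)
    (hw : sqNorm (w : GolayPt → ℤ) = 32) (hvw : dotInt (v : GolayPt → ℤ) (w : GolayPt → ℤ) = -8) :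
    {x : ↥leechLattice | Q2025 v w x}.ncard = 2025 ∧
      ∀ x x' : ↥leechLattice, Q2025 v w x → Q2025 v w x' →
        ∃ g : Co0, g • v = v ∧ g • w = w ∧ g • x = x' := by
  obtain ⟨h, h1, h2⟩ := mcl_base2 v w hv hw hvw
  constructor
  · rw [ncard_transport h _ (fun x => Q2025 (lvec v0c) (lvec w1c) x) (fun x => Q2025_smul h h1 h2 x),
      ncard_val (fun x => Q2025 (lvec v0c) (lvec w1c) x), ← mcl2025_card]
    congr 1
    ext x
    simp only [Set.mem_ofPred_eq, Q2025_base]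
  · intro x x' hx hx'
    obtain ⟨g0, e1, e2, e3⟩ := mcl2025_trans_base (h • x) (h • x') ((Q2025_smul h h1 h2 x).mp hx)
      ((Q2025_smul h h1 h2 x').mp hx')
    exact ⟨h⁻¹ * g0 * h, conj_fix h1 e1, conj_fix h2 e2, conj_map e3⟩

theorem m22a_fix {g : Co0} (hg : g ∈ fixS [u0c, v0c, w1c, y0c]) :
    g • v0 = v0 ∧ g • w1 = w1 ∧ g • y0 = y0 :=
  ⟨fixS_apply hg (by simp) v0c_mem, fixS_apply hg (by simp) w1c_mem, fixS_apply hg (by simp) y0c_mem⟩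

theorem m22a_gen (v w x : ↥leechLattice) (hv : sqNorm (v : GolayPt → ℤ) = 32)
    (hw : sqNorm (w : GolayPt → ℤ) = 32) (hvw : dotInt (v : GolayPt → ℤ) (w : GolayPt → ℤ) = -8)
    (hx : Q2025 v w x) (t : ℤ) (s : ℕ) (hts : t = (s : ℤ) - 64) (ht : t = 0 ∨ t = 8 ∨ t = 16) :
    {y : ↥leechLattice | Q2025 v w y ∧ dotInt (x : GolayPt → ℤ) (y : GolayPt → ℤ) = t}.ncard =
      (∑ i ∈ Finset.range 11178, (2 ^ 20) ^ labMa (BP i)) / (2 ^ 20) ^ s % 2 ^ 20 ∧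
    ∀ y y' : ↥leechLattice, Q2025 v w y → Q2025 v w y' →
      dotInt (x : GolayPt → ℤ) (y : GolayPt → ℤ) = t → dotInt (x : GolayPt → ℤ) (y' : GolayPt → ℤ) = t →
      ∃ g : Co0, g • v = v ∧ g • w = w ∧ g • x = x ∧ g • y = y' := by
  obtain ⟨h0, a1, a2⟩ := mcl_base2 v w hv hw hvw
  obtain ⟨g1, b1, b2, b3⟩ := mcl2025_trans_base (h0 • x) y0 ((Q2025_smul h0 a1 a2 x).mp hx) Q2025_y0
  obtain ⟨h, h1, h2, h3⟩ : ∃ h : Co0, h • v = v0 ∧ h • w = w1 ∧ h • x = y0 :=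
    ⟨g1 * h0, by rw [mul_smul, a1, b1], by rw [mul_smul, a2, b2], by rw [mul_smul, b3]⟩
  have tr : ∀ y : ↥leechLattice,
      (Q2025 v w y ∧ dotInt (x : GolayPt → ℤ) (y : GolayPt → ℤ) = t) ↔
      (Q2025 (lvec v0c) (lvec w1c) ((h • y : ↥leechLattice) : GolayPt → ℤ) ∧
        dotInt (lvec y0c) ((h • y : ↥leechLattice) : GolayPt → ℤ) = t) := by
    intro y
    rw [Q2025_smul h h1 h2 y]
    have := co_dot' h (b := y) h3
    rw [← this]; rfl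
  constructor
  · rw [ncard_transport h _ (fun y => Q2025 (lvec v0c) (lvec w1c) y ∧ dotInt (lvec y0c) y = t) tr,
      ncard_val (fun y => Q2025 (lvec v0c) (lvec w1c) y ∧ dotInt (lvec y0c) y = t),
      ← m22a_card t s (by omega) hts]
    congr 1
    ext y
    simp only [Set.mem_ofPred_eq, Q2025_base, and_assoc]
  · intro y y' hy hy' hd hd'
    obtain ⟨q1, d1⟩ := (tr y).mp ⟨hy, hd⟩
    obtain ⟨q2, d2⟩ := (tr y').mp ⟨hy', hd'⟩
    rw [Q2025_base] at q1 q2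
    obtain ⟨g0, hg0, _, _, e⟩ := m22a_conn t ht (h • y).2 q1.1 q1.2.1 q1.2.2 d1
      (h • y').2 q2.1 q2.2.1 q2.2.2 d2
    have e' : g0 • (h • y) = h • y' := e
    exact ⟨h⁻¹ * g0 * h, conj_fix h1 (m22a_fix hg0).1, conj_fix h2 (m22a_fix hg0).2.1,
      conj_fix h3 (m22a_fix hg0).2.2, conj_map e'⟩

/-- orbit of the three-vector stabiliser -/
theorem m22a_orbit (v w x : ↥leechLattice) (hv : sqNorm (v : GolayPt → ℤ) = 32)
    (hw : sqNorm (w : GolayPt → ℤ) = 32) (hvw : dotInt (v : GolayPt → ℤ) (w : GolayPt → ℤ) = -8)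
    (hx : Q2025 v w x) (t : ℤ) (s n : ℕ) (hts : t = (s : ℤ) - 64) (ht : t = 0 ∨ t = 8 ∨ t = 16)
    (hn : (∑ i ∈ Finset.range 11178, (2 ^ 20) ^ labMa (BP i)) / (2 ^ 20) ^ s % 2 ^ 20 = n)
    (hpos : 0 < n) :
    ∃ y : ↥leechLattice, Q2025 v w y ∧
      (MulAction.orbit ↥(MulAction.stabilizer Co0 v ⊓ MulAction.stabilizer Co0 w ⊓
        MulAction.stabilizer Co0 x) y).ncard = n := by
  obtain ⟨c, tr⟩ := m22a_gen v w x hv hw hvw hx t s hts ht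
  rw [hn] at c
  obtain ⟨y, hy⟩ : {y : ↥leechLattice | Q2025 v w y ∧
      dotInt (x : GolayPt → ℤ) (y : GolayPt → ℤ) = t}.Nonempty := by
    apply Set.nonempty_of_ncard_ne_zero; omega
  refine ⟨y, hy.1, ?_⟩
  rw [orbit_eq_of_trans _ {y : ↥leechLattice | Q2025 v w y ∧
      dotInt (x : GolayPt → ℤ) (y : GolayPt → ℤ) = t} y hy, c]
  · intro g hg z hz
    rw [Subgroup.mem_inf, Subgroup.mem_inf, MulAction.mem_stabilizer_iff,
      MulAction.mem_stabilizer_iff, MulAction.mem_stabilizer_iff] at hg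
    exact ⟨(Q2025_smul g hg.1.1 hg.1.2 z).mp hz.1, by rw [co_dot' g hg.2]; exact hz.2⟩
  · intro z hz
    obtain ⟨g, g1, g2, g3, g4⟩ := tr y z hy.1 hz.1 hy.2 hz.2
    refine ⟨g, ?_, g4⟩
    rw [Subgroup.mem_inf, Subgroup.mem_inf, MulAction.mem_stabilizer_iff,
      MulAction.mem_stabilizer_iff, MulAction.mem_stabilizer_iff]
    exact ⟨⟨g1, g2⟩, g3⟩

end Cfsg.Agent.Lib.Helper8
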