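import Cfsg.Agent.Lib.Helper8.LeechCross
import Cfsg.Agent.Lib.Helper8.Leech6

set_option autoImplicit false

namespace Cfsg.Agent.Lib.Helper8

open Cfsg

def dbl : (GolayPt → ℤ) →+ (GolayPt → ℤ) := nsmulAddMonoidHom 2

theorem dbl_apply (x : GolayPt → ℤ) : dbl x = 2 • x := rfl

def red2 : (GolayPt → ℤ) →+ (GolayPt → ZMod 2) := (Int.castAddHom (ZMod 2)).compLeft GolayPt

theorem red2_surj : Function.Surjective red2 := by
  intro y
  refine ⟨fun i => ((y i).val : ℤ), ?_⟩
  funext i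
  show (((y i).val : ℤ) : ZMod 2) = y i
  simp

theorem ker_red2 : red2.ker = dbl.range := by
  ext x
  rw [AddMonoidHom.mem_ker, AddMonoidHom.mem_range]
  constructor
  · intro h
    have h1 : ∀ i, (2 : ℤ) ∣ x i := by
      intro i
      have := congrFun h i
      exact (ZMod.intCast_zmod_eq_zero_iff_dvd (x i) 2).mp this
    choose z hz using h1
    refine ⟨z, ?_⟩
    funext i
    rw [dbl_apply, Pi.smul_apply, hz i]; simp
  · rintro ⟨z, rfl⟩
    funext i
    show ((dbl z i : ℤ) : ZMod 2) = 0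
    rw [dbl_apply, Pi.smul_apply]
    apply (ZMod.intCast_zmod_eq_zero_iff_dvd _ 2).mpr
    simp

theorem dbl_range_index : dbl.range.index = 2 ^ 24 := by
  rw [← ker_red2, AddSubgroup.index_ker, AddMonoidHom.range_eq_top.mpr red2_surj]
  rw [Nat.card_congr (AddSubgroup.topEquiv (G := GolayPt → ZMod 2)).toEquiv, Nat.card_eq_fintype_card,
    Fintype.card_fun, ZMod.card, ← Finset.card_univ (α := GolayPt), card_pts]

theorem dbl_ker : dbl.ker = ⊥ := by
  rw [AddMonoidHom.ker_eq_bot_iff]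
  intro a b h
  exact two_smul_inj h

/-- the sublattice `2Λ` -/
def twoL : AddSubgroup (GolayPt → ℤ) := leechLattice.map dbl

theorem mem_twoL {x : GolayPt → ℤ} : x ∈ twoL ↔ ∃ z ∈ leechLattice, x = 2 • z := by
  unfold twoL
  rw [AddSubgroup.mem_map]
  constructor
  · rintro ⟨z, hz, rfl⟩; exact ⟨z, hz, rfl⟩
  · rintro ⟨z, hz, rfl⟩; exact ⟨z, hz, rfl⟩

theorem twoL_le : twoL ≤ leechLattice := by
  intro x hx
  obtain ⟨z, hz, rfl⟩ := mem_twoL.mp hx
  exact leechLattice.nsmul_mem hz 2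

theorem twoL_relIndex : (twoL.addSubgroupOf leechLattice).index = 2 ^ 24 := by
  have h := AddSubgroup.relIndex_mul_index twoL_le
  have h2 : twoL.index = 2 ^ 36 * 2 ^ 24 := by
    unfold twoL
    rw [AddSubgroup.index_map, dbl_ker, sup_bot_eq, leech_index, dbl_range_index]
  rw [leech_index, h2] at h
  have : twoL.relIndex leechLattice * 2 ^ 36 = 2 ^ 24 * 2 ^ 36 := by rw [h]; ring
  exact Nat.eq_of_mul_eq_mul_right (by norm_num) this

abbrev Qt := ↥leechLattice ⧸ twoL.addSubgroupOf leechLattice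

open Classical in
noncomputable def qf (x : GolayPt → ℤ) : Qt :=
  if h : x ∈ leechLattice then QuotientAddGroup.mk (⟨x, h⟩ : ↥leechLattice) else 0

theorem qf_eq {x y : GolayPt → ℤ} (hx : x ∈ leechLattice) (hy : y ∈ leechLattice) :
    qf x = qf y ↔ ∃ z ∈ leechLattice, x - y = 2 • z := by
  unfold qf
  rw [dif_pos hx, dif_pos hy, QuotientAddGroup.eq, AddSubgroup.mem_addSubgroupOf, mem_twoL]
  constructor
  · rintro ⟨z, hz, e⟩
    refine ⟨-z, leechLattice.neg_mem hz, ?_⟩
    have e' : -x + y = 2 • z := e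
    rw [smul_neg, ← e']; abel
  · rintro ⟨z, hz, e⟩
    refine ⟨-z, leechLattice.neg_mem hz, ?_⟩
    show -x + y = 2 • -z
    rw [smul_neg, ← e]; abel

open Classical in
theorem img_card (n : ℕ) (hn : n ≤ 64) (k : ℕ)
    (hk : ∀ x ∈ XF n hn, ((XF n hn).filter (fun y => qf y = qf x)).card = k) :
    (XF n hn).card = k * ((XF n hn).image qf).card := by
  rw [Finset.card_eq_sum_card_image qf (XF n hn)]
  rw [Finset.sum_const_nat (m := k), mul_comm]
  intro b hb
  obtain ⟨x, hx, rfl⟩ := Finset.mem_image.mp hb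
  exact hk x hx

theorem ne_neg_of_norm {x : GolayPt → ℤ} {n : ℤ} (hn : sqNorm x = n) (h0 : n ≠ 0) : x ≠ -x := by
  intro h
  apply h0
  have : 2 • x = 2 • (0 : GolayPt → ℤ) := by
    rw [two_smul, smul_zero]
    nth_rewrite 1 [h]; exact neg_add_cancel x
  rw [← hn, two_smul_inj this]
  simp [sqNorm]

open Classical in
theorem fiber2 (n : ℕ) (hn : n ≤ 64) (h0 : n ≠ 0) (h64 : n ≠ 64) (x : GolayPt → ℤ) (hx : x ∈ XF n hn) :
    ((XF n hn).filter (fun y => qf y = qf x)).card = 2 := by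
  rw [mem_XF] at hx
  have e : (XF n hn).filter (fun y => qf y = qf x) = {x, -x} := by
    ext y
    rw [Finset.mem_filter, mem_XF, Finset.mem_insert, Finset.mem_singleton]
    constructor
    · rintro ⟨⟨h1, h2⟩, h3⟩
      by_cases hxy : y = x
      · left; exact hxy
      right
      rcases cong_two h1 hx.1 hxy (by rw [h2]; exact_mod_cast hn) (by rw [hx.2]; exact_mod_cast hn)
        ((qf_eq h1 hx.1).mp h3) with h | ⟨h, _, _⟩
      · exact h
      · exfalso; rw [h2] at h; exact h64 (by exact_mod_cast h)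
    · rintro (rfl | rfl)
      · exact ⟨hx, rfl⟩
      · refine ⟨⟨leechLattice.neg_mem hx.1, by rw [sqNorm_neg]; exact hx.2⟩, ?_⟩
        rw [qf_eq (leechLattice.neg_mem hx.1) hx.1]
        exact ⟨-x, leechLattice.neg_mem hx.1, by rw [two_smul]; abel⟩
  rw [e, Finset.card_pair]
  exact ne_neg_of_norm hx.2 (by exact_mod_cast h0)

open Classical in
theorem fiber48 (x : GolayPt → ℤ) (hx : x ∈ XF 64 (le_refl 64)) :
    ((XF 64 (le_refl 64)).filter (fun y => qf y = qf x)).card = 48 := by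
  rw [mem_XF] at hx
  have hx2 : sqNorm x = 64 := by rw [hx.2]; norm_num
  rw [← cross_card x hx.1 hx2, ← Set.ncard_coe_finset]
  congr 1
  ext y
  rw [Finset.mem_coe, Finset.mem_filter, mem_XF]
  simp only [cross, Set.mem_ofPred_eq]
  constructor
  · rintro ⟨⟨h1, h2⟩, h3⟩
    exact ⟨h1, by rw [h2, hx.2], (qf_eq hx.1 h1).mp h3.symm⟩
  · rintro ⟨h1, h2, h3⟩
    exact ⟨⟨h1, by rw [h2, hx.2]⟩, ((qf_eq hx.1 h1).mpr h3).symm⟩

theorem cnt0 : cntN fullL 0 = 1 := by decide +kernel

open Classical in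
theorem img_disj (n m : ℕ) (hn : n ≤ 64) (hm : m ≤ 64) (hnm : n ≠ m) :
    Disjoint ((XF n hn).image qf) ((XF m hm).image qf) := by
  rw [Finset.disjoint_left]
  intro b hb hb'
  obtain ⟨x, hx, rfl⟩ := Finset.mem_image.mp hb
  obtain ⟨y, hy, e⟩ := Finset.mem_image.mp hb'
  rw [mem_XF] at hx hy
  have hxy : x ≠ y := by
    rintro rfl
    apply hnm
    have := hx.2.symm.trans hy.2
    exact_mod_cast this
  rcases cong_two hx.1 hy.1 hxy (by rw [hx.2]; exact_mod_cast hn) (by rw [hy.2]; exact_mod_cast hm)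
    ((qf_eq hx.1 hy.1).mp e.symm) with h | ⟨h1, h2, _⟩
  · apply hnm
    have h3 := hx.2
    rw [h, sqNorm_neg, hy.2] at h3
    exact_mod_cast h3.symm
  · apply hnm
    rw [hx.2] at h1
    rw [hy.2] at h2
    have : (n : ℤ) = m := by rw [h1, h2]
    exact_mod_cast this

/-- every class modulo `2Λ` contains a vector of norm at most 64 -/
theorem short_rep (x : GolayPt → ℤ) (hx : x ∈ leechLattice) :
    ∃ y ∈ leechLattice, sqNorm y ≤ 64 ∧ ∃ z ∈ leechLattice, x - y = 2 • z := by
  classical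
  haveI : (twoL.addSubgroupOf leechLattice).FiniteIndex := ⟨by rw [twoL_relIndex]; norm_num⟩
  haveI : Finite Qt := AddSubgroup.finite_quotient_of_finiteIndex
  haveI : Fintype Qt := Fintype.ofFinite Qt
  have hcard : Fintype.card Qt = 2 ^ 24 := by
    rw [← Nat.card_eq_fintype_card, ← AddSubgroup.index_eq_card, twoL_relIndex]
  have c0 : ((XF 0 (by norm_num)).image qf).card = 1 := by
    have h1 : (XF 0 (by norm_num)).card = 1 := by rw [card_XF, cnt0]
    obtain ⟨a, ha⟩ := Finset.card_eq_one.mp h1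
    rw [ha, Finset.image_singleton, Finset.card_singleton]
  have c2 := img_card 32 (by norm_num) 2 (fiber2 32 (by norm_num) (by norm_num) (by norm_num))
  have c3 := img_card 48 (by norm_num) 2 (fiber2 48 (by norm_num) (by norm_num) (by norm_num))
  have c4 := img_card 64 (le_refl 64) 48 fiber48
  rw [card_XF, cnt32] at c2
  rw [card_XF, cnt48] at c3
  rw [card_XF, cnt64] at c4
  set I0 := (XF 0 (by norm_num)).image qf
  set I2 := (XF 32 (by norm_num)).image qf
  set I3 := (XF 48 (by norm_num)).image qf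
  set I4 := (XF 64 (le_refl 64)).image qf
  have d1 : Disjoint I0 I2 := img_disj _ _ _ _ (by norm_num)
  have d2 : Disjoint (I0 ∪ I2) I3 := by
    rw [Finset.disjoint_union_left]
    exact ⟨img_disj _ _ _ _ (by norm_num), img_disj _ _ _ _ (by norm_num)⟩
  have d3 : Disjoint (I0 ∪ I2 ∪ I3) I4 := by
    rw [Finset.disjoint_union_left, Finset.disjoint_union_left]
    exact ⟨⟨img_disj _ _ _ _ (by norm_num), img_disj _ _ _ _ (by norm_num)⟩,
      img_disj _ _ _ _ (by norm_num)⟩
  have htot : (I0 ∪ I2 ∪ I3 ∪ I4).card = Fintype.card Qt := by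
    rw [Finset.card_union_of_disjoint d3, Finset.card_union_of_disjoint d2,
      Finset.card_union_of_disjoint d1, hcard]
    omega
  have huniv := Finset.eq_univ_of_card _ htot
  have hmem : qf x ∈ I0 ∪ I2 ∪ I3 ∪ I4 := by rw [huniv]; exact Finset.mem_univ _
  simp only [Finset.mem_union] at hmem
  have fin : ∀ (n : ℕ) (hn : n ≤ 64), qf x ∈ (XF n hn).image qf →
      ∃ y ∈ leechLattice, sqNorm y ≤ 64 ∧ ∃ z ∈ leechLattice, x - y = 2 • z := by
    intro n hn h
    obtain ⟨y, hy, e⟩ := Finset.mem_image.mp h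
    rw [mem_XF] at hy
    exact ⟨y, hy.1, by rw [hy.2]; exact_mod_cast hn, (qf_eq hx hy.1).mp e.symm⟩
  rcases hmem with ((h | h) | h) | h
  · exact fin _ _ h
  · exact fin _ _ h
  · exact fin _ _ h
  · exact fin _ _ h

end Cfsg.Agent.Lib.Helper8
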