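import Cfsg.Agent.Lib.Helper8.LeechCo

set_option autoImplicit false

namespace Cfsg.Agent.Lib.Helper8

open Cfsg

def FixV (g : Co0) (x : GolayPt → ℤ) : Prop :=
  ∀ hx : x ∈ leechLattice, g • (⟨x, hx⟩ : ↥leechLattice) = ⟨x, hx⟩

/-- the subgroup fixing a list of coded vectors -/
def fixS (S : List ℕ) : Subgroup Co0 where
  carrier := {g | ∀ c ∈ S, FixV g (lvec c)}
  one_mem' := fun _ _ _ => one_smul _ _
  mul_mem' := fun {a b} ha hb c hc hx => by rw [mul_smul, hb c hc hx, ha c hc hx]
  inv_mem' := fun {a} ha c hc hx => by rw [inv_smul_eq_iff, ha c hc hx]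

def Conn (S : List ℕ) (x y : GolayPt → ℤ) : Prop :=
  ∃ g ∈ fixS S, ∃ (hx : x ∈ leechLattice) (hy : y ∈ leechLattice),
    g • (⟨x, hx⟩ : ↥leechLattice) = ⟨y, hy⟩

theorem Conn.refl (S : List ℕ) {x : GolayPt → ℤ} (hx : x ∈ leechLattice) : Conn S x x :=
  ⟨1, (fixS S).one_mem, hx, hx, one_smul _ _⟩

theorem Conn.trans {S : List ℕ} {x y z : GolayPt → ℤ} (h1 : Conn S x y) (h2 : Conn S y z) :
    Conn S x z := by
  obtain ⟨g, hg, hx, hy, e⟩ := h1
  obtain ⟨g', hg', hy', hz, e'⟩ := h2
  exact ⟨g' * g, (fixS S).mul_mem hg' hg, hx, hz, by rw [mul_smul, e, e']⟩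

theorem Conn.symm {S : List ℕ} {x y : GolayPt → ℤ} (h1 : Conn S x y) : Conn S y x := by
  obtain ⟨g, hg, hx, hy, e⟩ := h1
  exact ⟨g⁻¹, (fixS S).inv_mem hg, hy, hx, by rw [inv_smul_eq_iff, e]⟩

theorem co_norm (g : Co0) (v : ↥leechLattice) :
    sqNorm ((g • v : ↥leechLattice) : GolayPt → ℤ) = sqNorm (v : GolayPt → ℤ) := g.2.2 v

theorem Conn.norm {S : List ℕ} {x y : GolayPt → ℤ} (h1 : Conn S x y) : sqNorm y = sqNorm x := by
  obtain ⟨g, _, hx, hy, e⟩ := h1
  have := co_norm g ⟨x, hx⟩
  rw [e] at this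
  exact this

def fixB (d : GenData) (S : List ℕ) : Bool :=
  S.all fun c => chk1 d.2.1 d.2.2.1 c c && validY c

theorem exists_gen {d : GenData} {S : List ℕ} (h : genOK d = true) (hf : fixB d S = true)
    (hS : ∀ c ∈ S, sqNorm (lvec c) ≤ 64) : ∃ g ∈ fixS S, Spec g (ocF d) := by
  obtain ⟨g, hg⟩ := exists_co_of_genOK h
  refine ⟨g, ?_, hg⟩
  intro c hc hx
  have h1 := List.all_eq_true.mp hf c hc
  rw [Bool.and_eq_true] at h1
  apply Subtype.ext
  exact act_of_chk h hg ⟨lvec c, hx⟩ rfl (hS c hc) (validY_iff h1.2) h1.1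

def dfltGen : GenData := ([], [], 0, [])

/-- one entry of an orbit certificate; `cert i = lev + 256 * gn + 4096 * par` -/
def orbEntryL (gens : List GenData) (A cert root lab : ℕ → ℕ) (N i : ℕ) : Bool :=
  force (A i) fun Y => force (cert i) fun r => force (Nat.land r 255) fun lev =>
    bif Nat.beq lev 0 then Nat.beq (root (lab Y)) Y
    else force (Nat.shiftRight r 12) fun par => force (A par) fun X =>
      force (Nat.land (Nat.shiftRight r 8) 15) fun gn =>
      Nat.blt par N && Nat.blt (Nat.land (cert par) 255) lev && Nat.beq (lab X) (lab Y) &&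
        Nat.blt gn gens.length &&
        chk1 (gens.getD gn dfltGen).2.1 (gens.getD gn dfltGen).2.2.1 X Y

theorem orbitL_of_check {gens : List GenData} {S : List ℕ} {A cert root lab : ℕ → ℕ} {N : ℕ}
    (hg : ∀ d ∈ gens, genOK d = true ∧ fixB d S = true) (hS : ∀ c ∈ S, sqNorm (lvec c) ≤ 64)
    (hroot : ∀ l, lvec (root l) ∈ leechLattice ∧ sqNorm (lvec (root l)) ≤ 64)
    (hval : ∀ i < N, ValidP (A i))
    (h : ∀ i < N, orbEntryL gens A cert root lab N i = true) :
    ∀ i < N, Conn S (lvec (root (lab (A i)))) (lvec (A i)) := by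
  have key : ∀ n i, Nat.land (cert i) 255 = n → i < N →
      Conn S (lvec (root (lab (A i)))) (lvec (A i)) := by
    intro n
    induction n using Nat.strong_induction_on with
    | _ n ih =>
      intro i hlev hi
      have hc := h i hi
      unfold orbEntryL at hc
      simp only [force_eq] at hc
      by_cases h0 : Nat.land (cert i) 255 = 0
      · have : Nat.beq (Nat.land (cert i) 255) 0 = true := by rw [h0]; rfl
        rw [this, cond_true] at hc
        rw [Nat.eq_of_beq_eq_true hc]
        have := (hroot (lab (A i))).1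
        rw [Nat.eq_of_beq_eq_true hc] at this
        exact Conn.refl S this
      · have : Nat.beq (Nat.land (cert i) 255) 0 = false := by
          cases hb : Nat.beq (Nat.land (cert i) 255) 0 with
          | false => rfl
          | true => exact absurd (Nat.eq_of_beq_eq_true hb) h0
        rw [this, cond_false] at hc
        simp only [Bool.and_eq_true] at hc
        obtain ⟨⟨⟨⟨h1, h2⟩, h3⟩, h4⟩, h5⟩ := hc
        have h1' : Nat.shiftRight (cert i) 12 < N := Nat.le_of_ble_eq_true h1
        have h2' : Nat.land (cert (Nat.shiftRight (cert i) 12)) 255 < Nat.land (cert i) 255 :=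
          Nat.le_of_ble_eq_true h2
        have h3' := Nat.eq_of_beq_eq_true h3
        have h4' : Nat.land (Nat.shiftRight (cert i) 8) 15 < gens.length := Nat.le_of_ble_eq_true h4
        have hd : gens.getD (Nat.land (Nat.shiftRight (cert i) 8) 15) dfltGen ∈ gens := by
          rw [List.getD_eq_getElem _ _ h4']; exact List.getElem_mem _
        have hpar := ih _ (hlev ▸ h2') (Nat.shiftRight (cert i) 12) rfl h1'
        obtain ⟨g, hgS, hgs⟩ := exists_gen (hg _ hd).1 (hg _ hd).2 hS
        rw [h3'] at hpar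
        refine hpar.trans ?_
        have hn : sqNorm (lvec (A (Nat.shiftRight (cert i) 12))) ≤ 64 := by
          rw [hpar.norm]; exact (hroot _).2
        obtain ⟨_, _, _, hX, _⟩ := hpar
        have hact := act_of_chk (hg _ hd).1 hgs ⟨_, hX⟩ rfl hn (hval i hi) h5
        have hY : lvec (A i) ∈ leechLattice := by rw [← hact]; exact Subtype.mem _
        exact ⟨g, hgS, hX, hY, Subtype.ext hact⟩
  intro i hi
  exact key _ i rfl hi

theorem of_blocks {p : ℕ → Bool} {B K : ℕ}
    (h : ∀ b < B, allBelow K (fun k => p (b * K + k)) = true) : ∀ i < B * K, p i = true := by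
  intro i hi
  have hK : 0 < K := by
    rcases Nat.eq_zero_or_pos K with h0 | h0
    · rw [h0] at hi; omega
    · exact h0
  have hb : i / K < B := (Nat.div_lt_iff_lt_mul hK).mpr hi
  have := of_allBelow (h (i / K) hb) (i % K) (Nat.mod_lt _ hK)
  rwa [mul_comm, Nat.div_add_mod] at this

theorem lvec_inj {X Y : ℕ} (hX : X < 256 ^ 24) (hY : Y < 256 ^ 24) (h : lvec X = lvec Y) : X = Y := by
  rw [digit_expand 24 X hX, digit_expand 24 Y hY]
  apply Finset.sum_congr rfl
  intro j hj
  rw [Finset.mem_range] at hj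
  have := congrFun h (pt j)
  rw [lvec_apply, lvec_apply, idx_pt hj] at this
  have e : dg X j = dg Y j := by omega
  rw [e]

theorem array_complete {A : ℕ → ℕ} {N n : ℕ} (hn : n ≤ 64) (hval : ∀ i < N, A i < 256 ^ 24)
    (hsorted : ∀ i, i + 1 < N → A i < A (i + 1))
    (hmem : ∀ i < N, lvec (A i) ∈ leechLattice ∧ sqNorm (lvec (A i)) = n)
    (hcount : {x : GolayPt → ℤ | x ∈ leechLattice ∧ sqNorm x = n}.ncard = N) :
    ∀ x ∈ leechLattice, sqNorm x = n → ∃ i < N, x = lvec (A i) := by
  have hmono : ∀ j, j < N → ∀ i < j, A i < A j := by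
    intro j
    induction j with
    | zero => intro _ i hi; omega
    | succ j ih =>
      intro hj i hi
      have h1 := hsorted j hj
      rcases Nat.lt_succ_iff_lt_or_eq.mp hi with h' | h'
      · exact lt_trans (ih (by omega) i h') h1
      · rw [h']; exact h1
  set I : Finset (GolayPt → ℤ) := (Finset.range N).image fun i => lvec (A i) with hI
  have hcard : I.card = N := by
    rw [hI, Finset.card_image_of_injOn, Finset.card_range]
    intro i hi j hj hij
    simp only [Finset.coe_range, Set.mem_Iio] at hi hj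
    have := lvec_inj (hval i hi) (hval j hj) hij
    rcases lt_trichotomy i j with h' | h' | h'
    · have := hmono j hj i h'; omega
    · exact h'
    · have := hmono i hi j h'; omega
  have hsub : (I : Set (GolayPt → ℤ)) ⊆ {x : GolayPt → ℤ | x ∈ leechLattice ∧ sqNorm x = n} := by
    intro x hx
    rw [hI, Finset.coe_image] at hx
    obtain ⟨i, hi, rfl⟩ := hx
    exact hmem i (by simpa using hi)
  have heq := Set.eq_of_subset_of_ncard_le hsub
    (by rw [hcount, Set.ncard_coe_finset, hcard]) (finite_norm n hn)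
  intro x hx hxn
  have : x ∈ (I : Set (GolayPt → ℤ)) := by rw [heq]; exact ⟨hx, hxn⟩
  rw [hI, Finset.coe_image] at this
  obtain ⟨i, hi, rfl⟩ := this
  exact ⟨i, by simpa using hi, rfl⟩

end Cfsg.Agent.Lib.Helper8
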