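import Cfsg.Agent.Lib.Helper8.LeechSum

set_option autoImplicit false

namespace Cfsg.Agent.Lib.Helper8

open Cfsg

/-- orbit certificate restricted to the relevant labels -/
def orbEntryF (gens : List GenData) (A cert root lab : ℕ → ℕ) (rel : ℕ → Bool) (N i : ℕ) : Bool :=
  bif rel (lab (A i)) then orbEntryL gens A cert root lab N i else true

theorem orbitF_of_check {gens : List GenData} {S : List ℕ} {A cert root lab : ℕ → ℕ}
    {rel : ℕ → Bool} {N : ℕ}
    (hg : ∀ d ∈ gens, genOK d = true ∧ fixB d S = true) (hS : ∀ c ∈ S, sqNorm (lvec c) ≤ 64)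
    (hroot : ∀ l, lvec (root l) ∈ leechLattice ∧ sqNorm (lvec (root l)) ≤ 64)
    (hval : ∀ i < N, ValidP (A i))
    (h : ∀ i < N, orbEntryF gens A cert root lab rel N i = true) :
    ∀ i < N, rel (lab (A i)) = true → Conn S (lvec (root (lab (A i)))) (lvec (A i)) := by
  have key : ∀ n i, Nat.land (cert i) 255 = n → i < N → rel (lab (A i)) = true →
      Conn S (lvec (root (lab (A i)))) (lvec (A i)) := by
    intro n
    induction n using Nat.strong_induction_on with
    | _ n ih =>
      intro i hlev hi hrel
      have hc := h i hi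
      unfold orbEntryF at hc
      rw [hrel, cond_true] at hc
      unfold orbEntryL at hc
      simp only [force_eq] at hc
      by_cases h0 : Nat.land (cert i) 255 = 0
      · have : Nat.beq (Nat.land (cert i) 255) 0 = true := by rw [h0]; rfl
        rw [this, cond_true] at hc
        rw [Nat.eq_of_beq_eq_true hc]
        have := (hroot (lab (A i))).1
        rw [Nat.eq_of_beq_eq_true hc] at this
        exact Conn.refl S this
      · have : Nat.beq (Nat.land (cert i) 255) 0 = false := by
          cases hb : Nat.beq (Nat.land (cert i) 255) 0 with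
          | false => rfl
          | true => exact absurd (Nat.eq_of_beq_eq_true hb) h0
        rw [this, cond_false] at hc
        simp only [Bool.and_eq_true] at hc
        obtain ⟨⟨⟨⟨h1, h2⟩, h3⟩, h4⟩, h5⟩ := hc
        have h1' : Nat.shiftRight (cert i) 12 < N := Nat.le_of_ble_eq_true h1
        have h2' : Nat.land (cert (Nat.shiftRight (cert i) 12)) 255 < Nat.land (cert i) 255 :=
          Nat.le_of_ble_eq_true h2
        have h3' := Nat.eq_of_beq_eq_true h3
        have h4' : Nat.land (Nat.shiftRight (cert i) 8) 15 < gens.length := Nat.le_of_ble_eq_true h4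
        have hd : gens.getD (Nat.land (Nat.shiftRight (cert i) 8) 15) dfltGen ∈ gens := by
          rw [List.getD_eq_getElem _ _ h4']; exact List.getElem_mem _
        have hpar := ih _ (hlev ▸ h2') (Nat.shiftRight (cert i) 12) rfl h1' (by rw [h3']; exact hrel)
        obtain ⟨g, hgS, hgs⟩ := exists_gen (hg _ hd).1 (hg _ hd).2 hS
        rw [h3'] at hpar
        refine hpar.trans ?_
        have hn : sqNorm (lvec (A (Nat.shiftRight (cert i) 12))) ≤ 64 := by
          rw [hpar.norm]; exact (hroot _).2
        obtain ⟨_, _, _, hX, _⟩ := hpar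
        have hact := act_of_chk (hg _ hd).1 hgs ⟨_, hX⟩ rfl hn (hval i hi) h5
        have hY : lvec (A i) ∈ leechLattice := by rw [← hact]; exact Subtype.mem _
        exact ⟨g, hgS, hX, hY, Subtype.ext hact⟩
  intro i hi
  exact key _ i rfl hi

/-! ### inner products with a fixed coded vector -/

def kList (V : ℕ) : List ℕ := (List.range 24).map fun j => dg V j + 65536

def labV (K : List ℕ) (Y : ℕ) : ℕ :=
  force (app24L K Y) fun t => Nat.sub (Nat.add (Nat.land t 65535) 5952) (Nat.mul 8 (Nat.shiftRight t 16))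

def sdg (V : ℕ) : ℕ := ∑ j ∈ Finset.range 24, dg V j

theorem labV_eq {V Y : ℕ} (hV : ValidP V) (hY : ValidP Y) :
    (labV (kList V) Y : ℤ) = dotInt (lvec V) (lvec Y) + 8 * (sdg V : ℤ) + 4416 := by
  have hk : ∀ j ∈ Finset.range 24, dg Y j * (kList V).getD j 0 =
      dg Y j * dg V j + 65536 * dg Y j := by
    intro j hj
    rw [Finset.mem_range] at hj
    have : (kList V).getD j 0 = dg V j + 65536 := by
      unfold kList
      rw [List.getD_eq_getElem _ _ (by simpa using hj)]
      simp
    rw [this]; ring
  have ht : app24L (kList V) Y = ∑ j ∈ Finset.range 24, dg Y j * dg V j + 65536 * sdg Y := by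
    rw [app24L_eq, Finset.sum_congr rfl hk, Finset.sum_add_distrib, ← Finset.mul_sum]; rfl
  have hlo : ∑ j ∈ Finset.range 24, dg Y j * dg V j ≤ 24 * (31 * 31) := by
    calc ∑ j ∈ Finset.range 24, dg Y j * dg V j ≤ ∑ _j ∈ Finset.range 24, 31 * 31 := by
          apply Finset.sum_le_sum
          intro j hj
          rw [Finset.mem_range] at hj
          exact Nat.mul_le_mul (by have := hY.2 j hj; omega) (by have := hV.2 j hj; omega)
      _ = 24 * (31 * 31) := by simp
  have hhi : sdg Y ≤ 24 * 31 := by
    calc sdg Y ≤ ∑ _j ∈ Finset.range 24, 31 := by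
          apply Finset.sum_le_sum
          intro j hj
          rw [Finset.mem_range] at hj
          have := hY.2 j hj; omega
      _ = 24 * 31 := by simp
  have e1 : labV (kList V) Y =
      (app24L (kList V) Y % 65536 + 5952) - 8 * (app24L (kList V) Y / 65536) := by
    unfold labV
    rw [force_eq]
    show ((app24L (kList V) Y &&& 65535) + 5952) - 8 * (app24L (kList V) Y >>> 16) = _
    rw [show (65535 : ℕ) = 2 ^ 16 - 1 from rfl, Nat.and_two_pow_sub_one_eq_mod,
      Nat.shiftRight_eq_div_pow]
  have e2 : app24L (kList V) Y % 65536 = ∑ j ∈ Finset.range 24, dg Y j * dg V j := by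
    rw [ht]; omega
  have e3 : app24L (kList V) Y / 65536 = sdg Y := by
    rw [ht]; omega
  rw [e1, e2, e3, dotInt_lvec]
  have e4 : ∀ j, ((dg V j : ℤ) - 8) * ((dg Y j : ℤ) - 8) =
      (dg Y j * dg V j : ℕ) - 8 * (dg V j : ℕ) - 8 * (dg Y j : ℕ) + 64 := by
    intro j; push_cast; ring
  simp only [e4, Finset.sum_add_distrib, Finset.sum_sub_distrib, ← Finset.mul_sum, Finset.sum_const,
    Finset.card_range]
  have e5 : ((∑ j ∈ Finset.range 24, dg Y j * dg V j + 5952 - 8 * sdg Y : ℕ) : ℤ) =
      ((∑ j ∈ Finset.range 24, dg Y j * dg V j : ℕ) : ℤ) + 5952 - 8 * (sdg Y : ℤ) := by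
    omega
  rw [e5]
  unfold sdg
  push_cast
  simp only [nsmul_eq_mul, Nat.cast_ofNat]
  ring

end Cfsg.Agent.Lib.Helper8
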