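import Cfsg.Agent.Lib.Helper8.LeechMod2
import Cfsg.Agent.Lib.Helper8.LeechDot

set_option autoImplicit false

namespace Cfsg.Agent.Lib.Helper8

open Cfsg

def t1u : ℕ := 196928681894484102394848295630044436583603308061617031172
def t1w : ℕ := 196928681894484102394848295630044436583603308061616768012
def t2u : ℕ := 147696514355284333682823352329430048083333913874960877064
def t2w : ℕ := 196928681894484102394848295630044436583603308061616506884

theorem bt1u : baseOK t1u 32 5888 = true := by decide +kernel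
theorem bt1w : baseOK t1w 32 5888 = true := by decide +kernel
theorem bt2u : baseOK t2u 32 5824 = true := by decide +kernel
theorem bt2w : baseOK t2w 32 5824 = true := by decide +kernel
theorem bv0 : baseOK v0c 32 5952 = true := by decide +kernel

theorem dot_val' {V n c Y c' l : ℕ} (h : baseOK V n c = true) (hY : baseOK Y 32 c' = true)
    (hl : labD (kList V) c Y = l) : dotInt (lvec V) (lvec Y) = (l : ℤ) - 64 := by
  obtain ⟨h1, _, h3, _, _⟩ := baseOK_spec hY
  rw [baseOK_dot h h1 (by rw [h3]; norm_num), hl]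

theorem eight_dvd_dot {x y : GolayPt → ℤ} (hx : x ∈ leechLattice) (hy : y ∈ leechLattice) :
    (8 : ℤ) ∣ dotInt x y := by
  have h1 := sixteen_dvd_sqNorm hx
  have h2 := sixteen_dvd_sqNorm hy
  have h3 := sixteen_dvd_sqNorm (leechLattice.add_mem hx hy)
  rw [sqNorm_add] at h3
  omega

theorem norm_cases {y : GolayPt → ℤ} (hy : y ∈ leechLattice) (hn : sqNorm y ≤ 64) :
    y = 0 ∨ sqNorm y = 32 ∨ sqNorm y = 48 ∨ sqNorm y = 64 := by
  by_cases h0 : y = 0
  · left; exact h0
  right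
  have h1 := min_norm hy h0
  have h2 := sixteen_dvd_sqNorm hy
  omega

theorem norm3 (u v w : ↥leechLattice) :
    sqNorm ((u + v + w : ↥leechLattice) : GolayPt → ℤ) = sqNorm (u : GolayPt → ℤ) +
      sqNorm (v : GolayPt → ℤ) + sqNorm (w : GolayPt → ℤ) + 2 * dotInt (u : GolayPt → ℤ) v +
      2 * dotInt (u : GolayPt → ℤ) w + 2 * dotInt (v : GolayPt → ℤ) w := by
  rw [AddSubgroup.coe_add, AddSubgroup.coe_add, sqNorm_add, sqNorm_add, dotInt_add_left]; ring

theorem norm2 (u v : ↥leechLattice) :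
    sqNorm ((u + v : ↥leechLattice) : GolayPt → ℤ) = sqNorm (u : GolayPt → ℤ) +
      sqNorm (v : GolayPt → ℤ) + 2 * dotInt (u : GolayPt → ℤ) v := by
  rw [AddSubgroup.coe_add, sqNorm_add]

theorem quad_unique (Q : ↥leechLattice → ZMod 2)
    (hcoset : ∀ v w : ↥leechLattice, Q (v + (w + w)) = Q v)
    (hquad : ∀ u v w : ↥leechLattice, Q (u + v + w) + Q u + Q v + Q w = Q (u + v) + Q (u + w) + Q (v + w))
    (hinv : ∀ (g : Co0) (v : ↥leechLattice), Q (g • v) = Q v)
    (hne : ∃ v : ↥leechLattice, Q v ≠ 0) (v : ↥leechLattice) :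
    Q v = ((sqNorm (v : GolayPt → ℤ) / 16 : ℤ) : ZMod 2) := by
  have Q0 : Q 0 = 0 := by
    have := hquad 0 0 0
    simp only [add_zero] at this
    revert this
    generalize Q 0 = t
    revert t
    decide
  have K2 : ∀ x : ↥leechLattice, sqNorm (x : GolayPt → ℤ) = 32 → Q x = Q v0 := by
    intro x hx
    obtain ⟨g, hg⟩ := co0_trans2 x v0 hx v0c_sq
    rw [← hg, hinv]
  have K3 : ∀ x : ↥leechLattice, sqNorm (x : GolayPt → ℤ) = 48 → Q x = Q u0 := by
    intro x hx
    obtain ⟨g, hg⟩ := co0_trans3 x u0 hx u0c_sq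
    rw [← hg, hinv]
  have K4 : ∀ x : ↥leechLattice, sqNorm (x : GolayPt → ℤ) = 64 → Q x = Q ⟨lvec x40c, x40c_mem⟩ := by
    intro x hx
    obtain ⟨g, hg⟩ := co0_trans4 x ⟨lvec x40c, x40c_mem⟩ hx x40c_sq
    rw [← hg, hinv]
  set a := Q v0 with ha
  set b := Q u0 with hb
  set c := Q ⟨lvec x40c, x40c_mem⟩ with hc
  have sq : ∀ {V c : ℕ}, baseOK V 32 c = true → sqNorm (lvec V) = 32 := by
    intro V c h
    rw [(baseOK_spec h).2.2.1]; norm_num
  -- first triple
  have hc0 : c = 0 := by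
    let u : ↥leechLattice := ⟨lvec t1u, (baseOK_spec bt1u).2.1⟩
    let w : ↥leechLattice := ⟨lvec t1w, (baseOK_spec bt1w).2.1⟩
    have nu : sqNorm (u : GolayPt → ℤ) = 32 := sq bt1u
    have nw : sqNorm (w : GolayPt → ℤ) = 32 := sq bt1w
    have nv : sqNorm (v0 : GolayPt → ℤ) = 32 := v0c_sq
    have d1 : dotInt (u : GolayPt → ℤ) (v0 : GolayPt → ℤ) = -16 := by
      show dotInt (lvec t1u) (lvec v0c) = -16
      rw [dot_val' (l := 48) bt1u bv0 (by decide +kernel)]; norm_num
    have d2 : dotInt (u : GolayPt → ℤ) (w : GolayPt → ℤ) = -16 := by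
      show dotInt (lvec t1u) (lvec t1w) = -16
      rw [dot_val' (l := 48) bt1u bt1w (by decide +kernel)]; norm_num
    have d3 : dotInt (v0 : GolayPt → ℤ) (w : GolayPt → ℤ) = 0 := by
      show dotInt (lvec v0c) (lvec t1w) = 0
      rw [dot_val' (l := 64) bv0 bt1w (by decide +kernel)]; norm_num
    have e := hquad u v0 w
    rw [K2 (u + v0 + w) (by rw [norm3, nu, nv, nw, d1, d2, d3]; norm_num), K2 u nu, K2 w nw,
      K2 (u + v0) (by rw [norm2, nu, nv, d1]; norm_num), K2 (u + w) (by rw [norm2, nu, nw, d2]; norm_num),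
      K4 (v0 + w) (by rw [norm2, nv, nw, d3]; norm_num), ← ha] at e
    revert e
    generalize a = a'
    generalize c = c'
    revert a' c'
    decide
  have ha0 : a = 0 := by
    let u : ↥leechLattice := ⟨lvec t2u, (baseOK_spec bt2u).2.1⟩
    let w : ↥leechLattice := ⟨lvec t2w, (baseOK_spec bt2w).2.1⟩
    have nu : sqNorm (u : GolayPt → ℤ) = 32 := sq bt2u
    have nw : sqNorm (w : GolayPt → ℤ) = 32 := sq bt2w
    have nv : sqNorm (v0 : GolayPt → ℤ) = 32 := v0c_sq
    have d1 : dotInt (u : GolayPt → ℤ) (v0 : GolayPt → ℤ) = -8 := by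
      show dotInt (lvec t2u) (lvec v0c) = -8
      rw [dot_val' (l := 56) bt2u bv0 (by decide +kernel)]; norm_num
    have d2 : dotInt (u : GolayPt → ℤ) (w : GolayPt → ℤ) = -8 := by
      show dotInt (lvec t2u) (lvec t2w) = -8
      rw [dot_val' (l := 56) bt2u bt2w (by decide +kernel)]; norm_num
    have d3 : dotInt (v0 : GolayPt → ℤ) (w : GolayPt → ℤ) = -16 := by
      show dotInt (lvec v0c) (lvec t2w) = -16
      rw [dot_val' (l := 48) bv0 bt2w (by decide +kernel)]; norm_num
    have e := hquad u v0 w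
    rw [K2 (u + v0 + w) (by rw [norm3, nu, nv, nw, d1, d2, d3]; norm_num), K2 u nu, K2 w nw,
      K3 (u + v0) (by rw [norm2, nu, nv, d1]; norm_num), K3 (u + w) (by rw [norm2, nu, nw, d2]; norm_num),
      K2 (v0 + w) (by rw [norm2, nv, nw, d3]; norm_num), ← ha] at e
    revert e
    generalize a = a'
    generalize b = b'
    revert a' b'
    decide
  -- reduction to short vectors
  have red : ∀ x : ↥leechLattice, ∃ y : ↥leechLattice, sqNorm (y : GolayPt → ℤ) ≤ 64 ∧ Q x = Q y ∧
      ∃ s : ℤ, sqNorm (x : GolayPt → ℤ) = sqNorm (y : GolayPt → ℤ) + 32 * s := by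
    intro x
    obtain ⟨y, hy, hyn, z, hz, e⟩ := short_rep x x.2
    refine ⟨⟨y, hy⟩, hyn, ?_, ?_⟩
    · have : x = ⟨y, hy⟩ + ((⟨z, hz⟩ : ↥leechLattice) + ⟨z, hz⟩) := by
        apply Subtype.ext
        show (x : GolayPt → ℤ) = y + (z + z)
        rw [← two_smul ℕ z, ← e]; abel
      rw [this, hcoset]
    · have e1 : (x : GolayPt → ℤ) = y + 2 • z := by rw [← e]; abel
      obtain ⟨k, hk⟩ := eight_dvd_dot hy hz
      obtain ⟨m, hm⟩ := sixteen_dvd_sqNorm hz
      have h5 : dotInt y (2 • z) = 2 * dotInt y z := by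
        unfold dotInt
        rw [Finset.mul_sum]
        exact Finset.sum_congr rfl fun i _ => by
          simp only [Pi.smul_apply, nsmul_eq_mul, Nat.cast_ofNat]; ring
      refine ⟨k + 2 * m, ?_⟩
      show sqNorm (x : GolayPt → ℤ) = sqNorm y + 32 * (k + 2 * m)
      rw [e1, sqNorm_add, sqNorm_two_smul, h5, hk, hm]; ring
  have hb1 : b = 1 := by
    by_contra hb1
    have hb0 : b = 0 := by
      revert hb1
      generalize b = b'
      revert b'
      decide
    obtain ⟨x, hx⟩ := hne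
    apply hx
    obtain ⟨y, hyn, e, _⟩ := red x
    rw [e]
    rcases norm_cases y.2 hyn with h | h | h | h
    · have : y = 0 := Subtype.ext h
      rw [this, Q0]
    · rw [K2 y h, ha0]
    · rw [K3 y h, hb0]
    · rw [K4 y h, hc0]
  obtain ⟨y, hyn, e, s, hs⟩ := red v
  rw [e, hs]
  have two0 : (2 : ZMod 2) = 0 := by decide
  rcases norm_cases y.2 hyn with h | h | h | h
  · have : y = 0 := Subtype.ext h
    rw [this, Q0]
    have : sqNorm (((0 : ↥leechLattice) : ↥leechLattice) : GolayPt → ℤ) = 0 := by simp [sqNorm]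
    rw [this, show (0 : ℤ) + 32 * s = 16 * (2 * s) by ring, Int.mul_ediv_cancel_left _ (by norm_num)]
    push_cast
    rw [two0, zero_mul]
  · rw [K2 y h, ha0, h, show (32 : ℤ) + 32 * s = 16 * (2 * (1 + s)) by ring,
      Int.mul_ediv_cancel_left _ (by norm_num)]
    push_cast
    rw [two0, zero_mul]
  · rw [K3 y h, hb1, h, show (48 : ℤ) + 32 * s = 16 * (1 + 2 * (1 + s)) by ring,
      Int.mul_ediv_cancel_left _ (by norm_num)]
    push_cast
    rw [two0, zero_mul, add_zero]
  · rw [K4 y h, hc0, h, show (64 : ℤ) + 32 * s = 16 * (2 * (2 + s)) by ring,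
      Int.mul_ediv_cancel_left _ (by norm_num)]
    push_cast
    rw [two0, zero_mul]

end Cfsg.Agent.Lib.Helper8
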