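import Cfsg.Agent.Lib.Helper8.LeechLam3c

set_option autoImplicit false

namespace Cfsg.Agent.Lib.Helper8

open Cfsg

/-- a complete repetition-free enumeration of the minimal vectors satisfying `P0` -/
structure SubArr (P0 : (GolayPt → ℤ) → Prop) (A : ℕ → ℕ) (N : ℕ) : Prop where
  valid : ∀ i < N, ValidP (A i)
  mem : ∀ i < N, lvec (A i) ∈ leechLattice ∧ sqNorm (lvec (A i)) = 32 ∧ P0 (lvec (A i))
  inj : ∀ i < N, ∀ j < N, A i = A j → i = j
  complete : ∀ x ∈ leechLattice, sqNorm x = 32 → P0 x → ∃ i < N, x = lvec (A i)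

def subOK (idx lab : ℕ → ℕ) (s j : ℕ) : Bool :=
  force (idx j) fun a => Nat.blt a 196560 && Nat.beq (lab (A2 a)) s &&
    (Nat.beq j 0 || Nat.blt (idx (Nat.pred j)) a)

theorem A2_mono : ∀ j, j < 196560 → ∀ i < j, A2 i < A2 j := by
  intro j
  induction j with
  | zero => intro _ i hi; omega
  | succ j ih =>
    intro hj i hi
    have h1 := A2_sorted j hj
    rcases Nat.lt_succ_iff_lt_or_eq.mp hi with h | h
    · exact lt_trans (ih (by omega) i h) h1
    · rw [h]; exact h1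

theorem A2_inj {i j : ℕ} (hi : i < 196560) (hj : j < 196560) (h : A2 i = A2 j) : i = j := by
  by_contra hne
  rcases Nat.lt_or_gt_of_ne hne with h1 | h1
  · have := A2_mono j hj i h1; omega
  · have := A2_mono i hi j h1; omega

theorem SubArr.of_idx {P0 : (GolayPt → ℤ) → Prop} {idx lab : ℕ → ℕ} {s N : ℕ}
    (hP0 : ∀ i < 196560, (P0 (lvec (A2 i)) ↔ lab (A2 i) = s))
    (hcount : {x : GolayPt → ℤ | x ∈ leechLattice ∧ sqNorm x = 32 ∧ P0 x}.ncard = N)
    (hchk : ∀ j < N, subOK idx lab s j = true) : SubArr P0 (fun j => A2 (idx j)) N := by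
  have h1 : ∀ j < N, idx j < 196560 ∧ lab (A2 (idx j)) = s ∧ (j = 0 ∨ idx (j - 1) < idx j) := by
    intro j hj
    have h := hchk j hj
    unfold subOK at h
    rw [force_eq, Bool.and_eq_true, Bool.and_eq_true, Bool.or_eq_true] at h
    refine ⟨Nat.le_of_ble_eq_true h.1.1, Nat.eq_of_beq_eq_true h.1.2, ?_⟩
    rcases h.2 with h' | h'
    · left; exact Nat.eq_of_beq_eq_true h'
    · right; exact Nat.le_of_ble_eq_true h'
  have hmono : ∀ j, j < N → ∀ i < j, idx i < idx j := by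
    intro j
    induction j with
    | zero => intro _ i hi; omega
    | succ j ih =>
      intro hj i hi
      have h2 : idx j < idx (j + 1) := by
        rcases (h1 (j + 1) hj).2.2 with h | h
        · omega
        · simpa using h
      rcases Nat.lt_succ_iff_lt_or_eq.mp hi with h | h
      · exact lt_trans (ih (by omega) i h) h2
      · rw [h]; exact h2
  have hinj : ∀ i < N, ∀ j < N, A2 (idx i) = A2 (idx j) → i = j := by
    intro i hi j hj h
    have e := A2_inj (h1 i hi).1 (h1 j hj).1 h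
    by_contra hne
    rcases Nat.lt_or_gt_of_ne hne with h2 | h2
    · have := hmono j hj i h2; omega
    · have := hmono i hi j h2; omega
  have hmem : ∀ i < N, lvec (A2 (idx i)) ∈ leechLattice ∧ sqNorm (lvec (A2 (idx i))) = 32 ∧
      P0 (lvec (A2 (idx i))) := by
    intro i hi
    have := h1 i hi
    exact ⟨(A2_mem _ this.1).1, A2_sq _ this.1, (hP0 _ this.1).mpr this.2.1⟩
  refine ⟨fun i hi => A2_valid _ (h1 i hi).1, hmem, hinj, ?_⟩
  set T : Finset (GolayPt → ℤ) := (Finset.range N).image fun j => lvec (A2 (idx j)) with hT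
  have hTcard : T.card = N := by
    rw [hT, Finset.card_image_of_injOn, Finset.card_range]
    intro i hi j hj hij
    simp only [Finset.coe_range, Set.mem_Iio] at hi hj
    exact hinj i hi j hj (lvec_inj (A2_valid _ (h1 i hi).1).1 (A2_valid _ (h1 j hj).1).1 hij)
  have hfin : {x : GolayPt → ℤ | x ∈ leechLattice ∧ sqNorm x = 32 ∧ P0 x}.Finite := by
    apply (finite_norm 32 (by norm_num)).subset
    rintro x ⟨h2, h3, _⟩
    exact ⟨h2, by rw [h3]; norm_num⟩
  have hsub : (T : Set (GolayPt → ℤ)) ⊆ {x : GolayPt → ℤ | x ∈ leechLattice ∧ sqNorm x = 32 ∧ P0 x} := by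
    intro x hx
    rw [hT, Finset.coe_image] at hx
    obtain ⟨j, hj, rfl⟩ := hx
    simp only [Finset.coe_range, Set.mem_Iio] at hj
    exact hmem j hj
  have heq := Set.eq_of_subset_of_ncard_le hsub (by rw [hcount, Set.ncard_coe_finset, hTcard]) hfin
  intro x hx hn hp
  have : x ∈ (T : Set (GolayPt → ℤ)) := by rw [heq]; exact ⟨hx, hn, hp⟩
  rw [hT, Finset.coe_image] at this
  obtain ⟨j, hj, rfl⟩ := this
  simp only [Finset.coe_range, Set.mem_Iio] at hj
  exact ⟨j, hj, rfl⟩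

theorem SubArr.ncard_class {P0 : (GolayPt → ℤ) → Prop} {A : ℕ → ℕ} {N : ℕ} (h : SubArr P0 A N)
    (hN : N < 2 ^ 20) (P : (GolayPt → ℤ) → Prop) (lab : ℕ → ℕ) (s : ℕ)
    (hP : ∀ i < N, (P (lvec (A i)) ↔ lab (A i) = s)) :
    {x : GolayPt → ℤ | x ∈ leechLattice ∧ sqNorm x = 32 ∧ P0 x ∧ P x}.ncard =
      (∑ i ∈ Finset.range N, (2 ^ 20) ^ lab (A i)) / (2 ^ 20) ^ s % 2 ^ 20 := by
  rw [← digit_count (Finset.range N) (fun i => lab (A i)) (2 ^ 20) s
    (by rw [Finset.card_range]; exact hN)]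
  have e : {x : GolayPt → ℤ | x ∈ leechLattice ∧ sqNorm x = 32 ∧ P0 x ∧ P x} =
      ↑(((Finset.range N).filter fun i => lab (A i) = s).image fun i => lvec (A i)) := by
    ext x
    simp only [Set.mem_ofPred_eq, Finset.coe_image, Finset.coe_filter, Finset.mem_range,
      Set.mem_image]
    constructor
    · rintro ⟨h1, h2, h3, h4⟩
      obtain ⟨i, hi, rfl⟩ := h.complete x h1 h2 h3
      exact ⟨i, ⟨hi, (hP i hi).mp h4⟩, rfl⟩
    · rintro ⟨i, ⟨hi, h3⟩, rfl⟩
      have := h.mem i hi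
      exact ⟨this.1, this.2.1, this.2.2, (hP i hi).mpr h3⟩
  rw [e, Set.ncard_coe_finset, Finset.card_image_of_injOn]
  intro i hi j hj hij
  simp only [Finset.coe_filter, Finset.mem_range, Set.mem_ofPred_eq] at hi hj
  exact h.inj i hi.1 j hj.1 (lvec_inj (h.valid i hi.1).1 (h.valid j hj.1).1 hij)

/-- label for the inner product with a coded vector: `dot + 64` -/
def labD (K : List ℕ) (c Y : ℕ) : ℕ := Nat.sub (labV K Y) c

theorem labD_eq {V : ℕ} (hV : ValidP V) (hn64 : sqNorm (lvec V) ≤ 64) {c : ℕ}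
    (hc : 8 * sdg V + 4416 = c + 64) {Y : ℕ} (hY : ValidP Y) (hYn : sqNorm (lvec Y) = 32) :
    dotInt (lvec V) (lvec Y) = (labD (kList V) c Y : ℤ) - 64 :=
  labV_sub hV hn64 hc hY hYn

/-- check bundle for a base vector -/
def baseOK (V n c : ℕ) : Bool :=
  validY V && leechB V && normIs n V && Nat.beq (8 * sdg V + 4416) (c + 64) && Nat.ble n 64

theorem baseOK_spec {V n c : ℕ} (h : baseOK V n c = true) :
    ValidP V ∧ lvec V ∈ leechLattice ∧ sqNorm (lvec V) = n ∧ 8 * sdg V + 4416 = c + 64 ∧ n ≤ 64 := by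
  unfold baseOK at h
  simp only [Bool.and_eq_true] at h
  obtain ⟨⟨⟨⟨h1, h2⟩, h3⟩, h4⟩, h5⟩ := h
  exact ⟨validY_iff h1, mem_of_leechB h2, sqNorm_of_normIs h3, Nat.eq_of_beq_eq_true h4,
    Nat.le_of_ble_eq_true h5⟩

theorem baseOK_dot {V n c : ℕ} (h : baseOK V n c = true) {Y : ℕ} (hY : ValidP Y)
    (hYn : sqNorm (lvec Y) = 32) :
    dotInt (lvec V) (lvec Y) = (labD (kList V) c Y : ℤ) - 64 := by
  obtain ⟨h1, _, h3, h4, h5⟩ := baseOK_spec h
  exact labD_eq h1 (by rw [h3]; exact_mod_cast h5) h4 hY hYn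

end Cfsg.Agent.Lib.Helper8
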