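import Cfsg.Agent.Lib.Helper8.LeechDot

set_option autoImplicit false

namespace Cfsg.Agent.Lib.Helper8

open Cfsg

theorem rootL_ok {L : List ℕ} (h : L.all (fun c => leechB c && normIs 32 c) = true) (l : ℕ) :
    lvec (L.getD l v0c) ∈ leechLattice ∧ sqNorm (lvec (L.getD l v0c)) ≤ 64 := by
  by_cases hl : l < L.length
  · rw [List.getD_eq_getElem _ _ hl]
    have := List.all_eq_true.mp h _ (List.getElem_mem hl)
    rw [Bool.and_eq_true] at this
    refine ⟨mem_of_leechB this.1, ?_⟩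
    rw [sqNorm_of_normIs this.2]; norm_num
  · rw [List.getD_eq_default _ _ (by omega)]
    exact ⟨v0c_mem, by rw [v0c_sq]; norm_num⟩

theorem SubArr.conn {P0 : (GolayPt → ℤ) → Prop} {A : ℕ → ℕ} {N : ℕ} (h : SubArr P0 A N)
    {gens : List GenData} {S : List ℕ} {cert lab : ℕ → ℕ} {RL : List ℕ} {rel : ℕ → Bool}
    (hg : gens.all (fun d => genOK d && fixB d S) = true) (hS : ∀ c ∈ S, sqNorm (lvec c) ≤ 64)
    (hRL : RL.all (fun c => leechB c && normIs 32 c) = true)
    (hchk : ∀ i < N, orbEntryF gens A cert (fun l => RL.getD l v0c) lab rel N i = true)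
    {x y : GolayPt → ℤ} (hx : x ∈ leechLattice) (hxn : sqNorm x = 32) (hx0 : P0 x)
    (hy : y ∈ leechLattice) (hyn : sqNorm y = 32) (hy0 : P0 y) (l : ℕ) (hl : rel l = true)
    (hxl : ∀ i < N, x = lvec (A i) → lab (A i) = l)
    (hyl : ∀ i < N, y = lvec (A i) → lab (A i) = l) : Conn S x y := by
  have key := orbitF_of_check (gens := gens) (S := S) (A := A) (cert := cert)
    (root := fun l => RL.getD l v0c) (lab := lab) (rel := rel) (N := N)
    (by
      intro d hd
      have := List.all_eq_true.mp hg d hd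
      rw [Bool.and_eq_true] at this
      exact this) hS (fun l => rootL_ok hRL l) h.valid hchk
  obtain ⟨i, hi, rfl⟩ := h.complete x hx hxn hx0
  obtain ⟨j, hj, rfl⟩ := h.complete y hy hyn hy0
  have h1 := key i hi (by rw [hxl i hi rfl]; exact hl)
  have h2 := key j hj (by rw [hyl j hj rfl]; exact hl)
  rw [hxl i hi rfl] at h1
  rw [hyl j hj rfl] at h2
  exact h1.symm.trans h2

theorem conj_fix {h g0 : Co0} {t t0 : ↥leechLattice} (ht : h • t = t0) (hg : g0 • t0 = t0) :
    (h⁻¹ * g0 * h) • t = t := by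
  rw [mul_smul, mul_smul, ht, hg, ← ht, inv_smul_smul]

theorem conj_map {h g0 : Co0} {y y' : ↥leechLattice} (e : g0 • (h • y) = h • y') :
    (h⁻¹ * g0 * h) • y = y' := by
  rw [mul_smul, mul_smul, e, inv_smul_smul]

theorem fixS_apply {S : List ℕ} {g : Co0} (hg : g ∈ fixS S) {c : ℕ} (hc : c ∈ S)
    (hm : lvec c ∈ leechLattice) : g • (⟨lvec c, hm⟩ : ↥leechLattice) = ⟨lvec c, hm⟩ := hg c hc hm

/-- equal norm and inner product equal to the norm forces equality -/
theorem eq_of_dot_eq_norm {x y : GolayPt → ℤ} {n : ℤ} (hx : sqNorm x = n) (hy : sqNorm y = n)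
    (hd : dotInt x y = n) : x = y := by
  have h := sqNorm_sub x y
  rw [hx, hy, hd] at h
  exact sub_eq_zero.mp (sqNorm_eq_zero (by omega))

theorem co_dot' (g : Co0) {a b : ↥leechLattice} {a' : ↥leechLattice} (ha : g • a = a') :
    dotInt (a' : GolayPt → ℤ) ((g • b : ↥leechLattice) : GolayPt → ℤ) =
      dotInt (a : GolayPt → ℤ) (b : GolayPt → ℤ) := by
  rw [← ha]; exact co_dot g a b

theorem co_sqsub (g : Co0) {a b : ↥leechLattice} {a' : ↥leechLattice} (ha : g • a = a') :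
    sqNorm ((a' : GolayPt → ℤ) - ((g • b : ↥leechLattice) : GolayPt → ℤ)) =
      sqNorm ((a : GolayPt → ℤ) - (b : GolayPt → ℤ)) := by
  have h := co_norm g (a - b)
  rw [co_sub, ha] at h
  exact h

/-- the orbit of a subgroup `H` equals a set on which it acts transitively -/
theorem orbit_eq_of_trans (H : Subgroup Co0) (T : Set ↥leechLattice) (y : ↥leechLattice) (hy : y ∈ T)
    (hinv : ∀ g ∈ H, ∀ z ∈ T, g • z ∈ T) (htr : ∀ z ∈ T, ∃ g ∈ H, g • y = z) :
    MulAction.orbit ↥H y = T := by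
  ext z
  constructor
  · rintro ⟨⟨g, hg⟩, rfl⟩
    exact hinv g hg y hy
  · intro hz
    obtain ⟨g, hg, e⟩ := htr z hz
    exact ⟨⟨g, hg⟩, e⟩

end Cfsg.Agent.Lib.Helper8
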