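import Cfsg.Agent.Lib.Helper8.LeechSubData

set_option autoImplicit false

namespace Cfsg.Agent.Lib.Helper8

def cov4 (l : ℕ) : Bool := Nat.beq l 0 || Nat.beq l 72 || Nat.beq l 80 || Nat.beq l 96
def cov5 (l : ℕ) : Bool := Nat.beq l 56 || Nat.beq l 64 || Nat.beq l 72 || Nat.beq l 80 || Nat.beq l 96

theorem covU : allBelow 552 (fun i => cov4 (labU (BA i))) = true := by decide +kernel
theorem covMb : allBelow 552 (fun i => cov4 (labMb (BA i))) = true := by decide +kernel
theorem covR0 : allBelow 3726 (fun k => cov5 (labR (BM (0 * 3726 + k)))) = true := by decide +kernel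
theorem covR1 : allBelow 3726 (fun k => cov5 (labR (BM (1 * 3726 + k)))) = true := by decide +kernel
theorem covR2 : allBelow 3726 (fun k => cov5 (labR (BM (2 * 3726 + k)))) = true := by decide +kernel
theorem covR : ∀ i < 11178, cov5 (labR (BM i)) = true := by
  apply of_blocks (p := fun i => cov5 (labR (BM i))) (B := 3) (K := 3726)
  intro b hb
  interval_cases b
  · exact covR0
  · exact covR1
  · exact covR2

end Cfsg.Agent.Lib.Helper8
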