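import Cfsg.Agent.Lib.Helper8.LeechSubA
import Cfsg.Agent.Lib.Helper8.LeechSubM
import Cfsg.Agent.Lib.Helper8.LeechSubP
import Cfsg.Agent.Lib.Helper8.LeechSubX
import Cfsg.Agent.Lib.Helper8.LeechSub2

set_option autoImplicit false

namespace Cfsg.Agent.Lib.Helper8

open Cfsg

theorem cls3_80 : (∑ i ∈ Finset.range 196560, s3f i) / (2 ^ 20) ^ 80 % 2 ^ 20 = 11178 := by
  rw [s3b_all]; decide +kernel

theorem hP3 (t : ℤ) (s : ℕ) (hs : t = (s : ℤ) - 64) :
    ∀ i < 196560, (dotInt (lvec u0c) (lvec (A2 i)) = t ↔ lab3 (A2 i) = s) := by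
  intro i hi
  rw [dot_u0 i hi, hs]; omega

theorem SA : SubArr (fun x => dotInt (lvec u0c) x = 24) BA 552 :=
  SubArr.of_idx (lab := lab3) (s := 88) (hP3 24 88 (by norm_num))
    (by rw [ncard_dot_u0 24 88 (by norm_num), cls3_88]) subA_all

theorem SM : SubArr (fun x => dotInt (lvec u0c) x = -16) BM 11178 :=
  SubArr.of_idx (lab := lab3) (s := 48) (hP3 (-16) 48 (by norm_num))
    (by rw [ncard_dot_u0 (-16) 48 (by norm_num), cls3_48]) subM_all

theorem SP : SubArr (fun x => dotInt (lvec u0c) x = 16) BP 11178 :=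
  SubArr.of_idx (lab := lab3) (s := 80) (hP3 16 80 (by norm_num))
    (by rw [ncard_dot_u0 16 80 (by norm_num), cls3_80]) subP_all

theorem base_r48 : baseOK r48c 32 5824 = true := by
  have := base_ok; simp only [Bool.and_eq_true] at this; exact this.1.1.1.1.1
theorem base_x0 : baseOK x0c 32 5888 = true := by
  have := base_ok; simp only [Bool.and_eq_true] at this; exact this.1.1.1.1.2
theorem base_y0 : baseOK y0c 32 5824 = true := by
  have := base_ok; simp only [Bool.and_eq_true] at this; exact this.1.1.1.2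
theorem base_z0 : baseOK z0c 32 5888 = true := by
  have := base_ok; simp only [Bool.and_eq_true] at this; exact this.1.1.2
theorem base_wh : baseOK whc 48 5984 = true := by
  have := base_ok; simp only [Bool.and_eq_true] at this; exact this.1.2
theorem base_w1 : baseOK w1c 32 5792 = true := by
  have := base_ok; simp only [Bool.and_eq_true] at this; exact of_decide_eq_true this.2
theorem base_u0 : baseOK u0c 48 5856 = true := by decide +kernel
theorem base_v0 : baseOK v0c 32 5952 = true := by decide +kernel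

theorem base_le {V n c : ℕ} (h : baseOK V n c = true) : sqNorm (lvec V) ≤ 64 := by
  obtain ⟨_, _, h3, _, h5⟩ := baseOK_spec h
  rw [h3]; exact_mod_cast h5

/-- evaluation of an inner product of two base vectors -/
theorem dot_val {V n c Y c' l : ℕ} (h : baseOK V n c = true) (hY : baseOK Y 32 c' = true)
    (hl : labD (kList V) c Y = l) : dotInt (lvec V) (lvec Y) = (l : ℤ) - 64 := by
  obtain ⟨h1, _, h3, _, _⟩ := baseOK_spec hY
  rw [baseOK_dot h h1 (by rw [h3]; norm_num), hl]

theorem lab2L_eq_iff {f g : ℕ → ℕ} {a Y s : ℕ} (hs : s ≠ 0) :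
    lab2L f a g Y = s ↔ f Y = a ∧ g Y = s := by
  unfold lab2L
  by_cases h : f Y = a
  · have : Nat.beq (f Y) a = true := by rw [h]; exact Nat.beq_refl a
    rw [this, cond_true]; exact ⟨fun e => ⟨h, e⟩, fun e => e.2⟩
  · have : Nat.beq (f Y) a = false := by
      cases hb : Nat.beq (f Y) a with
      | false => rfl
      | true => exact absurd (Nat.eq_of_beq_eq_true hb) h
    rw [this, cond_false]
    exact ⟨fun e => absurd e.symm hs, fun e => absurd e.1 h⟩

theorem SubArr.conn' {P0 : (GolayPt → ℤ) → Prop} {A : ℕ → ℕ} {N : ℕ} (h : SubArr P0 A N)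
    {gens : List GenData} {S : List ℕ} {cert lab : ℕ → ℕ} {RL : List ℕ} {rel : ℕ → Bool}
    (hg : gens.all (fun d => genOK d && fixB d S) = true) (hS : ∀ c ∈ S, sqNorm (lvec c) ≤ 64)
    (hRL : RL.all (fun c => leechB c && normIs 32 c) = true)
    (hchk : ∀ i < N, orbEntryF gens A cert (fun l => RL.getD l v0c) lab rel N i = true)
    (P : (GolayPt → ℤ) → Prop) (l : ℕ) (hl : rel l = true)
    (hP : ∀ i < N, P (lvec (A i)) → lab (A i) = l)
    {x y : GolayPt → ℤ} (hx : x ∈ leechLattice) (hxn : sqNorm x = 32) (hx0 : P0 x) (hxP : P x)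
    (hy : y ∈ leechLattice) (hyn : sqNorm y = 32) (hy0 : P0 y) (hyP : P y) : Conn S x y :=
  h.conn hg hS hRL hchk hx hxn hx0 hy hyn hy0 l hl (fun i hi e => hP i hi (e ▸ hxP))
    (fun i hi e => hP i hi (e ▸ hyP))

/-! ### label translations on the three arrays -/

theorem dotD {P0 : (GolayPt → ℤ) → Prop} {A : ℕ → ℕ} {N : ℕ} (h : SubArr P0 A N) {V n c : ℕ}
    (hV : baseOK V n c = true) (i : ℕ) (hi : i < N) :
    dotInt (lvec V) (lvec (A i)) = (labD (kList V) c (A i) : ℤ) - 64 :=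
  baseOK_dot hV (h.valid i hi) (h.mem i hi).2.1

theorem S3le : ∀ c ∈ [u0c, v0c, w1c], sqNorm (lvec c) ≤ 64 := by
  intro c hc
  simp only [List.mem_cons, List.not_mem_nil, or_false] at hc
  rcases hc with rfl | rfl | rfl
  · exact base_le base_u0
  · exact base_le base_v0
  · exact base_le base_w1

theorem S3x : ∀ c ∈ [u0c, v0c, w1c, x0c], sqNorm (lvec c) ≤ 64 := by
  intro c hc
  simp only [List.mem_cons, List.not_mem_nil, or_false] at hc
  rcases hc with rfl | rfl | rfl | rfl
  · exact base_le base_u0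
  · exact base_le base_v0
  · exact base_le base_w1
  · exact base_le base_x0

theorem S3y : ∀ c ∈ [u0c, v0c, w1c, y0c], sqNorm (lvec c) ≤ 64 := by
  intro c hc
  simp only [List.mem_cons, List.not_mem_nil, or_false] at hc
  rcases hc with rfl | rfl | rfl | rfl
  · exact base_le base_u0
  · exact base_le base_v0
  · exact base_le base_w1
  · exact base_le base_y0

theorem S3h : ∀ c ∈ [u0c, r48c, whc], sqNorm (lvec c) ≤ 64 := by
  intro c hc
  simp only [List.mem_cons, List.not_mem_nil, or_false] at hc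
  rcases hc with rfl | rfl | rfl
  · exact base_le base_u0
  · exact base_le base_r48
  · exact base_le base_wh

theorem S3z : ∀ c ∈ [u0c, r48c, whc, z0c], sqNorm (lvec c) ≤ 64 := by
  intro c hc
  simp only [List.mem_cons, List.not_mem_nil, or_false] at hc
  rcases hc with rfl | rfl | rfl | rfl
  · exact base_le base_u0
  · exact base_le base_r48
  · exact base_le base_wh
  · exact base_le base_z0

/-! ### McL on 275 -/

theorem mcl275_conn {x y : GolayPt → ℤ} (hx : x ∈ leechLattice) (hxn : sqNorm x = 32)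
    (hx0 : dotInt (lvec u0c) x = 24) (hx1 : dotInt (lvec v0c) x = 16)
    (hy : y ∈ leechLattice) (hyn : sqNorm y = 32)
    (hy0 : dotInt (lvec u0c) y = 24) (hy1 : dotInt (lvec v0c) y = 16) :
    Conn [u0c, v0c, w1c] x y :=
  SA.conn' mclgens_ok S3le kMcARL_ok kMcAb_all (fun x => dotInt (lvec v0c) x = 16) 20 rfl
    (fun i _ h => by rw [dot_v0] at h; omega) hx hxn hx0 hx1 hy hyn hy0 hy1

theorem mcl275_card : {x : GolayPt → ℤ | x ∈ leechLattice ∧ sqNorm x = 32 ∧
    dotInt (lvec u0c) x = 24 ∧ dotInt (lvec v0c) x = 16}.ncard = 275 := by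
  rw [SA.ncard_class (by norm_num) (fun x => dotInt (lvec v0c) x = 16) lab2 20
    (fun i _ => by rw [dot_v0]; omega), sA2_all]
  decide +kernel

theorem labU_iff (i : ℕ) (hi : i < 552) (t : ℤ) (s : ℕ) (hs : s ≠ 0) (hts : t = (s : ℤ) - 64) :
    (dotInt (lvec v0c) (lvec (BA i)) = 16 ∧ dotInt (lvec x0c) (lvec (BA i)) = t) ↔
      labU (BA i) = s := by
  unfold labU
  rw [lab2L_eq_iff hs, dot_v0, dotD SA base_x0 i hi]
  unfold labX
  omega

theorem u43_conn (t : ℤ) (ht : t = 8 ∨ t = 16) {x y : GolayPt → ℤ}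
    (hx : x ∈ leechLattice) (hxn : sqNorm x = 32)
    (hx0 : dotInt (lvec u0c) x = 24) (hx1 : dotInt (lvec v0c) x = 16) (hx2 : dotInt (lvec x0c) x = t)
    (hy : y ∈ leechLattice) (hyn : sqNorm y = 32)
    (hy0 : dotInt (lvec u0c) y = 24) (hy1 : dotInt (lvec v0c) y = 16) (hy2 : dotInt (lvec x0c) y = t) :
    Conn [u0c, v0c, w1c, x0c] x y := by
  rcases ht with rfl | rfl
  · exact SA.conn' u43gens_ok S3x kURL_ok kUb_all
      (fun x => dotInt (lvec v0c) x = 16 ∧ dotInt (lvec x0c) x = 8) 72 rfl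
      (fun i hi h => (labU_iff i hi 8 72 (by norm_num) (by norm_num)).mp h)
      hx hxn hx0 ⟨hx1, hx2⟩ hy hyn hy0 ⟨hy1, hy2⟩
  · exact SA.conn' u43gens_ok S3x kURL_ok kUb_all
      (fun x => dotInt (lvec v0c) x = 16 ∧ dotInt (lvec x0c) x = 16) 80 rfl
      (fun i hi h => (labU_iff i hi 16 80 (by norm_num) (by norm_num)).mp h)
      hx hxn hx0 ⟨hx1, hx2⟩ hy hyn hy0 ⟨hy1, hy2⟩

theorem u43_card8 : {x : GolayPt → ℤ | x ∈ leechLattice ∧ sqNorm x = 32 ∧
    dotInt (lvec u0c) x = 24 ∧ dotInt (lvec v0c) x = 16 ∧ dotInt (lvec x0c) x = 8}.ncard = 112 := by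
  rw [SA.ncard_class (by norm_num)
    (fun x => dotInt (lvec v0c) x = 16 ∧ dotInt (lvec x0c) x = 8) labU 72
    (fun i hi => labU_iff i hi 8 72 (by norm_num) (by norm_num)), sAU_all]
  decide +kernel

theorem u43_card16 : {x : GolayPt → ℤ | x ∈ leechLattice ∧ sqNorm x = 32 ∧
    dotInt (lvec u0c) x = 24 ∧ dotInt (lvec v0c) x = 16 ∧ dotInt (lvec x0c) x = 16}.ncard = 162 := by
  rw [SA.ncard_class (by norm_num)
    (fun x => dotInt (lvec v0c) x = 16 ∧ dotInt (lvec x0c) x = 16) labU 80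
    (fun i hi => labU_iff i hi 16 80 (by norm_num) (by norm_num)), sAU_all]
  decide +kernel

theorem cov4_spec {l : ℕ} (h : cov4 l = true) : l = 0 ∨ l = 72 ∨ l = 80 ∨ l = 96 := by
  unfold cov4 at h
  simp only [Bool.or_eq_true] at h
  rcases h with ((h | h) | h) | h
  · left; exact Nat.eq_of_beq_eq_true h
  · right; left; exact Nat.eq_of_beq_eq_true h
  · right; right; left; exact Nat.eq_of_beq_eq_true h
  · right; right; right; exact Nat.eq_of_beq_eq_true h

theorem u43_cov {x : GolayPt → ℤ} (hx : x ∈ leechLattice) (hxn : sqNorm x = 32)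
    (hx0 : dotInt (lvec u0c) x = 24) (hx1 : dotInt (lvec v0c) x = 16) :
    dotInt (lvec x0c) x = 8 ∨ dotInt (lvec x0c) x = 16 ∨ dotInt (lvec x0c) x = 32 := by
  obtain ⟨i, hi, rfl⟩ := SA.complete x hx hxn hx0
  have h := cov4_spec (of_allBelow covU i hi)
  have h20 : lab2 (BA i) = 20 := by rw [dot_v0] at hx1; omega
  have e : labU (BA i) = labX (BA i) := by
    unfold labU lab2L
    rw [h20, Nat.beq_refl, cond_true]
  rw [e] at h
  rw [dotD SA base_x0 i hi]
  have hpos : dotInt (lvec x0c) (lvec (BA i)) = (labX (BA i) : ℤ) - 64 := dotD SA base_x0 i hi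
  have h3 := sqNorm_add (lvec x0c) (lvec (BA i))
  have h4 := sqNorm_nonneg (lvec x0c + lvec (BA i))
  have h5 := base_le base_x0
  unfold labX at h hpos
  omega

end Cfsg.Agent.Lib.Helper8
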