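import Cfsg.Agent.Lib.Helper8.LeechLam2

set_option autoImplicit false

namespace Cfsg.Agent.Lib.Helper8

open Cfsg

def sumGo (f : ℕ → ℕ) (n : ℕ) : ℕ → ℕ :=
  Nat.rec (motive := fun _ => ℕ → ℕ) (fun acc => acc)
    (fun k ih acc => force (Nat.add acc (f k)) ih) n

def sumBelow (n : ℕ) (f : ℕ → ℕ) : ℕ := sumGo f n 0

theorem sumGo_eq (n : ℕ) (f : ℕ → ℕ) (acc : ℕ) :
    sumGo f n acc = acc + ∑ k ∈ Finset.range n, f k := by
  induction n generalizing acc with
  | zero => simp [sumGo]
  | succ k ih =>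
    have : sumGo f (k + 1) acc = force (Nat.add acc (f k)) (sumGo f k) := rfl
    rw [this, force_eq, ih, Finset.sum_range_succ]
    show acc + f k + _ = _
    omega

theorem sumBelow_eq (n : ℕ) (f : ℕ → ℕ) : sumBelow n f = ∑ k ∈ Finset.range n, f k := by
  rw [sumBelow, sumGo_eq, Nat.zero_add]

theorem sum_blocks (f : ℕ → ℕ) (B K : ℕ) :
    ∑ i ∈ Finset.range (B * K), f i = ∑ b ∈ Finset.range B, ∑ k ∈ Finset.range K, f (b * K + k) := by
  induction B with
  | zero => simp
  | succ B ih => rw [Nat.succ_mul, Finset.sum_range_add, ih, Finset.sum_range_succ]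

/-- counting a class of minimal vectors described by a label on codes -/
theorem ncard_class (P : (GolayPt → ℤ) → Prop) (lab : ℕ → ℕ) (s : ℕ)
    (hP : ∀ i < 196560, (P (lvec (A2 i)) ↔ lab (A2 i) = s)) :
    {x : GolayPt → ℤ | x ∈ leechLattice ∧ sqNorm x = 32 ∧ P x}.ncard =
      (∑ i ∈ Finset.range 196560, (2 ^ 20) ^ lab (A2 i)) / (2 ^ 20) ^ s % 2 ^ 20 := by
  rw [← digit_count (Finset.range 196560) (fun i => lab (A2 i)) (2 ^ 20) s
    (by rw [Finset.card_range]; norm_num)]
  have e : {x : GolayPt → ℤ | x ∈ leechLattice ∧ sqNorm x = 32 ∧ P x} =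
      ↑(((Finset.range 196560).filter fun i => lab (A2 i) = s).image fun i => lvec (A2 i)) := by
    ext x
    simp only [Set.mem_ofPred_eq, Finset.coe_image, Finset.coe_filter, Finset.mem_range,
      Set.mem_image]
    constructor
    · rintro ⟨h1, h2, h3⟩
      obtain ⟨i, hi, rfl⟩ := A2_complete x h1 h2
      exact ⟨i, ⟨hi, (hP i hi).mp h3⟩, rfl⟩
    · rintro ⟨i, ⟨hi, h3⟩, rfl⟩
      have := A2_mem i hi
      exact ⟨this.1, by rw [this.2]; norm_num, (hP i hi).mpr h3⟩
  rw [e, Set.ncard_coe_finset, Finset.card_image_of_injOn]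
  intro i hi j hj hij
  simp only [Finset.coe_filter, Finset.mem_range, Set.mem_ofPred_eq] at hi hj
  have h1 := lvec_inj (A2_valid i hi.1).1 (A2_valid j hj.1).1 hij
  by_contra hne
  have hmono : ∀ j, j < 196560 → ∀ i < j, A2 i < A2 j := by
    intro j
    induction j with
    | zero => intro _ i hi; omega
    | succ j ih =>
      intro hj i hi
      have h1 := A2_sorted j hj
      rcases Nat.lt_succ_iff_lt_or_eq.mp hi with h' | h'
      · exact lt_trans (ih (by omega) i h') h1
      · rw [h']; exact h1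
  rcases lt_or_gt_of_ne hne with h' | h'
  · have := hmono j hj.1 i h'; omega
  · have := hmono i hi.1 j h'; omega

theorem dotInt_lvec (V Y : ℕ) : dotInt (lvec V) (lvec Y) =
    ∑ j ∈ Finset.range 24, ((dg V j : ℤ) - 8) * ((dg Y j : ℤ) - 8) := by
  unfold dotInt lvec
  exact sum_pts (fun j => ((dg V j : ℤ) - 8) * ((dg Y j : ℤ) - 8))

/-- isometries preserve inner products -/
theorem co_dot (g : Co0) (v w : ↥leechLattice) :
    dotInt ((g • v : ↥leechLattice) : GolayPt → ℤ) ((g • w : ↥leechLattice) : GolayPt → ℤ) =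
      dotInt (v : GolayPt → ℤ) (w : GolayPt → ℤ) := by
  have h1 : g • (v + w) = g • v + g • w := g.2.1 v w
  have h2 := co_norm g (v + w)
  rw [h1, AddSubgroup.coe_add, AddSubgroup.coe_add, sqNorm_add, sqNorm_add, co_norm, co_norm] at h2
  omega

end Cfsg.Agent.Lib.Helper8
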