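import Cfsg.Agent.Lib.Helper8.M9Data
import Cfsg.Agent.Lib.Helper8.M12
import Cfsg.Agent.Lib.Helper8.FixCount
import Mathlib.GroupTheory.SpecificGroups.Quaternion

set_option autoImplicit false

namespace Cfsg.Agent.Lib.Helper8

open Cfsg
open scoped Pointwise

instance fact3' : Fact (Nat.Prime 3) := ⟨by norm_num⟩
instance fact2' : Fact (Nat.Prime 2) := ⟨by norm_num⟩

theorem sylow3_of_count {G : Type*} [Group G] [Finite G] (hG : Nat.card G = 72)
    (h9 : ∀ x : G, x ^ 9 = 1 → x ^ 3 = 1) (hc : {x : G | x ^ 3 = 1}.ncard = 9) (Q : Sylow 3 G) :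
    (Q : Subgroup G).Normal ∧ Nat.card Q = 9 ∧ ∀ x ∈ (Q : Subgroup G), x ^ 3 = 1 := by
  obtain ⟨n, hn⟩ := IsPGroup.iff_card.mp Q.isPGroup'
  have hidx : ¬ 3 ∣ (Q : Subgroup G).index := Q.not_dvd_index
  have hmul := Subgroup.card_mul_index (Q : Subgroup G)
  rw [hG] at hmul
  have hcard : Nat.card Q = 9 := by
    have hn' : Nat.card (Q : Subgroup G) = 3 ^ n := hn
    rw [hn'] at hmul
    have hle : n ≤ 2 := by
      by_contra hlt
      have h27 : 3 ^ 3 ∣ 3 ^ n := Nat.pow_dvd_pow 3 (by omega)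
      have : 3 ^ 3 ∣ 72 := by rw [← hmul]; exact Dvd.dvd.mul_right h27 _
      norm_num at this
    rw [hn]
    interval_cases n
    · exfalso; apply hidx; rw [show (Q : Subgroup G).index = 72 by omega]; norm_num
    · exfalso; apply hidx; rw [show (Q : Subgroup G).index = 24 by omega]; norm_num
    · norm_num
  have hexp : ∀ x ∈ (Q : Subgroup G), x ^ 3 = 1 := by
    intro x hx
    apply h9
    have := pow_card_eq_one' (x := (⟨x, hx⟩ : (Q : Subgroup G)))
    rw [show Nat.card (Q : Subgroup G) = 9 from hcard] at this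
    exact congrArg Subtype.val this
  have hset : ((Q : Subgroup G) : Set G) = {x : G | x ^ 3 = 1} := by
    apply Set.eq_of_subset_of_ncard_le
    · intro x hx; exact hexp x hx
    · rw [hc]
      have : ((Q : Subgroup G) : Set G).ncard = Nat.card (Q : Subgroup G) := rfl
      rw [this, show Nat.card (Q : Subgroup G) = 9 from hcard]
    · exact Set.toFinite _
  refine ⟨⟨fun x hx g => ?_⟩, hcard, hexp⟩
  have : g * x * g⁻¹ ∈ ((Q : Subgroup G) : Set G) := by
    rw [hset]
    show (g * x * g⁻¹) ^ 3 = 1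
    rw [conj_pow, hexp x hx]; group
  exact this

/-! ### the quaternion group -/

def g8 : QuaternionGroup 2 → ℕ
  | .a i => getR 120 q8A i.val
  | .xa i => getR 120 q8A (4 + i.val)

def compOK (A B C : ℕ) : Bool := allBelow 24 fun i => Nat.beq (img A (img B i)) (img C i)

theorem compOK_sound {A B C : ℕ} (hA : validT A = true) (hB : validT B = true)
    (hC : validT C = true) (h : compOK A B C = true) : toPerm A * toPerm B = toPerm C := by
  apply Equiv.ext
  intro p
  have hp := idx_lt p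
  rw [← pt_idx p, Equiv.Perm.mul_apply, toPerm_pt hB hp, toPerm_pt hA (img_lt hB hp),
    toPerm_pt hC hp, Nat.eq_of_beq_eq_true (of_allBelow h _ hp)]

abbrev LQ : List ℕ := [2 ^ 3, 2 ^ 2, 2 ^ 1, 2 ^ 0, 340831]
abbrev LM9 : List ℕ := [2 ^ 2, 2 ^ 1, 2 ^ 0, 340831]

theorem g8_mem : ∀ u : QuaternionGroup 2, invTest LQ (g8 u) = true := by decide +kernel
theorem g8_mul : ∀ u v : QuaternionGroup 2, compOK (g8 u) (g8 v) (g8 (u * v)) = true := by
  decide +kernel
theorem g8_ne : ∀ u : QuaternionGroup 2, u ≠ 1 → movesT (g8 u) = true := by decide +kernel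

noncomputable def f8 : QuaternionGroup 2 →* Equiv.Perm GolayPt :=
  MonoidHom.mk' (fun u => toPerm (g8 u)) (fun u v =>
    (compOK_sound (toPerm_mem_GInv (g8_mem u)).1 (toPerm_mem_GInv (g8_mem v)).1
      (toPerm_mem_GInv (g8_mem (u * v))).1 (g8_mul u v)).symm)

theorem f8_inj : Function.Injective f8 := by
  rw [injective_iff_map_eq_one]
  intro u hu
  by_contra hne
  exact toPerm_ne_one (toPerm_mem_GInv (g8_mem u)).1 (g8_ne u hne) hu

theorem f8_range : f8.range = GInv LQ := by
  apply Subgroup.eq_of_le_of_card_ge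
  · rintro _ ⟨u, rfl⟩
    exact (toPerm_mem_GInv (g8_mem u)).2
  · rw [card_D4, Nat.card_congr (MonoidHom.ofInjective f8_inj).symm.toEquiv,
      Nat.card_eq_fintype_card, QuaternionGroup.card]

theorem quat_equiv : Nonempty (GInv LQ ≃* QuaternionGroup 2) :=
  ⟨((MonoidHom.ofInjective f8_inj).trans (MulEquiv.subgroupCongr f8_range)).symm⟩

/-! ### powers -/

def powOne (e T : ℕ) : Bool := allBelow 24 fun j => Nat.beq (itT T e j) j

theorem powOne_iff {T : ℕ} (hT : validT T = true) (e : ℕ) :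
    powOne e T = true ↔ toPerm T ^ e = 1 := by
  rw [powOne, allBelow_iff]
  constructor
  · intro h
    apply Equiv.ext
    intro p
    have hp := idx_lt p
    rw [← pt_idx p, toPerm_pow_pt hT hp, Nat.eq_of_beq_eq_true (h _ hp)]
    rfl
  · intro h i hi
    have h1 := toPerm_pow_pt hT hi e
    rw [h, Equiv.Perm.one_apply] at h1
    have h2 := congrArg idx h1
    rw [idx_pt hi, idx_pt (itT_lt hT hi e)] at h2
    rw [← h2]; exact Nat.beq_refl _

theorem m72_nine : allBelow 72 (fun i => !(powOne 9 (getR 120 m72A i)) ||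
    powOne 3 (getR 120 m72A i)) = true := by decide +kernel

theorem m72_cnt : countBelow 72 (fun i => powOne 3 (getR 120 m72A i)) = 9 := by decide +kernel

theorem M9_nine : ∀ g ∈ GInv LM9, g ^ 9 = 1 → g ^ 3 = 1 :=
  forall_of_list card_D3 m72_mem m72_inc _ (fun T => !(powOne 9 T) || powOne 3 T)
    (fun T hT h h9 => by
      rw [(powOne_iff hT 9).mpr h9] at h
      simp only [Bool.not_true, Bool.false_or] at h
      exact (powOne_iff hT 3).mp h) m72_nine

theorem M9_cnt : {g : Equiv.Perm GolayPt | g ∈ (GInv LM9 : Set (Equiv.Perm GolayPt)) ∧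
    g ^ 3 = 1}.ncard = 9 := by
  have hm : ∀ i < 72, validT (getR 120 m72A i) = true ∧ toPerm (getR 120 m72A i) ∈ GInv LM9 := by
    intro i hi
    have := of_allBelow m72_mem i hi
    rw [invTestF_eq] at this
    exact toPerm_mem_GInv this
  have hmono := strictMono_of_incCheck m72_inc
  rw [← m72_cnt]
  exact ncard_enum_filter (GInv LM9 : Set (Equiv.Perm GolayPt))
    (fun i => toPerm (getR 120 m72A i)) 72 (fun i hi => (hm i hi).2)
    (fun a ha => by
      obtain ⟨i, hi, e⟩ := list_complete card_D3 m72_mem m72_inc a ha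
      exact ⟨i, hi, e.symm⟩)
    (by
      intro i j hi hj e
      have e' := toPerm_inj (hm i hi).1 (hm j hj).1 (getR_lt _ _ _) (getR_lt _ _ _) e
      by_contra hne
      rcases Nat.lt_or_gt_of_ne hne with h | h
      · exact absurd e' (Nat.ne_of_lt (hmono i j h hj))
      · exact absurd e'.symm (Nat.ne_of_lt (hmono j i h hi)))
    (fun σ => σ ^ 3 = 1) (fun i => powOne 3 (getR 120 m72A i))
    (fun i hi => powOne_iff (hm i hi).1 3)

theorem m9_main (d : Finset GolayPt) (hd : d ∈ dodecads) (p q r : GolayPt) (hp : p ∈ d)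
    (hq : q ∈ d) (hr : r ∈ d) (hpq : p ≠ q) (hpr : p ≠ r) (hqr : q ≠ r) :
    (∀ Q : Sylow 3 ↥(MulAction.stabilizer M24 d ⊓ MulAction.stabilizer M24 p ⊓
        MulAction.stabilizer M24 q ⊓ MulAction.stabilizer M24 r),
      (Q : Subgroup ↥(MulAction.stabilizer M24 d ⊓ MulAction.stabilizer M24 p ⊓
        MulAction.stabilizer M24 q ⊓ MulAction.stabilizer M24 r)).Normal ∧ Nat.card ↥Q = 9 ∧
      ∀ x ∈ (Q : Subgroup ↥(MulAction.stabilizer M24 d ⊓ MulAction.stabilizer M24 p ⊓
        MulAction.stabilizer M24 q ⊓ MulAction.stabilizer M24 r)), x ^ 3 = 1) ∧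
    ∀ P : Sylow 2 ↥(MulAction.stabilizer M24 d ⊓ MulAction.stabilizer M24 p ⊓
        MulAction.stabilizer M24 q ⊓ MulAction.stabilizer M24 r),
      Nonempty (↥P ≃* QuaternionGroup 2) := by
  obtain ⟨w, hw, hwd, wp, wq, wr⟩ := normD3 hd hp hq hr hpq hpr hqr
  set H := MulAction.stabilizer M24 d ⊓ MulAction.stabilizer M24 p ⊓
        MulAction.stabilizer M24 q ⊓ MulAction.stabilizer M24 r with hH
  have hmem : ∀ k : M24, k ∈ H ↔ w * (k : Equiv.Perm GolayPt) * w⁻¹ ∈ GInv LM9 := by
    intro k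
    rw [mem_GInv_conj hw]
    simp only [List.mem_cons, List.not_mem_nil, or_false, forall_eq_or_imp, forall_eq,
      inv_conj_iff hwd, inv_conj_pt_iff (show 0 < 24 by norm_num) wp,
      inv_conj_pt_iff (show 1 < 24 by norm_num) wq, inv_conj_pt_iff (show 2 < 24 by norm_num) wr,
      hH, Subgroup.mem_inf, MulAction.mem_stabilizer_iff, k.2, true_and]
    constructor
    · rintro ⟨⟨⟨h1, h2⟩, h3⟩, h4⟩; exact ⟨h4, h3, h2, h1⟩
    · rintro ⟨h4, h3, h2, h1⟩; exact ⟨⟨⟨h1, h2⟩, h3⟩, h4⟩
  have hcardH : Nat.card H = 72 := by rw [card_eq_card_GInv _ _ hw hmem, card_D3]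
  let c : ↥H →* Equiv.Perm GolayPt :=
    (MulAut.conj w).toMonoidHom.comp (M24.subtype.comp H.subtype)
  have hc : ∀ g : ↥H, c g = w * ((g : M24) : Equiv.Perm GolayPt) * w⁻¹ := fun g => rfl
  have hcinj : Function.Injective c := by
    intro a b hab
    rw [hc, hc] at hab
    exact Subtype.ext (Subtype.ext (mul_left_cancel (mul_right_cancel hab)))
  have hcrange : c.range = GInv LM9 := by
    ext y
    constructor
    · rintro ⟨g, rfl⟩
      rw [hc]; exact (hmem g.1).mp g.2
    · intro hy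
      have e : w * (w⁻¹ * y * w) * w⁻¹ = y := by group
      have h1 : w⁻¹ * y * w ∈ M24 := M24.mul_mem (M24.mul_mem (M24.inv_mem hw) hy.1) hw
      have h2 : (⟨w⁻¹ * y * w, h1⟩ : M24) ∈ H := by
        rw [hmem]
        show w * (w⁻¹ * y * w) * w⁻¹ ∈ _
        rw [e]; exact hy
      exact ⟨⟨⟨w⁻¹ * y * w, h1⟩, h2⟩, e⟩
  constructor
  · apply sylow3_of_count hcardH
    · intro x hx
      have h1 : c x ∈ GInv LM9 := by rw [← hcrange]; exact ⟨x, rfl⟩
      have h2 := M9_nine (c x) h1 (by rw [← map_pow, hx, map_one])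
      rw [← map_pow] at h2
      exact hcinj (h2.trans (map_one c).symm)
    · rw [← M9_cnt, ← Set.ncard_image_of_injective _ hcinj]
      congr 1
      ext y
      constructor
      · rintro ⟨x, hx, rfl⟩
        refine ⟨by rw [SetLike.mem_coe, ← hcrange]; exact ⟨x, rfl⟩, ?_⟩
        have hx' : x ^ 3 = 1 := hx
        rw [← map_pow, hx', map_one]
      · rintro ⟨hy, hy3⟩
        rw [SetLike.mem_coe, ← hcrange] at hy
        obtain ⟨x, rfl⟩ := hy
        refine ⟨x, ?_, rfl⟩
        rw [← map_pow] at hy3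
        exact hcinj (hy3.trans (map_one c).symm)
  · intro P
    -- the Sylow subgroup coming from a point stabiliser
    let P0 : Subgroup ↥H := (GInv LQ).comap c
    have hle : GInv LQ ≤ c.range := by
      rw [hcrange]
      exact GInv_mono (fun m hm => by simp only [List.mem_cons] at hm ⊢; tauto)
    have hmap : P0.map c = GInv LQ := Subgroup.map_comap_eq_self hle
    let e0 : P0 ≃* GInv LQ :=
      (P0.equivMapOfInjective c hcinj).trans (MulEquiv.subgroupCongr hmap)
    have hcard0 : Nat.card P0 = 8 := by rw [Nat.card_congr e0.toEquiv, card_D4]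
    have hp0 : IsPGroup 2 P0 := IsPGroup.of_card (n := 3) (by rw [hcard0]; norm_num)
    obtain ⟨P1, hP1⟩ := hp0.exists_le_sylow
    obtain ⟨n, hn⟩ := IsPGroup.iff_card.mp P1.isPGroup'
    have hdiv : Nat.card (P1 : Subgroup ↥H) ∣ 72 := by
      rw [← hcardH]; exact Subgroup.card_subgroup_dvd_card _
    have hle8 : Nat.card (P1 : Subgroup ↥H) ≤ 8 := by
      have hn' : Nat.card (P1 : Subgroup ↥H) = 2 ^ n := hn
      rw [hn'] at hdiv ⊢
      have hle : n ≤ 3 := by
        by_contra hlt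
        have h16 : 2 ^ 4 ∣ 2 ^ n := Nat.pow_dvd_pow 2 (by omega)
        have : 2 ^ 4 ∣ 72 := h16.trans hdiv
        norm_num at this
      calc 2 ^ n ≤ 2 ^ 3 := Nat.pow_le_pow_right (by norm_num) hle
        _ = 8 := by norm_num
    have heq : P0 = (P1 : Subgroup ↥H) :=
      Subgroup.eq_of_le_of_card_ge hP1 (by rw [hcard0]; exact hle8)
    obtain ⟨e1⟩ := quat_equiv
    exact ⟨((Sylow.equiv P P1).trans (MulEquiv.subgroupCongr heq.symm)).trans (e0.trans e1)⟩

end Cfsg.Agent.Lib.Helper8
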