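import Cfsg.Agent.Lib.Helper8.Pair
import Cfsg.Agent.Lib.Helper8.GList

set_option autoImplicit false

namespace Cfsg.Agent.Lib.Helper8

open Cfsg
open scoped Pointwise

def q8A : ℕ := 4466908814823195449358010540640483477776617953195281897767585201152435398022320019276321875121249310506814378188127971672533462680033352664968703236090462686027315436531491522168246439530724924787165319226918884240248252521522272221466979999385807704958812986701022184639969363042366490656

def m72A : ℕ := 58737998355468954905288547093370222515098593593678700529538799635262652061214281101177915372024180121076896787002102130552443107817011151136779260145585756382012019755779653531649525592447291120092982989156656190363957499642370168184103458255236733301837270414431824921463778633625550712740457456930243602722092100106840929120514156495697481471682507013448559753268896506870283860349078775182443424903732377719234079136398384428972038658956778570838428636258034200495410919849039181784177422847114314910404669661319844303805735493817689788121697446125248260263109552286984019226383254163760778090658807136084692488761856655560969474312991366622267835751012934457570522780947889368728849727982461276898968344215537139678608148222356152065316136169031559583751005664501434626188078284808848471780400047336515939740898456263415595276989061875313169540160851912191350994036485974252379092964428865426556781924522141585912145769747380619103537142288028225781404556349983797763032839045228940562499785311584077257938812137894084272678575357028717417252512657635962360105362502985647840035279461250753562489526928394679178084669711912812647538655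5195616355824379184416992587584929507516150276028169154445562278547406943518818578018926641243310249981957724853628535063465880194835345293266503895340324057438998620443615343914037410980187644453656643605705224095262052826348896786222135560422749738060991529297021344972417614232463195555368096524783110786290043066862414964996392441593529676519473472721138879576423013798138010921725052838620631644065806256439213260033134713803636657019348336019146087128603743003699033933939131735736961750440478335931298180905399965579463494246522667236768910794097645366650254198529161269845433514473968854731633108144615347950566638643620765481477960676459655853494185033560354924427934096301267501408004520658955790355251696088496772317623061539855016917115961319414679670510347133942043934958657598155062261046267595791998008001949238758606883966179609500498317408214339144632103866037031821314058584596772211860168855834119100436455755848916018164131208071955017685501108822285802882833589830983921966591891509014817574660988359391453591897576376541540249280251366433268837119938469816675705404604952804355817325659567220188863342505697193083352383442846911751793094030051348331471154200949473635828281825315751105701372918354729628658741211978816820154263831859160633496658495159255916688486877623225555013158687399061216305473258717918894378250000726017563534894668429365395135273994304231227618002050742891722066243221720383763801478494005294130893962457637747689504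

theorem m72_mem : allBelow 72 (fun i => invTestF [2 ^ 2, 2 ^ 1, 2 ^ 0, 340831] (getR 120 m72A i)) = true := by
  decide +kernel

theorem m72_inc : incCheck (getR 120 m72A) 72 = true := by
  decide +kernel


end Cfsg.Agent.Lib.Helper8
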