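import Cfsg.Agent.Lib.Helper8.OctAlt

set_option autoImplicit false

namespace Cfsg.Agent.Lib.Helper8

open Cfsg
open scoped Pointwise

theorem octad_splits (o : Finset GolayPt) (ho : o ∈ octads) (p : GolayPt) (hp : p ∉ o) :
    (M24 ⊓ fixingSubgroup (Equiv.Perm GolayPt) (o : Set GolayPt)) ⊓
      (M24 ⊓ MulAction.stabilizer (Equiv.Perm GolayPt) o ⊓
        MulAction.stabilizer (Equiv.Perm GolayPt) p) = ⊥ ∧
    (M24 ⊓ fixingSubgroup (Equiv.Perm GolayPt) (o : Set GolayPt)) ⊔
      (M24 ⊓ MulAction.stabilizer (Equiv.Perm GolayPt) o ⊓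
        MulAction.stabilizer (Equiv.Perm GolayPt) p) =
      (M24 ⊓ MulAction.stabilizer (Equiv.Perm GolayPt) o) ∧
    Nonempty (↥(M24 ⊓ MulAction.stabilizer (Equiv.Perm GolayPt) o ⊓
        MulAction.stabilizer (Equiv.Perm GolayPt) p) ≃* alternatingGroup (Fin 8)) := by
  have hK : ∀ g : Equiv.Perm GolayPt, g ∈ fixingSubgroup (Equiv.Perm GolayPt) (o : Set GolayPt) ↔
      ∀ a ∈ o, g a = a := by
    intro g
    rw [mem_fixingSubgroup_iff]
    rfl
  have hbot : ∀ g ∈ M24, (∀ a ∈ o, g a = a) → g p = p → g = 1 := by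
    intro g hg h1 h2
    apply eq_one_of_nine hg
    have hsub : insert p o ⊆ fixF g := by
      intro a ha
      rw [mem_fixF]
      rcases Finset.mem_insert.mp ha with rfl | ha
      · exact h2
      · exact h1 a ha
    have := Finset.card_le_card hsub
    rw [Finset.card_insert_of_notMem hp, ho.2] at this
    exact this
  have hfixstab : ∀ g : Equiv.Perm GolayPt, (∀ a ∈ o, g a = a) → g • o = o := by
    intro g h
    ext a
    constructor
    · intro ha
      obtain ⟨b, hb, rfl⟩ := Finset.mem_smul_finset.mp ha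
      rw [Equiv.Perm.smul_def, h b hb]; exact hb
    · intro ha
      rw [← h a ha, apply_mem_smul_iff]; exact ha
  -- decomposition
  have hdec : ∀ g ∈ M24, g • o = o → ∃ e ∈ M24, (∀ a ∈ o, e a = a) ∧ (e⁻¹ * g) p = p := by
    intro g hg hgo
    have hgp : g p ∉ o := by
      intro h
      rw [← hgo, apply_mem_smul_iff] at h
      exact hp h
    obtain ⟨e, he, he1, he2⟩ := oct_fix_trans ho hp hgp
    refine ⟨e, he, he1, ?_⟩
    rw [Equiv.Perm.mul_apply, ← he2]
    simp
  refine ⟨?_, ?_, ?_⟩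
  · rw [Subgroup.eq_bot_iff_forall]
    rintro g ⟨⟨hg, h1⟩, ⟨-, -⟩, h2⟩
    exact hbot g hg ((hK g).mp h1) h2
  · apply le_antisymm
    · apply sup_le
      · rintro g ⟨hg, h1⟩
        exact ⟨hg, hfixstab g ((hK g).mp h1)⟩
      · exact inf_le_left
    · rintro g ⟨hg, hgo⟩
      obtain ⟨e, he, he1, he2⟩ := hdec g hg hgo
      have : g = e * (e⁻¹ * g) := by group
      rw [this]
      apply Subgroup.mul_mem_sup
      · exact ⟨he, (hK e).mpr he1⟩
      · refine ⟨⟨M24.mul_mem (M24.inv_mem he) hg, ?_⟩, he2⟩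
        show (e⁻¹ * g) • o = o
        rw [mul_smul, show g • o = o from hgo, inv_smul_eq_iff, hfixstab e he1]
  · set A := M24 ⊓ MulAction.stabilizer (Equiv.Perm GolayPt) o ⊓
        MulAction.stabilizer (Equiv.Perm GolayPt) p with hA
    set φ := restrictHom (MulAction.stabilizer M24 o) o stab_oct_smul with hφ
    let ι : A →* MulAction.stabilizer M24 o :=
      { toFun := fun a => ⟨⟨a.1, a.2.1.1⟩, a.2.1.2⟩
        map_one' := rfl
        map_mul' := fun _ _ => rfl }
    have hmem : ∀ a : A, (φ.comp ι) a ∈ alternatingGroup ↥o := by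
      intro a
      rw [← range_oct ho]
      exact ⟨ι a, rfl⟩
    let ψ : A →* alternatingGroup ↥o := (φ.comp ι).codRestrict _ hmem
    have hbij : Function.Bijective ψ := by
      constructor
      · rw [injective_iff_map_eq_one]
        intro a ha
        apply Subtype.ext
        apply hbot a.1 a.2.1.1 _ a.2.2
        intro x hx
        have h1 : φ (ι a) = 1 := congrArg Subtype.val ha
        have := congrArg (fun σ : Equiv.Perm {x // x ∈ o} => ((σ ⟨x, hx⟩ : {x // x ∈ o}) : GolayPt))
          h1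
        exact this
      · rintro ⟨σ, hσ⟩
        rw [← range_oct ho] at hσ
        obtain ⟨⟨⟨g, hg⟩, hgo⟩, rfl⟩ := hσ
        obtain ⟨e, he, he1, he2⟩ := hdec g hg hgo
        have hmo : (e⁻¹ * g) • o = o := by
          rw [mul_smul, show g • o = o from hgo, inv_smul_eq_iff, hfixstab e he1]
        refine ⟨⟨e⁻¹ * g, ⟨M24.mul_mem (M24.inv_mem he) hg, hmo⟩, he2⟩, ?_⟩
        apply Subtype.ext
        apply Equiv.ext
        intro x
        apply Subtype.ext
        show (e⁻¹ * g) x.1 = g x.1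
        have hgx : g x.1 ∈ o := by
          have := apply_mem_smul_iff g x.1 o
          rw [show g • o = o from hgo] at this
          exact this.mpr x.2
        rw [Equiv.Perm.mul_apply, Equiv.Perm.inv_eq_iff_eq, he1 _ hgx]
    exact ⟨(MulEquiv.ofBijective ψ hbij).trans (o.equivFinOfCardEq ho.2).altCongrHom⟩

end Cfsg.Agent.Lib.Helper8
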