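import Cfsg.Agent.Lib.Helper8.Pair
import Cfsg.Agent.Lib.Helper8.Trio
import Cfsg.Agent.Lib.Helper8.Leech1

set_option autoImplicit false

namespace Cfsg.Agent.Lib.Helper8

open Cfsg
open scoped Pointwise

theorem walk_mid {V : Type*} (G : SimpleGraph V) {u v : V} (p : G.Walk u v) (h : p.length = 2) :
    ∃ w, G.Adj u w ∧ G.Adj w v := by
  cases p with
  | nil => simp at h
  | cons h1 q =>
    cases q with
    | nil => simp at h
    | cons h2 r =>
      cases r with
      | nil => exact ⟨_, h1, h2⟩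
      | cons _ _ => simp at h

theorem og_adj_iff (u v : ↥octads) :
    (blockGraph octads).Adj u v ↔ Disjoint (u : Finset GolayPt) (v : Finset GolayPt) := by
  rw [blockGraph, SimpleGraph.fromRel_adj]
  constructor
  · rintro ⟨-, h | h⟩
    · exact h
    · exact h.symm
  · intro h
    refine ⟨?_, Or.inl h⟩
    rintro rfl
    have h1 : (u : Finset GolayPt) = ∅ := by simpa using h
    have h2 := u.2.2
    rw [h1] at h2
    simp at h2

theorem disjoint_smul_iff (g : Equiv.Perm GolayPt) (a b : Finset GolayPt) :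
    Disjoint (g • a) (g • b) ↔ Disjoint a b := by
  rw [Finset.disjoint_iff_inter_eq_empty, Finset.disjoint_iff_inter_eq_empty,
    ← Finset.smul_finset_inter, Finset.smul_finset_eq_empty]

theorem card_smul_inter' (g : Equiv.Perm GolayPt) (a b : Finset GolayPt) :
    (g • a ∩ g • b).card = (a ∩ b).card := by
  rw [← Finset.smul_finset_inter, Finset.card_smul_finset]

theorem og_four {o o' : Finset GolayPt} (ho : o ∈ octads) (ho' : o' ∈ octads)
    (h : (o ∩ o').card = 4) : ∃ c ∈ octads, Disjoint o c ∧ Disjoint c o' := by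
  have hm : setOf 5279 ∈ octads := setOf_mem_octads (by decide +kernel)
  have hc : setOf 4038912 ∈ octads := setOf_mem_octads (by decide +kernel)
  obtain ⟨w, hw, hwo, hwo'⟩ := norm_O_code ho ho'.1 hm.1 (ho'.2.trans hm.2.symm)
    (by rw [h, card_inter_setOf]; decide +kernel)
  refine ⟨w⁻¹ • setOf 4038912, smul_mem_octads (M24.inv_mem hw) hc, ?_, ?_⟩
  · rw [← disjoint_smul_iff w, smul_inv_smul, hwo]
    exact disjoint_setOf (by decide +kernel)
  · rw [← disjoint_smul_iff w, smul_inv_smul, hwo']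
    exact disjoint_setOf (by decide +kernel)

theorem og_two {o o' : Finset GolayPt} (ho : o ∈ octads) (ho' : o' ∈ octads)
    (h : (o ∩ o').card = 2) : ∃ c ∈ octads, Disjoint o c ∧ (c ∩ o').card = 4 := by
  have hm : setOf 15777 ∈ octads := setOf_mem_octads (by decide +kernel)
  have hc : setOf 337856 ∈ octads := setOf_mem_octads (by decide +kernel)
  obtain ⟨w, hw, hwo, hwo'⟩ := norm_O_code ho ho'.1 hm.1 (ho'.2.trans hm.2.symm)
    (by rw [h, card_inter_setOf]; decide +kernel)
  refine ⟨w⁻¹ • setOf 337856, smul_mem_octads (M24.inv_mem hw) hc, ?_, ?_⟩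
  · rw [← disjoint_smul_iff w, smul_inv_smul, hwo]
    exact disjoint_setOf (by decide +kernel)
  · rw [← card_smul_inter' w, smul_inv_smul, hwo', card_inter_setOf]
    decide +kernel

theorem og_two_not {o o' c : Finset GolayPt} (ho : o ∈ octads) (ho' : o' ∈ octads)
    (hc : c ∈ octads) (h : (o ∩ o').card = 2) (h1 : Disjoint o c) (h2 : Disjoint c o') : False := by
  have k1 := symmDiff_mem_supports (symmDiff_mem_supports ho.1 hc.1) ho'.1
  have k2 := card_of_mem_supports k1
  have k3 := card_symmDiff_add (symmDiff o c) o'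
  have k4 := card_symmDiff_add o c
  have k5 : (o ∩ c).card = 0 := by
    rw [Finset.card_eq_zero, ← Finset.disjoint_iff_inter_eq_empty]; exact h1
  have k6 : symmDiff o c ∩ o' = o ∩ o' := by
    ext a
    simp only [Finset.mem_inter, Finset.mem_symmDiff]
    constructor
    · rintro ⟨⟨ha, -⟩ | ⟨ha, -⟩, hb⟩
      · exact ⟨ha, hb⟩
      · exact absurd hb (Finset.disjoint_left.mp h2 ha)
    · rintro ⟨ha, hb⟩
      exact ⟨Or.inl ⟨ha, Finset.disjoint_left.mp h1 ha⟩, hb⟩
  rw [k6, h] at k3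
  have e1 := ho.2
  have e2 := ho'.2
  have e3 := hc.2
  omega

theorem og_cases {o o' : Finset GolayPt} (ho : o ∈ octads) (ho' : o' ∈ octads) (hne : o ≠ o') :
    (o ∩ o').card = 0 ∨ (o ∩ o').card = 2 ∨ (o ∩ o').card = 4 := by
  have h1 := octads_inter_le ho ho' hne
  obtain ⟨k, hk⟩ := even_inter_CS ho.1 ho'.1
  omega

theorem og_dist (u v : ↥octads) (hne : u ≠ v) :
    (blockGraph octads).Reachable u v ∧
    (((u : Finset GolayPt) ∩ v).card = 0 → (blockGraph octads).dist u v = 1) ∧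
    (((u : Finset GolayPt) ∩ v).card = 4 → (blockGraph octads).dist u v = 2) ∧
    (((u : Finset GolayPt) ∩ v).card = 2 → (blockGraph octads).dist u v = 3) := by
  set G := blockGraph octads with hG
  have hne' : (u : Finset GolayPt) ≠ v := fun h => hne (Subtype.ext h)
  have nadj : ((u : Finset GolayPt) ∩ v).card ≠ 0 → ¬ G.Adj u v := by
    intro h0 ha
    apply h0
    rw [Finset.card_eq_zero, ← Finset.disjoint_iff_inter_eq_empty]
    exact (og_adj_iff u v).mp ha
  have c0 : ((u : Finset GolayPt) ∩ v).card = 0 → G.Adj u v := by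
    intro h
    rw [og_adj_iff, Finset.disjoint_iff_inter_eq_empty, ← Finset.card_eq_zero]
    exact h
  have c4 : ∀ a b : ↥octads, ((a : Finset GolayPt) ∩ b).card = 4 →
      ∃ w, G.Adj a w ∧ G.Adj w b := by
    intro a b h
    obtain ⟨c, hc, h1, h2⟩ := og_four a.2 b.2 h
    exact ⟨⟨c, hc⟩, (og_adj_iff _ _).mpr h1, (og_adj_iff _ _).mpr h2⟩
  have c2 : ((u : Finset GolayPt) ∩ v).card = 2 →
      ∃ w x, G.Adj u w ∧ G.Adj w x ∧ G.Adj x v := by
    intro h
    obtain ⟨c, hc, h1, h2⟩ := og_two u.2 v.2 h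
    obtain ⟨x, hx1, hx2⟩ := c4 ⟨c, hc⟩ v h2
    exact ⟨⟨c, hc⟩, x, (og_adj_iff _ _).mpr h1, hx1, hx2⟩
  have hreach : G.Reachable u v := by
    rcases og_cases u.2 v.2 hne' with h | h | h
    · exact (c0 h).reachable
    · obtain ⟨w, x, h1, h2, h3⟩ := c2 h
      exact (h1.reachable.trans h2.reachable).trans h3.reachable
    · obtain ⟨w, h1, h2⟩ := c4 u v h
      exact h1.reachable.trans h2.reachable
  have hd0 : G.dist u v ≠ 0 := by
    intro h
    exact hne (hreach.dist_eq_zero_iff.mp h)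
  refine ⟨hreach, ?_, ?_, ?_⟩
  · intro h
    exact SimpleGraph.dist_eq_one_iff_adj.mpr (c0 h)
  · intro h
    obtain ⟨w, h1, h2⟩ := c4 u v h
    have hle := SimpleGraph.dist_le (SimpleGraph.Walk.cons h1 (SimpleGraph.Walk.cons h2 SimpleGraph.Walk.nil))
    simp only [SimpleGraph.Walk.length_cons, SimpleGraph.Walk.length_nil] at hle
    have hd1 : G.dist u v ≠ 1 := fun h' =>
      nadj (by omega) (SimpleGraph.dist_eq_one_iff_adj.mp h')
    omega
  · intro h
    obtain ⟨w, x, h1, h2, h3⟩ := c2 h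
    have hle := SimpleGraph.dist_le (SimpleGraph.Walk.cons h1 (SimpleGraph.Walk.cons h2
      (SimpleGraph.Walk.cons h3 SimpleGraph.Walk.nil)))
    simp only [SimpleGraph.Walk.length_cons, SimpleGraph.Walk.length_nil] at hle
    have hd1 : G.dist u v ≠ 1 := fun h' =>
      nadj (by omega) (SimpleGraph.dist_eq_one_iff_adj.mp h')
    have hd2 : G.dist u v ≠ 2 := by
      intro h'
      obtain ⟨p, hp⟩ := hreach.exists_walk_length_eq_dist
      obtain ⟨c, k1, k2⟩ := walk_mid G p (hp.trans h')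
      exact og_two_not u.2 v.2 c.2 h ((og_adj_iff _ _).mp k1) ((og_adj_iff _ _).mp k2)
    omega

theorem og_main (o o' : Finset GolayPt) (ho : o ∈ octads) (ho' : o' ∈ octads) (hne : o ≠ o') :
    (blockGraph octads).Connected ∧
    ((blockGraph octads).dist ⟨o, ho⟩ ⟨o', ho'⟩ = 1 ↔ (o ∩ o').card = 0) ∧
    ((blockGraph octads).dist ⟨o, ho⟩ ⟨o', ho'⟩ = 2 ↔ (o ∩ o').card = 4) ∧
    ((blockGraph octads).dist ⟨o, ho⟩ ⟨o', ho'⟩ = 3 ↔ (o ∩ o').card = 2) := by
  have hconn : (blockGraph octads).Connected := by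
    have : Nonempty ↥octads := ⟨⟨o, ho⟩⟩
    refine ⟨fun u v => ?_⟩
    by_cases h : u = v
    · rw [h]
    · exact (og_dist u v h).1
  obtain ⟨-, h0, h4, h2⟩ := og_dist ⟨o, ho⟩ ⟨o', ho'⟩ (fun h => hne (congrArg Subtype.val h))
  simp only at h0 h4 h2
  refine ⟨hconn, ?_, ?_, ?_⟩
  · rcases og_cases ho ho' hne with h | h | h
    · exact iff_of_true (h0 h) h
    · rw [h2 h, h]; decide
    · rw [h4 h, h]; decide
  · rcases og_cases ho ho' hne with h | h | h
    · rw [h0 h, h]; decide
    · rw [h2 h, h]; decide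
    · exact iff_of_true (h4 h) h
  · rcases og_cases ho ho' hne with h | h | h
    · rw [h0 h, h]; decide
    · exact iff_of_true (h2 h) h
    · rw [h4 h, h]; decide

end Cfsg.Agent.Lib.Helper8
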