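import Cfsg.Agent.Lib.Helper8.CosetLead

set_option autoImplicit false

namespace Cfsg.Agent.Lib.Helper8

open Cfsg
open scoped Pointwise

/-- the punctured code -/
abbrev P23 : Set (ZMod 23 → ZMod 2) :=
  {u : ZMod 23 → ZMod 2 | ∃ w ∈ Cfsg.golayCode, ∀ x : ZMod 23, u x = w (some x)}

def punct (w : GolayPt → ZMod 2) : ZMod 23 → ZMod 2 := fun x => w (some x)

theorem P23_eq : P23 = punct '' (golayCode : Set (GolayPt → ZMod 2)) := by
  ext u
  constructor
  · rintro ⟨w, hw, h⟩
    exact ⟨w, hw, (funext h).symm⟩
  · rintro ⟨w, hw, rfl⟩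
    exact ⟨w, hw, fun _ => rfl⟩

theorem norm_punct (w : GolayPt → ZMod 2) :
    hammingNorm (punct w) = ((support₂ w).erase none).card := by
  have h : (Finset.univ.filter (fun i => punct w i ≠ 0)).map Function.Embedding.some =
      (support₂ w).erase none := by
    ext p
    cases p with
    | none => simp
    | some x =>
      simp only [Finset.mem_map, Finset.mem_filter, Finset.mem_univ, true_and,
        Function.Embedding.some_apply, Finset.mem_erase, support₂, punct]
      constructor
      · rintro ⟨y, hy, hyx⟩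
        rw [← hyx]
        exact ⟨by simp, (Finset.mem_filter.mp hy).2⟩
      · rintro ⟨_, h⟩
        exact ⟨x, Finset.mem_filter.mpr ⟨Finset.mem_univ _, h⟩, rfl⟩
  rw [← h, Finset.card_map]
  rfl

theorem dist_punct (w1 w2 : GolayPt → ZMod 2) :
    (symmDiff (support₂ w1) (support₂ w2)).card ≤ hammingDist (punct w1) (punct w2) + 1 := by
  rw [← support₂_add]
  have hsub : support₂ (w1 + w2) ⊆ insert none ((Finset.univ.filter
      (fun i => punct w1 i ≠ punct w2 i)).map Function.Embedding.some) := by
    intro p hp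
    cases p with
    | none => simp
    | some x =>
      simp only [support₂, Finset.mem_filter, Finset.mem_univ, true_and, Pi.add_apply] at hp
      simp only [Finset.mem_insert, Finset.mem_map, Finset.mem_filter, Finset.mem_univ, true_and,
        Function.Embedding.some_apply, reduceCtorEq, false_or]
      refine ⟨x, ?_, rfl⟩
      intro h
      apply hp
      have h' : w1 (some x) = w2 (some x) := h
      rw [h', CharTwo.add_self_eq_zero]
  refine le_trans (Finset.card_le_card hsub) (le_trans (Finset.card_insert_le _ _) ?_)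
  rw [Finset.card_map]
  rfl

theorem mem_code_iff_CS (w : GolayPt → ZMod 2) : w ∈ golayCode ↔ support₂ w ∈ CS := by
  constructor
  · intro h; exact ⟨w, h, rfl⟩
  · rintro ⟨x, hx, hxe⟩
    rw [← support₂_injective hxe]; exact hx

theorem eq_of_dist_le {w1 w2 : GolayPt → ZMod 2} (h1 : w1 ∈ golayCode) (h2 : w2 ∈ golayCode)
    (h : hammingDist (punct w1) (punct w2) ≤ 6) : w1 = w2 := by
  apply support₂_injective
  apply eq_of_close
  · exact symmDiff_mem_supports ((mem_code_iff_CS w1).mp h1) ((mem_code_iff_CS w2).mp h2)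
  · have := dist_punct w1 w2
    omega

theorem punct_injOn : Set.InjOn punct (golayCode : Set (GolayPt → ZMod 2)) := by
  intro w1 h1 w2 h2 h
  apply eq_of_dist_le h1 h2
  rw [h, hammingDist_self]
  norm_num

theorem setOf_low : setOf 8388607 = (Finset.univ : Finset GolayPt).erase none := by decide +kernel

theorem erase_setOf (m : ℕ) : (setOf m).erase none = setOf (m &&& 8388607) := by
  rw [setOf_and, setOf_low, Finset.inter_erase, Finset.inter_univ]

theorem punct_count (k : ℕ) : {u : ZMod 23 → ZMod 2 | u ∈ P23 ∧ hammingNorm u = k}.ncard =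
    countBelow 4096 (fun c => Nat.beq (popF (cwOf c &&& 8388607)) k) := by
  rw [← ncard_code_filter' (fun s => (s.erase none).card = k)
    (fun m => Nat.beq (popF (m &&& 8388607)) k) (by
      intro m
      rw [erase_setOf, card_setOf', Nat.beq_eq])]
  have e1 : {u : ZMod 23 → ZMod 2 | u ∈ P23 ∧ hammingNorm u = k} =
      punct '' {w | w ∈ golayCode ∧ ((support₂ w).erase none).card = k} := by
    rw [P23_eq]
    ext u
    constructor
    · rintro ⟨⟨w, hw, rfl⟩, h⟩
      exact ⟨w, ⟨hw, by rw [← norm_punct]; exact h⟩, rfl⟩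
    · rintro ⟨w, ⟨hw, h⟩, rfl⟩
      exact ⟨⟨w, hw, rfl⟩, by rw [norm_punct]; exact h⟩
  have e2 : {s | s ∈ CS ∧ (s.erase none).card = k} =
      support₂ '' {w | w ∈ golayCode ∧ ((support₂ w).erase none).card = k} := by
    ext s
    constructor
    · rintro ⟨⟨w, hw, rfl⟩, h⟩
      exact ⟨w, ⟨hw, h⟩, rfl⟩
    · rintro ⟨w, ⟨hw, h⟩, rfl⟩
      exact ⟨⟨w, hw, rfl⟩, h⟩
  rw [e1, e2, Set.ncard_image_of_injective _ support₂_injective,
    Set.InjOn.ncard_image (punct_injOn.mono fun w hw => hw.1)]

theorem card_symmDiff_cast (a b : Finset GolayPt) :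
    ((symmDiff a b).card : ZMod 2) = a.card + b.card := by
  have h := sum_eq_card (vecOf (maskS a) + vecOf (maskS b))
  rw [support₂_add, support₂_vecOf, support₂_vecOf, setOf_maskS, setOf_maskS] at h
  rw [← h]
  simp only [Pi.add_apply, Finset.sum_add_distrib]
  rw [sum_eq_card, sum_eq_card, support₂_vecOf, support₂_vecOf, setOf_maskS, setOf_maskS]

theorem card_CS_cast {s : Finset GolayPt} (h : s ∈ CS) : (s.card : ZMod 2) = 0 := by
  rcases card_of_mem_supports h with h' | h' | h' | h' | h' <;> rw [h'] <;> decide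

theorem perfect23 (u : ZMod 23 → ZMod 2) : ∃! c : ZMod 23 → ZMod 2, c ∈ P23 ∧ hammingDist u c ≤ 3 := by
  set b : ZMod 2 := 1 + ∑ x, u x with hb
  set e : GolayPt → ZMod 2 := fun p => p.elim b u with he
  have hsum : ∑ p, e p = 1 := by
    rw [Fintype.sum_option]
    show b + ∑ x, u x = 1
    rw [hb, add_assoc, CharTwo.add_self_eq_zero, add_zero]
  obtain ⟨v, hv4, hv⟩ := exists_leader (support₂ e)
  have hv3 : v.card ≤ 3 := by
    have h1 := card_CS_cast hv
    rw [card_symmDiff_cast, ← sum_eq_card, hsum] at h1
    by_contra hne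
    have h4 : v.card = 4 := by omega
    rw [h4] at h1
    exact absurd h1 (by decide)
  set w : GolayPt → ZMod 2 := e + vecOf (maskS v) with hw
  have hwC : w ∈ golayCode := by
    rw [mem_code_iff_CS, hw, support₂_add, support₂_vecOf, setOf_maskS]; exact hv
  have hd2 : hammingDist u (punct w) ≤ 3 := by
    refine le_trans ?_ hv3
    have hsub : (Finset.univ.filter (fun i => u i ≠ punct w i)).map Function.Embedding.some ⊆ v := by
      intro p hp
      simp only [Finset.mem_map, Finset.mem_filter, Finset.mem_univ, true_and,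
        Function.Embedding.some_apply] at hp
      obtain ⟨x, hx, rfl⟩ := hp
      have h1 : punct w x = u x + vecOf (maskS v) (some x) := rfl
      rw [h1] at hx
      have h2 : vecOf (maskS v) (some x) ≠ 0 := by
        intro h0
        rw [h0, add_zero] at hx
        exact hx rfl
      have h3 : some x ∈ support₂ (vecOf (maskS v)) := by
        simp only [support₂, Finset.mem_filter, Finset.mem_univ, true_and]
        exact h2
      rwa [support₂_vecOf, setOf_maskS] at h3
    have := Finset.card_le_card hsub
    rwa [Finset.card_map] at this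
  refine ⟨punct w, ⟨⟨w, hwC, fun _ => rfl⟩, ?_⟩, ?_⟩
  · exact hd2
  · rintro c ⟨⟨w', hw', hc⟩, hd⟩
    have hc' : c = punct w' := funext hc
    rw [hc'] at hd ⊢
    congr 1
    apply eq_of_dist_le hw' hwC
    have := hammingDist_triangle (punct w') u (punct w)
    rw [hammingDist_comm (punct w') u] at this
    omega

end Cfsg.Agent.Lib.Helper8
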