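import Cfsg.Agent.Lib.Helper8.Special

set_option autoImplicit false

namespace Cfsg.Agent.Lib.Helper8

open Cfsg
open scoped Pointwise

/-- number of members of a family meeting `Y` -/
def meetCount (Y : Finset GolayPt) (S : Finset (Finset GolayPt)) : ℕ :=
  (S.filter fun t => (t ∩ Y).Nonempty).card

theorem meetCount_smul (g : Equiv.Perm GolayPt) (Y : Finset GolayPt) (S : Finset (Finset GolayPt)) :
    meetCount (g • Y) (g • S) = meetCount Y S := by
  have e : g • S = S.image (fun t => g • t) := rfl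
  rw [meetCount, meetCount, e, Finset.filter_image,
    Finset.card_image_of_injective _ (MulAction.injective g)]
  congr 1
  apply Finset.filter_congr
  intro t _
  rw [← Finset.smul_finset_inter, Finset.smul_finset_nonempty]

theorem setOf_nonempty_iff {m : ℕ} (hm : m < 2 ^ 24) : (setOf m).Nonempty ↔ m ≠ 0 := by
  rw [Finset.nonempty_iff_ne_empty, ← setOf_zero, Ne, setOf_inj hm (by norm_num)]

theorem meetCount_famOf {l : List ℕ} (h : sortedL l = true) (y : ℕ) :
    meetCount (setOf y) (famOf l) = (l.filter fun a => !(Nat.beq (Nat.land a y) 0)).length := by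
  obtain ⟨p, b⟩ := sortedL_spec h
  have hnd : (l.map setOf).Nodup := by
    apply List.Nodup.map_on _ p.sortedLT.nodup
    intro x hx y hy hxy
    exact (setOf_inj (b x hx) (b y hy)).mp hxy
  have e : (l.map setOf).toFinset.filter (fun t => (t ∩ setOf y).Nonempty) =
      ((l.map setOf).filter (fun t => decide ((t ∩ setOf y).Nonempty))).toFinset := by
    rw [List.toFinset_filter]
    apply Finset.filter_congr
    intro t _
    rw [decide_eq_true_eq]
  rw [meetCount, famOf, e, List.toFinset_card_of_nodup (hnd.filter _),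
    List.filter_map, List.length_map]
  congr 1
  apply List.filter_congr
  intro a ha
  simp only [Function.comp]
  rw [← setOf_and]
  have hlt : a &&& y < 2 ^ 24 := lt_of_le_of_lt Nat.and_le_left (b a ha)
  by_cases h0 : a &&& y = 0
  · have h1 : Nat.beq (Nat.land a y) 0 = true := Nat.beq_eq ▸ h0
    rw [h1]
    simp [h0, setOf_zero]
  · have h1 : Nat.beq (Nat.land a y) 0 = false := by
      cases hb : Nat.beq (Nat.land a y) 0 with
      | false => rfl
      | true => exact absurd (Nat.eq_of_beq_eq_true hb) h0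
    rw [h1]
    simp [(setOf_nonempty_iff hlt).mpr h0]

theorem s3sx_horb : ∀ i < 1771, ∃ h ∈ MulAction.stabilizer M24 (setOf 8388611),
    h • famOf (objL 6 sxA (getR 12 s3sxRidx (getR 4 s3sxLab i))) = famOf (objL 6 sxA i) :=
  horb_of_cert (setOf 8388611) (maskTest 8388611) (maskTest_sound 8388611) famOf
  actL eqvL fam_hact fam_heqv (objL 6 sxA) 1771 s3sxTs s3sx_ts (getR 12 s3sxRidx)
  (getR 4 s3sxLab) (getR 12 s3sxPar) (getR 4 s3sxGn) (getR 8 s3sxLev) s3sx_cert

theorem s3sx_tab : allBelow 3 (fun l => Nat.beq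
    ((objL 6 sxA (getR 12 s3sxRidx l)).filter fun a => !(Nat.beq (Nat.land a 8388611) 0)).length
    (l + 1)) = true := by decide +kernel

theorem sextTrip_class (l0 : ℕ) (hl0 : l0 < 3) {Y : Finset GolayPt} (hY : Y.card = 3) :
    {S : Finset (Finset GolayPt) | S ∈ sextets ∧ meetCount Y S = l0 + 1}.ncard =
        [21, 630, 1120].getD l0 0 ∧
      ∀ S S' : Finset (Finset GolayPt), S ∈ sextets → meetCount Y S = l0 + 1 → S' ∈ sextets →
        meetCount Y S' = l0 + 1 → ∃ h ∈ MulAction.stabilizer M24 Y, h • S = S' := by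
  obtain ⟨g0, hg0, e⟩ := norm_set3 hY
  obtain ⟨g, rfl⟩ : ∃ g : M24, g • setOf 8388611 = Y :=
    ⟨⟨g0⁻¹, M24.inv_mem hg0⟩, by rw [← e]; exact inv_smul_smul g0 Y⟩
  obtain ⟨c1, c2, c3⟩ := clsCheck_spec s3sx_cls
  obtain ⟨e1, e2, e3⟩ := enum_smul g sextets (sextets_inv g) _ 1771 sx_hmem sx_hsurj sx_hinj
  have tab : ∀ l < 3, meetCount (g • setOf 8388611)
      (g • famOf (objL 6 sxA (getR 12 s3sxRidx l))) = l + 1 := by
    intro l hl
    have h1 := Nat.eq_of_beq_eq_true (of_allBelow s3sx_tab l hl)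
    have h2 : meetCount (g • setOf 8388611) (g • famOf (objL 6 sxA (getR 12 s3sxRidx l))) =
        meetCount (setOf 8388611) (famOf (objL 6 sxA (getR 12 s3sxRidx l))) :=
      meetCount_smul g.1 _ _
    rw [h2, meetCount_famOf (isSextetL_sound _ (of_allBelow sx_chk _ (c2 l hl))).1, h1]
  have key := class_of_pred (MulAction.stabilizer M24 (g • setOf 8388611)) _ 1771 _
    (fun l => g • famOf (objL 6 sxA (getR 12 s3sxRidx l))) sextets
    e1 e2 e3 (horb_smul g (setOf 8388611) (fun i => famOf (objL 6 sxA i)) 1771 (getR 4 s3sxLab)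
      (fun l => famOf (objL 6 sxA (getR 12 s3sxRidx l))) s3sx_horb)
    (fun S => meetCount (g • setOf 8388611) S = l0 + 1)
    (fun h hh a => by
      have h3 : meetCount ((h : Equiv.Perm GolayPt) • (g • setOf 8388611))
        ((h : Equiv.Perm GolayPt) • a) = meetCount (g • setOf 8388611) a := meetCount_smul h.1 _ _
      have h4 : (h : Equiv.Perm GolayPt) • (g • setOf 8388611) = g • setOf 8388611 := hh
      rw [h4] at h3
      show meetCount (g • setOf 8388611) ((h : Equiv.Perm GolayPt) • a) = l0 + 1 ↔ _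
      rw [h3]) l0
    (tab l0 hl0) (fun i hi hne hp => hne (by
      have := tab _ (c1 i hi)
      have hp' : meetCount (g • setOf 8388611)
        (g • famOf (objL 6 sxA (getR 12 s3sxRidx (getR 4 s3sxLab i)))) = l0 + 1 := hp
      omega))
  rw [c3 l0 hl0] at key
  exact key

theorem meetCount_cases {Y : Finset GolayPt} (hY : Y.card = 3) {S : Finset (Finset GolayPt)}
    (hS : S ∈ sextets) : ∃ l < 3, meetCount Y S = l + 1 := by
  obtain ⟨g0, hg0, e⟩ := norm_set3 hY
  obtain ⟨g, rfl⟩ : ∃ g : M24, g • setOf 8388611 = Y :=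
    ⟨⟨g0⁻¹, M24.inv_mem hg0⟩, by rw [← e]; exact inv_smul_smul g0 Y⟩
  obtain ⟨c1, c2, c3⟩ := clsCheck_spec s3sx_cls
  obtain ⟨e1, e2, e3⟩ := enum_smul g sextets (sextets_inv g) _ 1771 sx_hmem sx_hsurj sx_hinj
  obtain ⟨i, hi, rfl⟩ := e2 S hS
  obtain ⟨h, hh, e⟩ := s3sx_horb i hi
  refine ⟨getR 4 s3sxLab i, c1 i hi, ?_⟩
  have h1 := Nat.eq_of_beq_eq_true (of_allBelow s3sx_tab _ (c1 i hi))
  have h2 : meetCount (g • setOf 8388611) (g • famOf (objL 6 sxA i)) =
      meetCount (setOf 8388611) (famOf (objL 6 sxA i)) := meetCount_smul g.1 _ _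
  have h3 : meetCount ((h : Equiv.Perm GolayPt) • setOf 8388611)
      ((h : Equiv.Perm GolayPt) • famOf (objL 6 sxA (getR 12 s3sxRidx (getR 4 s3sxLab i)))) =
      meetCount (setOf 8388611) (famOf (objL 6 sxA (getR 12 s3sxRidx (getR 4 s3sxLab i)))) :=
    meetCount_smul h.1 _ _
  have h4 : (h : Equiv.Perm GolayPt) • setOf 8388611 = setOf 8388611 := hh
  have h5 : (h : Equiv.Perm GolayPt) • famOf (objL 6 sxA (getR 12 s3sxRidx (getR 4 s3sxLab i))) =
      famOf (objL 6 sxA i) := e
  rw [h4, h5] at h3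
  rw [h2, h3, meetCount_famOf (isSextetL_sound _ (of_allBelow sx_chk _ (c2 _ (c1 i hi)))).1, h1]

end Cfsg.Agent.Lib.Helper8
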