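import Cfsg.Agent.Lib.Helper8.SimpleM

set_option autoImplicit false

namespace Cfsg.Agent.Lib.Helper8

open Cfsg

theorem cent_prime_cycle {α : Type*} [Fintype α] [DecidableEq α] {p : ℕ} (hp : p.Prime)
    (hα : Fintype.card α ≤ p + 1) {x : Equiv.Perm α} (hx : orderOf x = p)
    (c : Equiv.Perm α) (hc : Commute c x) : c ∈ Subgroup.zpowers x := by
  have hcyc : x.IsCycle := Equiv.Perm.isCycle_of_prime_order' (hx ▸ hp) (by
    rw [hx]; have := hp.two_le; omega)
  have hct : x.cycleType = {p} := by rw [hcyc.cycleType, ← hcyc.orderOf, hx]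
  have hcard := Equiv.Perm.nat_card_centralizer x
  rw [hct] at hcard
  simp only [Multiset.sum_singleton, Multiset.prod_singleton, Multiset.toFinset_singleton,
    Finset.prod_singleton, Multiset.count_singleton_self, Nat.factorial_one, mul_one] at hcard
  have hf : (Fintype.card α - p).factorial = 1 := by
    have : Fintype.card α - p = 0 ∨ Fintype.card α - p = 1 := by omega
    rcases this with h | h <;> rw [h] <;> rfl
  rw [hf, one_mul] at hcard
  have hle : Subgroup.zpowers x ≤ Subgroup.centralizer {x} := by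
    rw [Subgroup.zpowers_le, Subgroup.mem_centralizer_iff]
    intro y hy
    rw [Set.mem_singleton_iff.mp hy]
  have heq := Subgroup.eq_of_le_of_card_ge hle (by rw [hcard, Nat.card_zpowers, hx])
  rw [heq, Subgroup.mem_centralizer_iff]
  intro y hy
  rw [Set.mem_singleton_iff.mp hy]
  exact hc.eq.symm

theorem card_of_sharp {α : Type*} [Fintype α] [DecidableEq α] (G : Subgroup (Equiv.Perm α)) (k : ℕ)
    [MulAction.IsMultiplyPretransitive G α k] (hk : k ≤ Fintype.card α)
    (hsharp : ∀ x : Fin k ↪ α, MulAction.stabilizer G x = ⊥) :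
    Nat.card G = (Fintype.card α).descFactorial k := by
  obtain ⟨x0⟩ : Nonempty (Fin k ↪ α) := Function.Embedding.nonempty_of_card_le (by simpa using hk)
  have hbij : Function.Bijective (fun g : G => g • x0) := by
    constructor
    · intro a b hab
      have : a⁻¹ * b ∈ MulAction.stabilizer G x0 := by
        have hab' : a • x0 = b • x0 := hab
        rw [MulAction.mem_stabilizer_iff, mul_smul, inv_smul_eq_iff]
        exact hab'.symm
      rw [hsharp, Subgroup.mem_bot, inv_mul_eq_one] at this
      exact this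
    · intro y
      exact MulAction.exists_smul_eq G x0 y
  rw [Nat.card_congr (Equiv.ofBijective _ hbij), Nat.card_eq_fintype_card,
    Fintype.card_embedding_eq, Fintype.card_fin]

theorem simple_of_perm {α : Type*} [Fintype α] [DecidableEq α] (G : Subgroup (Equiv.Perm α))
    {n : ℕ} (hn : Nat.card G = n) (hα : Fintype.card α ≤ 12) (h11 : 11 ∣ n) (hp2 : ¬ 11 ^ 2 ∣ n)
    (hm : ∀ m s, m ∣ 11 - 1 → n = 11 * m * s → s % 11 = 1 → m = 5)
    (hbig : 11 * 5 < n) (hd : n ∣ 1330560) : IsSimpleGroup G := by
  obtain ⟨x, hx⟩ := exists_prime_orderOf_dvd_card' (G := G) 11 (hn ▸ h11)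
  have hC : ∀ c : G, Commute c x → c ∈ Subgroup.zpowers x := by
    intro c hc
    have h1 := cent_prime_cycle (p := 11) (by norm_num) hα (x := (x : Equiv.Perm α))
      (by rw [Subgroup.orderOf_coe]; exact hx) c (congrArg Subtype.val hc.eq)
    obtain ⟨k, hk⟩ := Subgroup.mem_zpowers_iff.mp h1
    rw [Subgroup.mem_zpowers_iff]
    exact ⟨k, Subtype.ext (by rw [← hk]; rfl)⟩
  have hp2' : ¬ 11 ^ 2 ∣ Nat.card G := by rw [hn]; exact hp2
  obtain ⟨m, s, h1, h2, h3, h4⟩ := card_normalizer_of_self_centralizing hx hp2' hC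
  have hmq : m = 5 := hm m s h1 (hn ▸ h3) h4
  subst hmq
  exact simple_of_self_centralizing (by norm_num) hx hp2' hC h2 (by rw [hn]; exact hbig)
    (by
      rw [hn]
      intro r k hr hne hk hd'
      exact arith11 r k hr hne hk (hd'.trans hd))

end Cfsg.Agent.Lib.Helper8
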