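import Cfsg.Agent.Lib.Helper8.Pair

set_option autoImplicit false

namespace Cfsg.Agent.Lib.Helper8

open Cfsg
open scoped Pointwise

theorem six53 : levelCheck [2 ^ 3, 2 ^ 2, 2 ^ 1, 2 ^ 0, 2 ^ 23] [980874226864350081512017426024335392, 966039336168793943308839874394687520, 981515887986994088769278604842469408] [(1, 0, 1), (1, 6, 2), (1, 7, 3), (1, 8, 4), (1, 9, 5), (1, 1, 2), (1, 11, 3), (1, 12, 4), (1, 13, 5), (2, 14, 8536111), (0, 10, 15), (1, 10, 16)] 5 147488
    193434034096444255009505280 72057594037927936 38686806819288851001901056 = true := by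
  decide +kernel


end Cfsg.Agent.Lib.Helper8
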