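import Cfsg.Agent.Lib.Helper8.Coatoms2
import Cfsg.Agent.Lib.Helper8.ClassPred

set_option autoImplicit false

namespace Cfsg.Agent.Lib.Helper8

open Cfsg
open scoped Pointwise

/-- Boolean test: the mask is contained in an octad -/
def specialB (m : ℕ) : Bool :=
  !(allBelow 4096 fun c => !(isOctF (cwOf c) && Nat.beq (Nat.land m (cwOf c)) m))

theorem specialB_iff {m : ℕ} (hm : m < 2 ^ 24) :
    specialB m = true ↔ ∃ o ∈ octads, setOf m ⊆ o := by
  rw [specialB, Bool.not_eq_true', ← Bool.not_eq_true, allBelow_iff]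
  constructor
  · intro h
    by_contra hcon
    apply h
    intro c hc
    by_contra h1
    apply hcon
    rw [Bool.not_eq_true, Bool.not_eq_false', Bool.and_eq_true, isOctF_eq] at h1
    exact ⟨setOf (cwOf c), setOf_mem_octads h1.1,
      (subset_iff_and hm).mpr (Nat.eq_of_beq_eq_true h1.2)⟩
  · rintro ⟨o, ho, hsub⟩ h
    obtain ⟨c, hc, rfl⟩ := exists_of_mem_supports ho.1
    have h1 := h c hc
    rw [Bool.not_eq_true', ← Bool.not_eq_true, Bool.and_eq_true, cwOf_eq hc] at h1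
    apply h1
    refine ⟨?_, ?_⟩
    · rw [isOctF, isCodeF_eq, isCode_codeOf hc, ← card_setOf', ho.2]
      have := codeOf_lt c
      simp only [Bool.true_and, Bool.and_eq_true]
      exact ⟨rfl, Nat.ble_eq_true_of_le this⟩
    · have := (subset_iff_and hm).mp hsub
      exact (Nat.beq_eq ▸ this : Nat.beq (Nat.land m (codeOf c)) m = true)

theorem special_smul {g : Equiv.Perm GolayPt} (hg : g ∈ M24) (s : Finset GolayPt) :
    (∃ o ∈ octads, g • s ⊆ o) ↔ ∃ o ∈ octads, s ⊆ o := by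
  constructor
  · rintro ⟨o, ho, h⟩
    refine ⟨g⁻¹ • o, smul_mem_octads (M24.inv_mem hg) ho, ?_⟩
    rw [← inv_smul_smul g s]
    exact Finset.smul_finset_subset_smul_finset h
  · rintro ⟨o, ho, h⟩
    exact ⟨g • o, smul_mem_octads hg ho, Finset.smul_finset_subset_smul_finset h⟩

theorem s3s3_horb : ∀ i < 2024, ∃ h ∈ MulAction.stabilizer M24 (setOf 8388611),
    h • setOf (getR 24 s3A (getR 12 s3s3Ridx (getR 4 s3s3Lab i))) = setOf (getR 24 s3A i) :=
  horb_of_cert (setOf 8388611) (maskTest 8388611) (maskTest_sound 8388611) setOf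
  applyMaskG Nat.beq mask_hact mask_heqv (getR 24 s3A) 2024 s3s3Ts s3s3_ts (getR 12 s3s3Ridx)
  (getR 4 s3s3Lab) (getR 12 s3s3Par) (getR 4 s3s3Gn) (getR 8 s3s3Lev) s3s3_cert

/-- transport of a complete enumeration -/
theorem enum_smul {X : Type*} [MulAction M24 X] (g : M24) (A : Set X) (hA : ∀ a, g • a ∈ A ↔ a ∈ A)
    (f : ℕ → X) (N : ℕ) (hmem : ∀ i < N, f i ∈ A) (hsurj : ∀ a ∈ A, ∃ i < N, f i = a)
    (hinj : ∀ i j, i < N → j < N → f i = f j → i = j) :
    (∀ i < N, g • f i ∈ A) ∧ (∀ a ∈ A, ∃ i < N, g • f i = a) ∧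
      ∀ i j, i < N → j < N → g • f i = g • f j → i = j := by
  refine ⟨fun i hi => (hA _).mpr (hmem i hi), ?_, fun i j hi hj e =>
    hinj i j hi hj (MulAction.injective g e)⟩
  intro a ha
  have : g⁻¹ • a ∈ A := by rw [← hA, smul_inv_smul]; exact ha
  obtain ⟨i, hi, e⟩ := hsurj _ this
  exact ⟨i, hi, by rw [e, smul_inv_smul]⟩

/-- the property of a triple `U`: disjoint from `T`, and `T ∪ U` lies in an octad or not -/
def PTrip (b : Bool) (T U : Finset GolayPt) : Prop :=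
  Disjoint T U ∧ ((∃ o ∈ octads, T ∪ U ⊆ o) ↔ b = true)

theorem PTrip_smul {g : Equiv.Perm GolayPt} (hg : g ∈ M24) (b : Bool) (T U : Finset GolayPt) :
    PTrip b (g • T) (g • U) ↔ PTrip b T U := by
  rw [PTrip, PTrip, smul_disjoint_iff, ← Finset.smul_finset_union, special_smul hg]

def pTripB (b : Bool) (m : ℕ) : Bool :=
  Nat.beq (Nat.land 8388611 m) 0 && (specialB (Nat.lor 8388611 m) == b)

theorem disjoint_setOf_iff {a b : ℕ} (ha : a < 2 ^ 24) :
    Disjoint (setOf a) (setOf b) ↔ a &&& b = 0 := by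
  rw [Finset.disjoint_iff_inter_eq_empty, ← setOf_and, ← setOf_zero,
    setOf_inj (lt_of_le_of_lt Nat.and_le_left ha) (by norm_num)]

theorem pTripB_iff (b : Bool) {m : ℕ} (hm : m < 2 ^ 24) :
    pTripB b m = true ↔ PTrip b (setOf 8388611) (setOf m) := by
  rw [pTripB, PTrip, Bool.and_eq_true, Nat.beq_eq, disjoint_setOf_iff (by norm_num), ← setOf_or,
    ← specialB_iff (Nat.or_lt_two_pow (by norm_num) hm), beq_iff_eq]
  constructor
  · rintro ⟨h1, h2⟩
    refine ⟨h1, ?_⟩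
    have h2' : specialB (8388611 ||| m) = b := h2
    rw [h2']
  · rintro ⟨h1, h2⟩
    refine ⟨h1, ?_⟩
    show specialB (8388611 ||| m) = b
    cases b <;> cases h : specialB (8388611 ||| m) <;> simp_all

theorem trip_class (b : Bool) (l0 : ℕ)
    (htab : allBelow 5 (fun l => pTripB b (getR 24 s3A (getR 12 s3s3Ridx l)) == Nat.beq l l0) = true)
    (hl0 : l0 < 5) {T : Finset GolayPt} (hT : T.card = 3) :
    {U : Finset GolayPt | U.card = 3 ∧ PTrip b T U}.ncard = [1, 63, 210, 630, 1120].getD l0 0 ∧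
      ∀ U U' : Finset GolayPt, U.card = 3 → PTrip b T U → U'.card = 3 → PTrip b T U' →
        ∃ h ∈ MulAction.stabilizer M24 T, h • U = U' := by
  obtain ⟨g0, hg0, e⟩ := norm_set3 hT
  obtain ⟨g, rfl⟩ : ∃ g : M24, g • setOf 8388611 = T :=
    ⟨⟨g0⁻¹, M24.inv_mem hg0⟩, by rw [← e]; exact inv_smul_smul g0 T⟩
  obtain ⟨c1, c2, c3⟩ := clsCheck_spec s3s3_cls
  obtain ⟨e1, e2, e3⟩ := enum_smul g {s : Finset GolayPt | s.card = 3}
    (fun a => by
      show (g • a).card = 3 ↔ a.card = 3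
      rw [Finset.card_smul_finset]) _ 2024 s3_enum.1 s3_enum.2 (mask_inj s3_inc)
  have tab : ∀ l < 5, (PTrip b (g • setOf 8388611)
      (g • setOf (getR 24 s3A (getR 12 s3s3Ridx l))) ↔ l = l0) := by
    intro l hl
    have h1 := of_allBelow htab l hl
    rw [beq_iff_eq] at h1
    have h2 : PTrip b (g • setOf 8388611) (g • setOf (getR 24 s3A (getR 12 s3s3Ridx l))) ↔
        PTrip b (setOf 8388611) (setOf (getR 24 s3A (getR 12 s3s3Ridx l))) := PTrip_smul g.2 _ _ _
    rw [h2, ← pTripB_iff b (getR_lt _ _ _), h1, Nat.beq_eq]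
  have key := class_of_pred (MulAction.stabilizer M24 (g • setOf 8388611)) _ 2024 _
    (fun l => g • setOf (getR 24 s3A (getR 12 s3s3Ridx l))) {s : Finset GolayPt | s.card = 3}
    e1 e2 e3 (horb_smul g _ _ 2024 _ _ s3s3_horb) (PTrip b (g • setOf 8388611))
    (fun h hh a => by
      have h3 : PTrip b ((h : Equiv.Perm GolayPt) • (g • setOf 8388611))
        ((h : Equiv.Perm GolayPt) • a) ↔ PTrip b (g • setOf 8388611) a := PTrip_smul h.2 _ _ _
      have h4 : (h : Equiv.Perm GolayPt) • (g • setOf 8388611) = g • setOf 8388611 := hh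
      rw [h4] at h3
      exact h3) l0
    ((tab l0 hl0).mpr rfl) (fun i hi hne hp => hne ((tab _ (c1 i hi)).mp hp))
  rw [c3 l0 hl0] at key
  exact key

end Cfsg.Agent.Lib.Helper8
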