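import Cfsg.Prelude.Def_Sporadic_a

set_option autoImplicit false

namespace Cfsg.Agent.Lib.Helper8.St

open Cfsg Finset

variable {α : Type*} [Fintype α] [DecidableEq α]

theorem card_between (I c : Finset α) (hIc : I ⊆ c) (t : ℕ) (ht : I.card ≤ t) :
    ((univ : Finset (Finset α)).filter (fun s => s.card = t ∧ I ⊆ s ∧ s ⊆ c)).card =
      (c.card - I.card).choose (t - I.card) := by
  rw [← Finset.card_sdiff_of_subset hIc, ← Finset.card_powersetCard]
  symm
  apply Finset.card_bij (fun u _ => u ∪ I)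
  · intro u hu
    rw [mem_powersetCard] at hu
    have hd : Disjoint u I := disjoint_of_subset_left hu.1 sdiff_disjoint
    simp only [mem_filter, mem_univ, true_and]
    refine ⟨?_, subset_union_right, union_subset (hu.1.trans sdiff_subset) hIc⟩
    rw [card_union_of_disjoint hd, hu.2]; omega
  · intro u hu u' hu' h
    rw [mem_powersetCard] at hu hu'
    have hd : Disjoint u I := disjoint_of_subset_left hu.1 sdiff_disjoint
    have hd' : Disjoint u' I := disjoint_of_subset_left hu'.1 sdiff_disjoint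
    have h1 : (u ∪ I) \ I = u := by rw [union_sdiff_right, sdiff_eq_self_of_disjoint hd]
    have h2 : (u' ∪ I) \ I = u' := by rw [union_sdiff_right, sdiff_eq_self_of_disjoint hd']
    rw [← h1, ← h2, h]
  · intro s hs
    simp only [mem_filter, mem_univ, true_and] at hs
    obtain ⟨h1, h2, h3⟩ := hs
    refine ⟨s \ I, ?_, sdiff_union_of_subset h2⟩
    rw [mem_powersetCard]
    exact ⟨sdiff_subset_sdiff h3 (subset_refl _), by rw [card_sdiff_of_subset h2, h1]⟩

theorem lam_mul {t k : ℕ} {B : Set (Finset α)} (hB : IsSteinerSystem t k B) (I : Finset α)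
    (hI : I.card ≤ t) :
    {c : Finset α | c ∈ B ∧ I ⊆ c}.ncard * (k - I.card).choose (t - I.card) =
      (Fintype.card α - I.card).choose (t - I.card) := by
  classical
  set T : Finset (Finset α) := univ.filter (fun c => c ∈ B ∧ I ⊆ c) with hTdef
  set X : Finset (Finset α) := univ.filter (fun s => s.card = t ∧ I ⊆ s ∧ s ⊆ univ) with hXdef
  have hT : {c : Finset α | c ∈ B ∧ I ⊆ c}.ncard = T.card := by
    rw [← Set.ncard_coe_finset]
    congr 1
    ext c
    simp [hTdef]
  have hX : X.card = (Fintype.card α - I.card).choose (t - I.card) := by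
    rw [hXdef, card_between I univ (subset_univ _) t hI, card_univ]
  have key := Finset.sum_card_bipartiteAbove_eq_sum_card_bipartiteBelow (s := X) (t := T)
    (fun s c => s ⊆ c)
  have h1 : ∀ s ∈ X, (T.bipartiteAbove (fun s c => s ⊆ c) s).card = 1 := by
    intro s hs
    obtain ⟨hst, hIs, -⟩ := (mem_filter.mp hs).2
    obtain ⟨c, ⟨hcB, hsc⟩, huniq⟩ := hB.2 s hst
    rw [card_eq_one]
    refine ⟨c, ?_⟩
    ext c'
    simp only [bipartiteAbove, mem_filter, mem_univ, true_and, mem_singleton, hTdef]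
    constructor
    · rintro ⟨⟨h1, _⟩, h3⟩; exact huniq c' ⟨h1, h3⟩
    · rintro rfl; exact ⟨⟨hcB, hIs.trans hsc⟩, hsc⟩
  have h2 : ∀ c ∈ T, (X.bipartiteBelow (fun s c => s ⊆ c) c).card =
      (k - I.card).choose (t - I.card) := by
    intro c hc
    obtain ⟨hcB, hIc⟩ := (mem_filter.mp hc).2
    rw [← hB.1 c hcB, ← card_between I c hIc t hI]
    congr 1
    ext s
    simp only [bipartiteBelow, mem_filter, mem_univ, true_and, hXdef, subset_univ, and_true]
    tauto
  rw [sum_congr rfl h1, sum_congr rfl h2, sum_const, sum_const, smul_eq_mul, smul_eq_mul,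
    mul_one] at key
  rw [hT, ← key, hX]

/-- number of blocks containing `I` and missing `J` -/
noncomputable def NN (B : Set (Finset α)) (I J : Finset α) : ℕ :=
  {c : Finset α | c ∈ B ∧ I ⊆ c ∧ Disjoint J c}.ncard

theorem NN_split (B : Set (Finset α)) (I J : Finset α) (x : α) :
    NN B I J = NN B (insert x I) J + NN B I (insert x J) := by
  unfold NN
  rw [← Set.ncard_union_eq ?_ (Set.toFinite _) (Set.toFinite _)]
  · congr 1
    ext c
    simp only [Set.mem_ofPred_eq, Set.mem_union, insert_subset_iff, disjoint_insert_left]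
    by_cases hx : x ∈ c <;> simp [hx]
  · rw [Set.disjoint_left]
    rintro c ⟨_, h1, _⟩ ⟨_, _, h2⟩
    exact (disjoint_insert_left.mp h2).1 (h1 (mem_insert_self _ _))

def Tri (lam : ℕ → ℕ) : ℕ → ℕ → ℕ
  | i, 0 => lam i
  | i, j + 1 => Tri lam i j - Tri lam (i + 1) j

theorem NN_eq_Tri {B : Set (Finset α)} (lam : ℕ → ℕ) (b : Finset α)
    (hbase : ∀ I ⊆ b, NN B I ∅ = lam I.card) :
    ∀ J ⊆ b, ∀ I ⊆ b, Disjoint I J → NN B I J = Tri lam I.card J.card := by
  intro J
  induction J using Finset.induction_on with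
  | empty =>
    intro _ I hI _
    rw [card_empty]; exact hbase I hI
  | insert x J hx ih =>
    intro hJ I hI hd
    have hxb : x ∈ b := hJ (mem_insert_self _ _)
    have hJb : J ⊆ b := (subset_insert _ _).trans hJ
    have hxI : x ∉ I := fun h => (disjoint_left.mp hd h) (mem_insert_self _ _)
    have hdIJ : Disjoint I J := disjoint_of_subset_right (subset_insert _ _) hd
    have h1 := NN_split B I J x
    have h2 := ih hJb I hI hdIJ
    have h3 := ih hJb (insert x I) (insert_subset hxb hI)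
      (by rw [disjoint_insert_left]; exact ⟨hx, hdIJ⟩)
    rw [card_insert_of_notMem hxI] at h3
    rw [card_insert_of_notMem hx, Tri, ← h2, ← h3]
    omega

def lamS (v t k : ℕ) (i : ℕ) : ℕ :=
  if i ≤ t then (v - i).choose (t - i) / (k - i).choose (t - i) else 1

theorem NN_base {t k : ℕ} {B : Set (Finset α)} (hB : IsSteinerSystem t k B) {b : Finset α}
    (hb : b ∈ B) (htk : t ≤ k) {I : Finset α} (hIb : I ⊆ b) :
    NN B I ∅ = lamS (Fintype.card α) t k I.card := by
  unfold NN lamS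
  simp only [disjoint_empty_left, and_true]
  split_ifs with h
  · have := lam_mul hB I h
    rw [← this, Nat.mul_div_cancel _ (Nat.choose_pos (by omega))]
  · push Not at h
    obtain ⟨s, hsI, hst⟩ := exists_subset_card_eq h.le
    obtain ⟨c, ⟨hcB, hsc⟩, huniq⟩ := hB.2 s hst
    rw [Set.ncard_eq_one]
    refine ⟨b, ?_⟩
    ext c'
    simp only [Set.mem_ofPred_eq, Set.mem_singleton_iff]
    constructor
    · rintro ⟨h1, h2⟩
      rw [huniq c' ⟨h1, hsI.trans h2⟩, huniq b ⟨hb, hsI.trans hIb⟩]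
    · rintro rfl; exact ⟨hb, hIb⟩

theorem exact_inter {t k : ℕ} {B : Set (Finset α)} (hB : IsSteinerSystem t k B) {b : Finset α}
    (hb : b ∈ B) (htk : t ≤ k) {s : Finset α} (hs : s ⊆ b) :
    {c : Finset α | c ∈ B ∧ b ∩ c = s}.ncard =
      Tri (lamS (Fintype.card α) t k) s.card (k - s.card) := by
  have h := NN_eq_Tri (B := B) _ b (fun I hI => NN_base hB hb htk hI) (b \ s) sdiff_subset s hs
    disjoint_sdiff
  rw [card_sdiff_of_subset hs, hB.1 b hb] at h
  rw [← h]
  unfold NN
  congr 1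
  ext c
  simp only [Set.mem_ofPred_eq]
  constructor
  · rintro ⟨h1, rfl⟩
    refine ⟨h1, inter_subset_right, ?_⟩
    rw [disjoint_left]
    intro x hx hxc
    rw [mem_sdiff, mem_inter] at hx
    exact hx.2 ⟨hx.1, hxc⟩
  · rintro ⟨h1, h2, h3⟩
    refine ⟨h1, ?_⟩
    ext x
    rw [mem_inter]
    constructor
    · rintro ⟨hxb, hxc⟩
      by_contra hxs
      exact disjoint_left.mp h3 (mem_sdiff.mpr ⟨hxb, hxs⟩) hxc
    · intro hxs; exact ⟨hs hxs, h2 hxs⟩

/-- the size of the intersection of two blocks has a non-zero entry in the triangle -/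
theorem inter_pos {t k : ℕ} {B : Set (Finset α)} (hB : IsSteinerSystem t k B) {b c : Finset α}
    (hb : b ∈ B) (hc : c ∈ B) (htk : t ≤ k) :
    0 < Tri (lamS (Fintype.card α) t k) (b ∩ c).card (k - (b ∩ c).card) := by
  rw [← exact_inter hB hb htk inter_subset_left, Set.ncard_pos (Set.toFinite _)]
  exact ⟨c, hc, rfl⟩

theorem eq_of_inter_card {t k : ℕ} {B : Set (Finset α)} (hB : IsSteinerSystem t k B)
    {b c : Finset α} (hb : b ∈ B) (hc : c ∈ B) (h : (b ∩ c).card = k) : b = c := by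
  have h1 : b ∩ c = b := eq_of_subset_of_card_le inter_subset_left (by rw [h, hB.1 b hb])
  have h2 : b ∩ c = c := eq_of_subset_of_card_le inter_subset_right (by rw [h, hB.1 c hc])
  rw [← h1, h2]

theorem k24 : ∀ j ≤ 8, 0 < Tri (lamS 24 5 8) j (8 - j) → j = 0 ∨ j = 2 ∨ j = 4 ∨ j = 8 := by
  decide +kernel
theorem k24' : Tri (lamS 24 5 8) 0 8 = 30 := by decide +kernel
theorem k23 : ∀ j ≤ 7, 0 < Tri (lamS 23 4 7) j (7 - j) → j = 1 ∨ j = 3 ∨ j = 7 := by
  decide +kernel
theorem k22 : ∀ j ≤ 6, 0 < Tri (lamS 22 3 6) j (6 - j) → j = 0 ∨ j = 2 ∨ j = 6 := by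
  decide +kernel
theorem k12 : ∀ j ≤ 6, 0 < Tri (lamS 12 5 6) j (6 - j) →
    j = 0 ∨ j = 2 ∨ j = 3 ∨ j = 4 ∨ j = 6 := by decide +kernel
theorem k12' : Tri (lamS 12 5 6) 0 6 = 1 ∧ Tri (lamS 12 5 6) 2 4 = 3 ∧
    Tri (lamS 12 5 6) 3 3 = 2 ∧ Tri (lamS 12 5 6) 4 2 = 3 := by decide +kernel

theorem inter_le {t k : ℕ} {B : Set (Finset α)} (hB : IsSteinerSystem t k B) {b : Finset α}
    (hb : b ∈ B) (c : Finset α) : (b ∩ c).card ≤ k :=
  (card_le_card inter_subset_left).trans (hB.1 b hb).le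

theorem disjoint_count {t k : ℕ} {B : Set (Finset α)} (hB : IsSteinerSystem t k B) {b : Finset α}
    (hb : b ∈ B) (htk : t ≤ k) :
    {c : Finset α | c ∈ B ∧ Disjoint b c}.ncard = Tri (lamS (Fintype.card α) t k) 0 k := by
  have h := exact_inter hB hb htk (empty_subset b)
  rw [card_empty, Nat.sub_zero] at h
  rw [← h]
  congr 1
  ext c
  simp only [Set.mem_ofPred_eq, disjoint_iff_inter_eq_empty]

end Cfsg.Agent.Lib.Helper8.St
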