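import Cfsg.Agent.Lib.Helper8.Steiner

set_option autoImplicit false

namespace Cfsg.Agent.Lib.Helper8.St

open Cfsg Finset

variable {α : Type*} [Fintype α] [DecidableEq α]

open Classical in
/-- the blocks through a set -/
noncomputable def Thru (B : Set (Finset α)) (F : Finset α) : Finset (Finset α) :=
  univ.filter (fun c => c ∈ B ∧ F ⊆ c)

theorem mem_Thru {B : Set (Finset α)} {F c : Finset α} : c ∈ Thru B F ↔ c ∈ B ∧ F ⊆ c := by
  simp [Thru]

theorem card_Thru (B : Set (Finset α)) (F : Finset α) :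
    (Thru B F).card = {c : Finset α | c ∈ B ∧ F ⊆ c}.ncard := by
  rw [← Set.ncard_coe_finset]
  congr 1
  ext c
  simp [mem_Thru]

theorem sum_through {t k : ℕ} {B : Set (Finset α)} (hB : IsSteinerSystem (t + 1) k B)
    (F : Finset α) (hF : F.card = t) (D : Finset α) (hD : Disjoint D F) :
    ∑ e ∈ Thru B F, (D ∩ e).card = D.card := by
  classical
  have key := Finset.sum_card_bipartiteAbove_eq_sum_card_bipartiteBelow (s := D) (t := Thru B F)
    (fun p e => p ∈ e)
  have h1 : ∀ p ∈ D, ((Thru B F).bipartiteAbove (fun p e => p ∈ e) p).card = 1 := by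
    intro p hp
    have hpF : p ∉ F := disjoint_left.mp hD hp
    obtain ⟨c, ⟨hcB, hsc⟩, huniq⟩ := hB.2 (insert p F) (by rw [card_insert_of_notMem hpF, hF])
    rw [card_eq_one]
    refine ⟨c, ?_⟩
    ext c'
    simp only [bipartiteAbove, mem_filter, mem_Thru, mem_singleton]
    constructor
    · rintro ⟨⟨h1, h2⟩, h3⟩
      exact huniq c' ⟨h1, insert_subset h3 h2⟩
    · rintro rfl
      exact ⟨⟨hcB, (subset_insert _ _).trans hsc⟩, hsc (mem_insert_self _ _)⟩
  have h2 : ∀ e ∈ Thru B F, (D.bipartiteBelow (fun p e => p ∈ e) e).card = (D ∩ e).card := by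
    intro e _
    congr 1
  rw [sum_congr rfl h1, sum_congr rfl h2, sum_const, smul_eq_mul, mul_one] at key
  exact key.symm

theorem secant (hα : Fintype.card α = 24) {B : Set (Finset α)} (hB : IsSteinerSystem 5 8 B)
    {d : Finset α} (hd : d ∈ B) {A : Finset α} (hA3 : A.card = 3) (hAd : Disjoint A d) {y : α}
    (hy : y ∈ d) : ∃! e, e ∈ B ∧ insert y A ⊆ e ∧ (d ∩ e).card = 4 := by
  have hyA : y ∉ A := fun h => disjoint_left.mp hAd h hy
  have hF : (insert y A).card = 4 := by rw [card_insert_of_notMem hyA, hA3]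
  have hDc : (d.erase y).card = 7 := by rw [card_erase_of_mem hy, hB.1 d hd]
  have hDF : Disjoint (d.erase y) (insert y A) := by
    rw [disjoint_insert_right]
    refine ⟨notMem_erase y d, ?_⟩
    exact disjoint_of_subset_left (erase_subset _ _) hAd.symm
  have hsum := sum_through hB (insert y A) hF (d.erase y) hDF
  rw [hDc] at hsum
  have hcard : (Thru B (insert y A)).card = 5 := by
    have h := lam_mul hB (insert y A) (by rw [hF]; norm_num)
    rw [hF, hα, ← card_Thru] at h
    norm_num [Nat.choose] at h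
    omega
  have hval : ∀ e ∈ Thru B (insert y A), (d ∩ e).card = (d.erase y ∩ e).card + 1 ∧
      ((d.erase y ∩ e).card = 1 ∨ (d.erase y ∩ e).card = 3) := by
    intro e he
    obtain ⟨heB, hFe⟩ := mem_Thru.mp he
    have hye : y ∈ d ∩ e := mem_inter.mpr ⟨hy, hFe (mem_insert_self _ _)⟩
    have h1 : (d ∩ e).card = (d.erase y ∩ e).card + 1 := by
      rw [erase_inter, card_erase_of_mem hye]
      have := card_pos.mpr ⟨y, hye⟩
      omega
    refine ⟨h1, ?_⟩
    have hne : d ≠ e := by
      rintro rfl
      obtain ⟨a, ha⟩ := card_pos.mp (by rw [hA3]; norm_num : 0 < A.card)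
      exact disjoint_left.mp hAd ha (hFe (mem_insert_of_mem ha))
    have h2 := inter_pos hB hd heB (by norm_num)
    rw [hα] at h2
    rcases k24 _ (inter_le hB hd e) h2 with h' | h' | h' | h'
    · omega
    · left; omega
    · right; omega
    · exact absurd (eq_of_inter_card hB hd heB h') hne
  have hex : ∃ e ∈ Thru B (insert y A), (d.erase y ∩ e).card = 3 := by
    by_contra hno
    push Not at hno
    have h1 : ∀ e ∈ Thru B (insert y A), (d.erase y ∩ e).card = 1 := by
      intro e he
      rcases (hval e he).2 with h | h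
      · exact h
      · exact absurd h (hno e he)
    rw [sum_congr rfl h1, sum_const, hcard] at hsum
    norm_num at hsum
  obtain ⟨e, he, he3⟩ := hex
  refine ⟨e, ⟨(mem_Thru.mp he).1, (mem_Thru.mp he).2, by rw [(hval e he).1, he3]⟩, ?_⟩
  rintro e' ⟨h1, h2, h3⟩
  by_contra hne
  have he' : e' ∈ Thru B (insert y A) := mem_Thru.mpr ⟨h1, h2⟩
  have he'3 : (d.erase y ∩ e').card = 3 := by
    have := (hval e' he').1
    omega
  have s1 := add_sum_erase (Thru B (insert y A)) (fun e => (d.erase y ∩ e).card) he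
  have he'' : e' ∈ (Thru B (insert y A)).erase e := mem_erase.mpr ⟨hne, he'⟩
  have s2 := add_sum_erase ((Thru B (insert y A)).erase e) (fun e => (d.erase y ∩ e).card) he''
  have s3 := card_nsmul_le_sum (((Thru B (insert y A)).erase e).erase e')
    (fun e => (d.erase y ∩ e).card) 1 (by
      intro x hx
      have hx' : x ∈ Thru B (insert y A) := mem_of_mem_erase (mem_of_mem_erase hx)
      rcases (hval x hx').2 with h | h <;> simp only [h] <;> norm_num)
  rw [card_erase_of_mem he'', card_erase_of_mem he, hcard] at s3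
  simp only [smul_eq_mul] at s3
  omega

theorem symmDiff_block (hα : Fintype.card α = 24) {B : Set (Finset α)}
    (hB : IsSteinerSystem 5 8 B) {b d : Finset α} (hb : b ∈ B) (hd : d ∈ B)
    (h4 : (b ∩ d).card = 4) : symmDiff b d ∈ B := by
  have hs4 : (b \ d).card = 4 := by
    have := card_sdiff_add_card_inter b d
    rw [hB.1 b hb] at this; omega
  have hw4 : (d \ b).card = 4 := by
    have := card_sdiff_add_card_inter d b
    rw [hB.1 d hd, inter_comm] at this; omega
  obtain ⟨A, hAs, hA3⟩ := exists_subset_card_eq (by rw [hs4]; norm_num : 3 ≤ (b \ d).card)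
  obtain ⟨x, hx⟩ := card_pos.mp (by rw [hw4]; norm_num : 0 < (d \ b).card)
  have hxd : x ∈ d := (mem_sdiff.mp hx).1
  have hxb : x ∉ b := (mem_sdiff.mp hx).2
  have hAd : Disjoint A d := disjoint_of_subset_left hAs sdiff_disjoint
  have hAb : A ⊆ b := hAs.trans sdiff_subset
  obtain ⟨e, ⟨heB, hFe, he4⟩, -⟩ := secant hα hB hd hA3 hAd hxd
  have hxe : x ∈ e := hFe (mem_insert_self _ _)
  have hAe : A ⊆ e := (subset_insert _ _).trans hFe
  have hbe : b ≠ e := by rintro rfl; exact hxb hxe
  have hno : ∀ y, y ∈ b → y ∈ d → y ∉ e := by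
    intro y hyb hyd hye
    obtain ⟨e0, -, huniq⟩ := secant hα hB hd hA3 hAd hyd
    have h1 := huniq b ⟨hb, insert_subset hyb hAb, by rw [inter_comm]; exact h4⟩
    have h2 := huniq e ⟨heB, insert_subset hye hAe, he4⟩
    exact hbe (h1.trans h2.symm)
  have hwe : d \ b ⊆ e := by
    have hsub : d ∩ e ⊆ d \ b := by
      intro p hp
      rw [mem_inter] at hp
      exact mem_sdiff.mpr ⟨hp.1, fun hpb => hno p hpb hp.1 hp.2⟩
    have := eq_of_subset_of_card_le hsub (by rw [hw4, he4])
    rw [← this]; exact inter_subset_right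
  have hbe4 : (b ∩ e).card = 4 := by
    have h2 := inter_pos hB hb heB (by norm_num)
    rw [hα] at h2
    have h3 : 3 ≤ (b ∩ e).card := by
      rw [← hA3]; exact card_le_card (subset_inter hAb hAe)
    rcases k24 _ (inter_le hB hb e) h2 with h' | h' | h' | h'
    · omega
    · omega
    · exact h'
    · exact absurd (eq_of_inter_card hB hb heB h') hbe
  obtain ⟨z, hz, hzA⟩ := exists_mem_notMem_of_card_lt_card (by rw [hA3, hbe4]; norm_num :
    A.card < (b ∩ e).card)
  have hzb : z ∈ b := (mem_inter.mp hz).1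
  have hze : z ∈ e := (mem_inter.mp hz).2
  have hzd : z ∉ d := fun h => hno z hzb h hze
  have hse : b \ d ⊆ e := by
    have hsub : insert z A ⊆ b \ d := insert_subset (mem_sdiff.mpr ⟨hzb, hzd⟩) hAs
    have := eq_of_subset_of_card_le hsub (by rw [hs4, card_insert_of_notMem hzA, hA3])
    rw [← this]; exact insert_subset hze hAe
  have hsub : symmDiff b d ⊆ e := by
    rw [symmDiff_def, sup_eq_union]
    exact union_subset hse hwe
  have hc8 : (symmDiff b d).card = 8 := by
    rw [symmDiff_def, sup_eq_union, card_union_of_disjoint, hs4, hw4]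
    exact disjoint_of_subset_right sdiff_subset sdiff_disjoint
  have := eq_of_subset_of_card_le hsub (by rw [hc8, hB.1 e heB])
  rw [this]; exact heB

end Cfsg.Agent.Lib.Helper8.St
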