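import Cfsg.Agent.Lib.Helper8.Steiner

set_option autoImplicit false

namespace Cfsg.Agent.Lib.Helper8.St

open Cfsg Finset

variable {α : Type*} [Fintype α] [DecidableEq α]

theorem NN_base' {t k : ℕ} {B : Set (Finset α)} (hB : IsSteinerSystem t k B) (htk : t ≤ k)
    {I : Finset α} (hI : I.card ≤ t) : NN B I ∅ = lamS (Fintype.card α) t k I.card := by
  unfold NN lamS
  simp only [disjoint_empty_left, and_true]
  rw [if_pos hI]
  have := lam_mul hB I hI
  rw [← this, Nat.mul_div_cancel _ (Nat.choose_pos (by omega))]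

theorem exact_inter' {t k : ℕ} {B : Set (Finset α)} (hB : IsSteinerSystem t k B) (htk : t ≤ k)
    {Y : Finset α} (hY : Y.card ≤ t) {s : Finset α} (hs : s ⊆ Y) :
    {c : Finset α | c ∈ B ∧ Y ∩ c = s}.ncard =
      Tri (lamS (Fintype.card α) t k) s.card (Y.card - s.card) := by
  have h := NN_eq_Tri (B := B) _ Y
    (fun I hI => NN_base' hB htk ((card_le_card hI).trans hY)) (Y \ s) sdiff_subset s hs
    disjoint_sdiff
  rw [card_sdiff_of_subset hs] at h
  rw [← h]
  unfold NN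
  congr 1
  ext c
  simp only [Set.mem_ofPred_eq]
  constructor
  · rintro ⟨h1, rfl⟩
    refine ⟨h1, inter_subset_right, ?_⟩
    rw [disjoint_left]
    intro x hx hxc
    rw [mem_sdiff, mem_inter] at hx
    exact hx.2 ⟨hx.1, hxc⟩
  · rintro ⟨h1, h2, h3⟩
    refine ⟨h1, ?_⟩
    ext x
    rw [mem_inter]
    constructor
    · rintro ⟨hxb, hxc⟩
      by_contra hxs
      exact disjoint_left.mp h3 (mem_sdiff.mpr ⟨hxb, hxs⟩) hxc
    · intro hxs; exact ⟨hs hxs, h2 hxs⟩

theorem meet_count {t k : ℕ} {B : Set (Finset α)} (hB : IsSteinerSystem t k B) (htk : t ≤ k)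
    {Y : Finset α} (hY : Y.card ≤ t) (j : ℕ) :
    {b : Finset α | b ∈ B ∧ (b ∩ Y).card = j}.ncard =
      (Y.card).choose j * Tri (lamS (Fintype.card α) t k) j (Y.card - j) := by
  classical
  set F : Finset (Finset α) := univ.filter (fun b => b ∈ B ∧ (b ∩ Y).card = j) with hF
  have hn : {b : Finset α | b ∈ B ∧ (b ∩ Y).card = j}.ncard = F.card := by
    rw [← Set.ncard_coe_finset]
    congr 1
    ext v
    simp [hF]
  have h1 := card_eq_sum_card_fiberwise (s := F) (t := powersetCard j Y) (f := fun b => Y ∩ b) (by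
    intro b hb
    have hb' := (mem_filter.mp hb).2
    exact mem_coe.mpr (mem_powersetCard.mpr ⟨inter_subset_left, by
      show (Y ∩ b).card = j
      rw [inter_comm]; exact hb'.2⟩))
  have h2 : ∀ I ∈ powersetCard j Y, (F.filter (fun b => Y ∩ b = I)).card =
      Tri (lamS (Fintype.card α) t k) j (Y.card - j) := by
    intro I hI
    obtain ⟨hIY, hIj⟩ := mem_powersetCard.mp hI
    rw [← hIj, ← exact_inter' hB htk hY hIY, ← Set.ncard_coe_finset]
    congr 1
    ext b
    simp only [hF, coe_filter, mem_filter, mem_univ, true_and, Set.mem_ofPred_eq]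
    constructor
    · rintro ⟨⟨h1, _⟩, h3⟩; exact ⟨h1, h3⟩
    · rintro ⟨h1, h3⟩; exact ⟨⟨h1, by rw [inter_comm, h3, hIj]⟩, h3⟩
  rw [hn, h1, sum_congr rfl h2, sum_const, card_powersetCard, smul_eq_mul]

theorem k24Y : Nat.choose 3 3 * Tri (lamS 24 5 8) 3 (3 - 3) = 21 ∧
    Nat.choose 3 2 * Tri (lamS 24 5 8) 2 (3 - 2) = 168 ∧
    Nat.choose 3 1 * Tri (lamS 24 5 8) 1 (3 - 1) = 360 ∧
    Nat.choose 3 0 * Tri (lamS 24 5 8) 0 (3 - 0) = 210 := by decide +kernel

end Cfsg.Agent.Lib.Helper8.St
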