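import Cfsg.Agent.Lib.Helper8.Steiner3

set_option autoImplicit false

namespace Cfsg.Agent.Lib.Helper8.St

open Cfsg Finset

variable {α : Type*} [Fintype α] [DecidableEq α]

theorem s22_card (hα : Fintype.card α = 22) {B : Set (Finset α)} (hB : IsSteinerSystem 3 6 B) :
    B.ncard = 77 := by
  have h := lam_mul hB ∅ (by simp)
  simp only [empty_subset, and_true, card_empty, Nat.sub_zero, hα] at h
  have h1 : Nat.choose 6 3 = 20 := by decide
  have h2 : Nat.choose 22 3 = 1540 := by decide
  rw [h1, h2] at h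
  have : {c : Finset α | c ∈ B} = B := rfl
  rw [this] at h
  omega

theorem t22 : Tri (lamS 22 3 6) 0 6 = 16 := by decide +kernel

theorem s22_deg (hα : Fintype.card α = 22) {B : Set (Finset α)} (hB : IsSteinerSystem 3 6 B)
    {b : Finset α} (hb : b ∈ B) : {c : Finset α | c ∈ B ∧ Disjoint b c}.ncard = 16 := by
  rw [disjoint_count hB hb (by norm_num), hα]; exact t22

def lam22 (i : ℕ) : ℕ := if i ≤ 2 then lamS 22 3 6 (i + 1) else 0

theorem t22' : Tri lam22 0 6 = 6 := by decide +kernel

theorem s22_pt (hα : Fintype.card α = 22) {B : Set (Finset α)} (hB : IsSteinerSystem 3 6 B)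
    {b : Finset α} (hb : b ∈ B) {x : α} (hx : x ∉ b) :
    {c : Finset α | c ∈ B ∧ x ∈ c ∧ Disjoint b c}.ncard = 6 := by
  have base : ∀ I ⊆ b, NN {c : Finset α | c ∈ B ∧ x ∈ c} I ∅ = lam22 I.card := by
    intro I hI
    have hxI : x ∉ I := fun h => hx (hI h)
    unfold lam22
    split_ifs with h
    · have h1 := NN_base' hB (by norm_num) (I := insert x I)
        (by rw [card_insert_of_notMem hxI]; omega)
      rw [card_insert_of_notMem hxI, hα] at h1
      rw [← h1]
      unfold NN
      congr 1
      ext c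
      simp only [Set.mem_ofPred_eq, disjoint_empty_left, and_true, insert_subset_iff]
      tauto
    · push Not at h
      unfold NN
      rw [Set.ncard_eq_zero (Set.toFinite _), Set.eq_empty_iff_forall_notMem]
      rintro c ⟨⟨hcB, hxc⟩, hIc, -⟩
      obtain ⟨s, hsI, hs3⟩ := exists_subset_card_eq (by omega : 3 ≤ I.card)
      obtain ⟨c0, -, huniq⟩ := hB.2 s hs3
      have h1 := huniq c ⟨hcB, hsI.trans hIc⟩
      have h2 := huniq b ⟨hb, hsI.trans hI⟩
      rw [h1, ← h2] at hxc
      exact hx hxc
  have h := NN_eq_Tri lam22 b base b (subset_refl _) ∅ (empty_subset _) (disjoint_empty_left _)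
  rw [card_empty, hB.1 b hb, t22'] at h
  rw [← h]
  unfold NN
  congr 1
  ext c
  simp only [Set.mem_ofPred_eq, empty_subset, true_and, and_assoc]

open Classical in
/-- the blocks disjoint from a block -/
noncomputable def Dj (B : Set (Finset α)) (b : Finset α) : Finset (Finset α) :=
  univ.filter (fun c => c ∈ B ∧ Disjoint b c)

theorem mem_Dj {B : Set (Finset α)} {b c : Finset α} : c ∈ Dj B b ↔ c ∈ B ∧ Disjoint b c := by
  simp [Dj]

theorem card_Dj (hα : Fintype.card α = 22) {B : Set (Finset α)} (hB : IsSteinerSystem 3 6 B)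
    {b : Finset α} (hb : b ∈ B) : (Dj B b).card = 16 := by
  rw [← s22_deg hα hB hb, ← Set.ncard_coe_finset]
  congr 1
  ext c
  simp [mem_Dj]

theorem sum_Dj (hα : Fintype.card α = 22) {B : Set (Finset α)} (hB : IsSteinerSystem 3 6 B)
    {b : Finset α} (hb : b ∈ B) (R : Finset α) (hR : Disjoint R b) :
    ∑ e ∈ Dj B b, (R ∩ e).card = 6 * R.card := by
  classical
  have key := Finset.sum_card_bipartiteAbove_eq_sum_card_bipartiteBelow (s := R) (t := Dj B b)
    (fun p e => p ∈ e)
  have h1 : ∀ p ∈ R, ((Dj B b).bipartiteAbove (fun p e => p ∈ e) p).card = 6 := by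
    intro p hp
    rw [← s22_pt hα hB hb (disjoint_left.mp hR hp), ← Set.ncard_coe_finset]
    congr 1
    ext c
    simp only [bipartiteAbove, coe_filter, mem_Dj, Set.mem_ofPred_eq]
    tauto
  have h2 : ∀ e ∈ Dj B b, (R.bipartiteBelow (fun p e => p ∈ e) e).card = (R ∩ e).card := by
    intro e _
    congr 1
  rw [sum_congr rfl h1, sum_congr rfl h2, sum_const, smul_eq_mul] at key
  rw [← key, mul_comm]

theorem s22_common (hα : Fintype.card α = 22) {B : Set (Finset α)} (hB : IsSteinerSystem 3 6 B)
    {b c : Finset α} (hb : b ∈ B) (hc : c ∈ B) (hbc : b ≠ c) :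
    (Disjoint b c → {e : Finset α | e ∈ B ∧ Disjoint b e ∧ Disjoint c e}.ncard = 0) ∧
    (¬ Disjoint b c → {e : Finset α | e ∈ B ∧ Disjoint b e ∧ Disjoint c e}.ncard = 4) := by
  classical
  have hn : {e : Finset α | e ∈ B ∧ Disjoint b e ∧ Disjoint c e}.ncard =
      ((Dj B b).filter (fun e => Disjoint c e)).card := by
    rw [← Set.ncard_coe_finset]
    congr 1
    ext e
    simp only [coe_filter, mem_Dj, Set.mem_ofPred_eq, and_assoc]
  have hsum := sum_Dj hα hB hb (c \ b) sdiff_disjoint
  have hterm : ∀ e ∈ Dj B b, ((c \ b) ∩ e).card = (c ∩ e).card := by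
    intro e he
    congr 1
    ext x
    simp only [mem_inter, mem_sdiff]
    constructor
    · rintro ⟨⟨h1, _⟩, h3⟩; exact ⟨h1, h3⟩
    · rintro ⟨h1, h3⟩
      exact ⟨⟨h1, fun hxb => disjoint_left.mp (mem_Dj.mp he).2 hxb h3⟩, h3⟩
  rw [sum_congr rfl hterm] at hsum
  have hval : ∀ e ∈ Dj B b, e ≠ c → ((c ∩ e).card = 0 ∧ Disjoint c e) ∨
      ((c ∩ e).card = 2 ∧ ¬ Disjoint c e) := by
    intro e he hec
    have h := inter_pos hB hc (mem_Dj.mp he).1 (by norm_num)
    rw [hα] at h
    rcases k22 _ (inter_le hB hc e) h with h' | h' | h'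
    · left; exact ⟨h', by rw [disjoint_iff_inter_eq_empty, ← card_eq_zero]; exact h'⟩
    · right
      refine ⟨h', fun hd => ?_⟩
      rw [disjoint_iff_inter_eq_empty] at hd
      rw [hd] at h'; simp at h'
    · exact absurd (eq_of_inter_card hB hc (mem_Dj.mp he).1 h').symm hec
  have h16 := card_Dj hα hB hb
  have hc6 := hB.1 c hc
  have hcne : ¬ Disjoint c c := by
    intro h
    rw [disjoint_self] at h
    rw [h] at hc6; simp at hc6
  rw [hn]
  constructor
  · intro hd
    have hcD : c ∈ Dj B b := mem_Dj.mpr ⟨hc, hd⟩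
    have hR : (c \ b).card = 6 := by rw [sdiff_eq_self_of_disjoint hd.symm, hc6]
    rw [hR, ← add_sum_erase _ _ hcD, inter_self, hc6,
      ← sum_filter_add_sum_filter_not ((Dj B b).erase c) (fun e => Disjoint c e)] at hsum
    have s0 : ∑ e ∈ ((Dj B b).erase c).filter (fun e => Disjoint c e), (c ∩ e).card = 0 := by
      apply sum_eq_zero
      intro e he
      rw [mem_filter] at he
      rw [card_eq_zero, ← disjoint_iff_inter_eq_empty]; exact he.2
    have s2 : ∑ e ∈ ((Dj B b).erase c).filter (fun e => ¬ Disjoint c e), (c ∩ e).card =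
        ∑ _e ∈ ((Dj B b).erase c).filter (fun e => ¬ Disjoint c e), 2 := by
      apply sum_congr rfl
      intro e he
      rw [mem_filter, mem_erase] at he
      rcases hval e he.1.2 he.1.1 with h | h
      · exact absurd h.2 he.2
      · exact h.1
    rw [s0, s2, sum_const, smul_eq_mul] at hsum
    have hsplit := card_filter_add_card_filter_not (s := (Dj B b).erase c)
      (fun e => Disjoint c e)
    rw [card_erase_of_mem hcD, h16] at hsplit
    have hsame : (Dj B b).filter (fun e => Disjoint c e) =
        ((Dj B b).erase c).filter (fun e => Disjoint c e) := by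
      ext e
      simp only [mem_filter, mem_erase]
      constructor
      · rintro ⟨h1, h2⟩
        exact ⟨⟨fun h => hcne (h ▸ h2), h1⟩, h2⟩
      · rintro ⟨⟨_, h1⟩, h2⟩; exact ⟨h1, h2⟩
    rw [hsame]
    omega
  · intro hd
    have hcD : ∀ e ∈ Dj B b, e ≠ c := by
      rintro e he rfl
      exact hd (mem_Dj.mp he).2
    have hbc2 : (b ∩ c).card = 2 := by
      have h := inter_pos hB hb hc (by norm_num)
      rw [hα] at h
      rcases k22 _ (inter_le hB hb c) h with h' | h' | h'
      · exact absurd (by rw [disjoint_iff_inter_eq_empty, ← card_eq_zero]; exact h') hd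
      · exact h'
      · exact absurd (eq_of_inter_card hB hb hc h') hbc
    have hR : (c \ b).card = 4 := by
      have := card_sdiff_add_card_inter c b
      rw [inter_comm, hbc2, hc6] at this
      omega
    rw [hR, ← sum_filter_add_sum_filter_not (Dj B b) (fun e => Disjoint c e)] at hsum
    have s0 : ∑ e ∈ (Dj B b).filter (fun e => Disjoint c e), (c ∩ e).card = 0 := by
      apply sum_eq_zero
      intro e he
      rw [mem_filter] at he
      rw [card_eq_zero, ← disjoint_iff_inter_eq_empty]; exact he.2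
    have s2 : ∑ e ∈ (Dj B b).filter (fun e => ¬ Disjoint c e), (c ∩ e).card =
        ∑ _e ∈ (Dj B b).filter (fun e => ¬ Disjoint c e), 2 := by
      apply sum_congr rfl
      intro e he
      rw [mem_filter] at he
      rcases hval e he.1 (hcD e he.1) with h | h
      · exact absurd h.2 he.2
      · exact h.1
    rw [s0, s2, sum_const, smul_eq_mul] at hsum
    have hsplit := card_filter_add_card_filter_not (s := Dj B b)
      (fun e => Disjoint c e)
    rw [h16] at hsplit
    omega

end Cfsg.Agent.Lib.Helper8.St
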