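import Cfsg.Agent.Lib.Helper8.Steiner4

set_option autoImplicit false

namespace Cfsg.Agent.Lib.Helper8.St

open Cfsg Finset

variable {α : Type*} [Fintype α] [DecidableEq α]

theorem s22_l1 (hα : Fintype.card α = 22) {B : Set (Finset α)} (hB : IsSteinerSystem 3 6 B)
    (a : α) : {c : Finset α | c ∈ B ∧ a ∈ c}.ncard = 21 := by
  have h := lam_mul hB {a} (by simp)
  simp only [singleton_subset_iff, card_singleton, hα] at h
  have h1 : Nat.choose (6 - 1) (3 - 1) = 10 := by decide
  have h2 : Nat.choose (22 - 1) (3 - 1) = 210 := by decide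
  rw [h1, h2] at h
  omega

theorem s22_l2 (hα : Fintype.card α = 22) {B : Set (Finset α)} (hB : IsSteinerSystem 3 6 B)
    {a a' : α} (haa : a ≠ a') : {c : Finset α | c ∈ B ∧ a ∈ c ∧ a' ∈ c}.ncard = 5 := by
  have h := lam_mul hB {a, a'} (by rw [card_pair haa]; norm_num)
  rw [card_pair haa, hα] at h
  have h1 : Nat.choose (6 - 2) (3 - 2) = 4 := by decide
  have h2 : Nat.choose (22 - 2) (3 - 2) = 20 := by decide
  rw [h1, h2] at h
  have e : {c : Finset α | c ∈ B ∧ {a, a'} ⊆ c} = {c : Finset α | c ∈ B ∧ a ∈ c ∧ a' ∈ c} := by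
    ext c
    simp only [Set.mem_ofPred_eq, insert_subset_iff, singleton_subset_iff]
  rw [e] at h
  omega

theorem ncard_split {B : Set (Finset α)} (P : Option (α ⊕ B) → Prop) :
    {v | P v}.ncard = {_u : Unit | P none}.ncard + {a : α | P (some (Sum.inl a))}.ncard +
      {b : B | P (some (Sum.inr b))}.ncard := by
  have e : {v | P v} = ((fun _ : Unit => (none : Option (α ⊕ B))) '' {_u : Unit | P none} ∪
      (fun a : α => (some (Sum.inl a) : Option (α ⊕ B))) '' {a : α | P (some (Sum.inl a))}) ∪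
      (fun b : B => (some (Sum.inr b) : Option (α ⊕ B))) '' {b : B | P (some (Sum.inr b))} := by
    ext v
    simp only [Set.mem_ofPred_eq, Set.mem_union, Set.mem_image]
    rcases v with _ | a | b
    · simp
    · simp
    · simp
  haveI : Finite B := Set.toFinite B
  rw [e, Set.ncard_union_eq _ (Set.toFinite _) (Set.toFinite _),
    Set.ncard_union_eq _ (Set.toFinite _) (Set.toFinite _),
    Set.ncard_image_of_injective, Set.ncard_image_of_injective, Set.ncard_image_of_injective]
  · intro b b' h; simpa using h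
  · intro a a' h; simpa using h
  · intro u u' _; rfl
  · rw [Set.disjoint_left]
    rintro _ ⟨_, _, rfl⟩ ⟨_, _, h⟩
    simp at h
  · rw [Set.disjoint_left]
    rintro _ (⟨_, _, rfl⟩ | ⟨_, _, rfl⟩) ⟨_, _, h⟩
    · simp at h
    · simp at h

theorem ncard_B {B : Set (Finset α)} (Q : Finset α → Prop) :
    {b : B | Q b.1}.ncard = {c : Finset α | c ∈ B ∧ Q c}.ncard := by
  rw [← Set.ncard_image_of_injective _ Subtype.val_injective]
  congr 1
  ext c
  simp only [Set.mem_image, Set.mem_ofPred_eq]
  constructor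
  · rintro ⟨u, hu, rfl⟩; exact ⟨u.2, hu⟩
  · rintro ⟨h1, h2⟩; exact ⟨⟨c, h1⟩, h2, rfl⟩

theorem ncard_unit_true : {_u : Unit | True}.ncard = 1 := by
  have : {_u : Unit | True} = {()} := by ext; simp
  rw [this, Set.ncard_singleton]

theorem ncard_false {X : Type*} : {_u : X | False}.ncard = 0 := by
  have : {_u : X | False} = ∅ := by ext; simp
  rw [this, Set.ncard_empty]

theorem ncard_mem (b : Finset α) : {a : α | a ∈ b}.ncard = b.card := by
  have : {a : α | a ∈ b} = ↑b := by ext; simp
  rw [this, Set.ncard_coe_finset]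

end Cfsg.Agent.Lib.Helper8.St
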