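import Cfsg.Agent.Lib.Helper8.Sx192

set_option autoImplicit false

namespace Cfsg.Agent.Lib.Helper8

open Cfsg
open scoped Pointwise

/-- the action of a subgroup stabilising a family on the members of the family -/
noncomputable def famHom (H : Subgroup M24) (S : Finset (Finset GolayPt))
    (hS : ∀ g ∈ H, ((g : M24) : Equiv.Perm GolayPt) • S = S) : H →* Equiv.Perm {x // x ∈ S} where
  toFun g :=
    { toFun := fun t => ⟨((g : M24) : Equiv.Perm GolayPt) • t.1, by
        have := Finset.smul_mem_smul_finset (a := ((g : M24) : Equiv.Perm GolayPt)) t.2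
        rwa [hS g g.2] at this⟩
      invFun := fun t => ⟨((g : M24) : Equiv.Perm GolayPt)⁻¹ • t.1, by
        have h2 : ((g : M24) : Equiv.Perm GolayPt)⁻¹ • S = S := by rw [inv_smul_eq_iff, hS g g.2]
        have := Finset.smul_mem_smul_finset (a := ((g : M24) : Equiv.Perm GolayPt)⁻¹) t.2
        rwa [h2] at this⟩
      left_inv := fun t => Subtype.ext (inv_smul_smul _ _)
      right_inv := fun t => Subtype.ext (smul_inv_smul _ _) }
  map_one' := Equiv.ext fun t => Subtype.ext (one_smul _ _)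
  map_mul' a b := Equiv.ext fun t => Subtype.ext (mul_smul _ _ _)

theorem smul_fam_eq_of_forall {k : Equiv.Perm GolayPt} {S : Finset (Finset GolayPt)}
    (h : ∀ t ∈ S, k • t = t) : k • S = S := by
  apply Finset.eq_of_subset_of_card_le
  · intro a ha
    obtain ⟨b, hb, rfl⟩ := Finset.mem_smul_finset.mp ha
    rw [h b hb]; exact hb
  · rw [Finset.card_smul_finset]

theorem card_sub_conj (S : Finset (Finset GolayPt)) {w : Equiv.Perm GolayPt}
    (K' : Subgroup (Equiv.Perm GolayPt))
    (hK' : ∀ y ∈ K', w⁻¹ * y * w ∈ M24 ∧ (w⁻¹ * y * w) • S = S)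
    (P : ↥(MulAction.stabilizer M24 S) → Prop)
    (hP : ∀ g : ↥(MulAction.stabilizer M24 S),
      P g ↔ w * ((g : M24) : Equiv.Perm GolayPt) * w⁻¹ ∈ K') :
    Nat.card {g // P g} = Nat.card K' := by
  apply Nat.card_congr
  refine ⟨fun g => ⟨w * ((g.1 : M24) : Equiv.Perm GolayPt) * w⁻¹, (hP g.1).mp g.2⟩,
    fun y => ⟨⟨⟨w⁻¹ * y.1 * w, (hK' y.1 y.2).1⟩, (hK' y.1 y.2).2⟩, ?_⟩, ?_, ?_⟩
  · rw [hP]
    show w * (w⁻¹ * y.1 * w) * w⁻¹ ∈ K'
    have : w * (w⁻¹ * y.1 * w) * w⁻¹ = y.1 := by group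
    rw [this]; exact y.2
  · intro g
    apply Subtype.ext; apply Subtype.ext; apply Subtype.ext
    show w⁻¹ * (w * ((g.1 : M24) : Equiv.Perm GolayPt) * w⁻¹) * w = _
    group
  · intro y
    apply Subtype.ext
    show w * (w⁻¹ * y.1 * w) * w⁻¹ = _
    group

theorem sextet_struct (S : Finset (Finset GolayPt)) (hS : S ∈ sextets) :
    (∀ e : Equiv.Perm ↥S, ∃ g ∈ MulAction.stabilizer M24 S, ∀ t : ↥S,
      (g : Equiv.Perm GolayPt) • (t : Finset GolayPt) = ((e t : ↥S) : Finset GolayPt)) ∧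
    Nat.card {g : ↥(MulAction.stabilizer M24 S) //
      ∀ t ∈ S, ((g : M24) : Equiv.Perm GolayPt) • t = t} = 192 ∧
    ∃ N : Subgroup ↥(MulAction.stabilizer M24 S), N.Normal ∧ Nat.card N = 64 ∧
      ∀ x ∈ N, x * x = 1 := by
  obtain ⟨t0, ht0⟩ := sextet_nonempty hS
  obtain ⟨w, hw, hwS, -⟩ := sextet_norm hS ht0
  have hKiff : ∀ k : Equiv.Perm GolayPt, w * k * w⁻¹ ∈ GInv sx0 ↔
      k ∈ M24 ∧ ∀ t ∈ S, k • t = t := by
    intro k
    rw [mem_GInv_conj hw]
    apply and_congr_right
    intro _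
    constructor
    · intro h t ht
      have h1 : w • t ∈ famOf sx0 := by rw [← hwS]; exact Finset.smul_mem_smul_finset ht
      obtain ⟨m, hm, hmt⟩ := mem_famOf.mp h1
      exact (inv_conj_iff hmt.symm).mp (h m hm)
    · intro h m hm
      have h1 : setOf m ∈ w • S := by rw [hwS]; exact mem_famOf.mpr ⟨m, hm, rfl⟩
      obtain ⟨t, ht, hmt⟩ := Finset.mem_smul_finset.mp h1
      exact (inv_conj_iff hmt).mpr (h t ht)
  have hback : ∀ y ∈ GInv sx0, w⁻¹ * y * w ∈ M24 ∧ (w⁻¹ * y * w) • S = S := by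
    intro y hy
    have : w * (w⁻¹ * y * w) * w⁻¹ ∈ GInv sx0 := by
      have e : w * (w⁻¹ * y * w) * w⁻¹ = y := by group
      rw [e]; exact hy
    obtain ⟨h1, h2⟩ := (hKiff _).mp this
    exact ⟨h1, smul_fam_eq_of_forall h2⟩
  have hb : Nat.card {g : ↥(MulAction.stabilizer M24 S) //
      ∀ t ∈ S, ((g : M24) : Equiv.Perm GolayPt) • t = t} = 192 := by
    rw [card_sub_conj S (GInv sx0) hback _ (fun g => by
      rw [hKiff]; simp only [(g : M24).2, true_and]), card_K0]
  have hst : ∀ g ∈ MulAction.stabilizer M24 S, ((g : M24) : Equiv.Perm GolayPt) • S = S :=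
    fun _ hg => hg
  set φ := famHom (MulAction.stabilizer M24 S) S hst with hφ
  have hkermem : ∀ g : ↥(MulAction.stabilizer M24 S), g ∈ φ.ker ↔
      ∀ t ∈ S, ((g : M24) : Equiv.Perm GolayPt) • t = t := by
    intro g
    rw [MonoidHom.mem_ker]
    constructor
    · intro h t ht
      have := congrArg (fun σ : Equiv.Perm {x // x ∈ S} => ((σ ⟨t, ht⟩ : {x // x ∈ S}) :
        Finset GolayPt)) h
      exact this
    · intro h
      apply Equiv.ext
      intro t
      apply Subtype.ext
      exact h t.1 t.2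
  have hker : Nat.card φ.ker = 192 := by
    rw [← hb]
    exact Nat.card_congr (Equiv.subtypeEquivRight hkermem)
  have hG : Nat.card ↥(MulAction.stabilizer M24 S) = 138240 := by
    rw [← card_stab_sx0]
    exact Nat.card_congr (MulAction.stabilizerEquivStabilizer (G := M24) (g := ⟨w, hw⟩)
      (a := S) (b := famOf sx0) hwS.symm).toEquiv
  refine ⟨?_, hb, ?_⟩
  · have h1 := Subgroup.card_mul_index φ.ker
    rw [Subgroup.index_ker, hker, hG] at h1
    have h2 : Nat.card (Equiv.Perm ↥S) = 720 := by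
      rw [Nat.card_eq_fintype_card, Fintype.card_perm, Fintype.card_coe, hS.1]
      decide
    have h3 : φ.range = ⊤ := by
      apply Subgroup.eq_top_of_card_eq
      rw [h2]; omega
    intro e
    obtain ⟨g, hg⟩ := MonoidHom.range_eq_top.mp h3 e
    refine ⟨g.1, g.2, fun t => ?_⟩
    rw [← hg]
    rfl
  · let c : ↥(MulAction.stabilizer M24 S) →* Equiv.Perm GolayPt :=
      (MulAut.conj w).toMonoidHom.comp (M24.subtype.comp (MulAction.stabilizer M24 S).subtype)
    have hc : ∀ g : ↥(MulAction.stabilizer M24 S),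
        c g = w * ((g : M24) : Equiv.Perm GolayPt) * w⁻¹ := fun g => rfl
    let N0 := MulAction.stabilizer (Equiv.Perm GolayPt) (famOf F1l) ⊓ GInv sx0
    have hsq : ∀ x : ↥(MulAction.stabilizer M24 S), c x ∈ GInv sx0 →
        (c x ∈ N0 ↔ x * x = 1) := by
      intro x hx
      have h1 := K0_sq_iff (c x) hx
      constructor
      · intro h
        have h2 : c x * c x = 1 := h1.mp h.1
        rw [← map_mul] at h2
        have h3 : w * (((x * x : ↥(MulAction.stabilizer M24 S)) : M24) : Equiv.Perm GolayPt) * w⁻¹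
            = 1 := h2
        apply Subtype.ext; apply Subtype.ext
        have h4 : (((x * x : ↥(MulAction.stabilizer M24 S)) : M24) : Equiv.Perm GolayPt) =
            w⁻¹ * (w * (((x * x : ↥(MulAction.stabilizer M24 S)) : M24) :
              Equiv.Perm GolayPt) * w⁻¹) * w := by group
        rw [h4, h3]
        simp
      · intro h
        refine ⟨h1.mpr ?_, hx⟩
        rw [← map_mul, h, map_one]
    refine ⟨N0.comap c, ⟨?_⟩, ?_, ?_⟩
    · intro n hn h
      have hn' : c n ∈ N0 := hn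
      have hnK := (hKiff _).mp (by rw [← hc]; exact hn'.2)
      have hK : c (h * n * h⁻¹) ∈ GInv sx0 := by
        rw [hc, hKiff]
        refine ⟨((h * n * h⁻¹ : ↥(MulAction.stabilizer M24 S)) : M24).2, ?_⟩
        intro t ht
        show (((h : M24) : Equiv.Perm GolayPt) * ((n : M24) : Equiv.Perm GolayPt) *
          ((h : M24) : Equiv.Perm GolayPt)⁻¹) • t = t
        have h2 : ((h : M24) : Equiv.Perm GolayPt)⁻¹ • S = S := by
          rw [inv_smul_eq_iff, hst h h.2]
        have h3 : ((h : M24) : Equiv.Perm GolayPt)⁻¹ • t ∈ S := by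
          have := Finset.smul_mem_smul_finset (a := ((h : M24) : Equiv.Perm GolayPt)⁻¹) ht
          rwa [h2] at this
        rw [mul_smul, mul_smul, hnK.2 _ h3, smul_inv_smul]
      show c (h * n * h⁻¹) ∈ N0
      rw [hsq _ hK]
      have hnn : n * n = 1 := (hsq n hn'.2).mp hn'
      calc h * n * h⁻¹ * (h * n * h⁻¹) = h * (n * n) * h⁻¹ := by group
        _ = 1 := by rw [hnn]; group
    · rw [← card_N0]
      exact card_sub_conj S N0 (fun y hy => hback y hy.2) (fun g => g ∈ N0.comap c)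
        (fun g => Iff.rfl)
    · intro x hx
      have hx' : c x ∈ N0 := hx
      exact (hsq x hx'.2).mp hx'

end Cfsg.Agent.Lib.Helper8
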