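import Cfsg.Agent.Lib.Helper8.Pair

set_option autoImplicit false

namespace Cfsg.Agent.Lib.Helper8

open Cfsg
open scoped Pointwise

theorem s6c0 : levelCheck [15777, 8536111] [718707449325061116997445384178981925, 103467088028642543818451948815825637] [(1, 0, 1), (0, 1, 2), (1, 1, 4), (0, 3, 2), (1, 3, 6)] 1 8536078
    41538375758050385447852478040693760 4951760157213578693634429184 41538374945653415258442390048966656 = true := by
  decide +kernel

theorem s6c1 : levelCheck [2 ^ 1, 15777, 8536111] [107989264865577508135059567785264160, 607685453080346077041813606524634149] [(1, 0, 1), (1, 4, 2), (0, 2, 3), (1, 2, 6), (0, 5, 3), (1, 5, 8)] 2 8536076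
    706152372838127879993035963947745280 4951760157141521099596496896 83076749775245229467397509680824320 = true := by
  decide +kernel

theorem s6c2 : levelCheck [2 ^ 2, 2 ^ 1, 15777, 8536111] [152775433604044194673112741574117413, 725895487971383339971559185675552800] [(1, 0, 1), (1, 5, 2), (1, 6, 3), (0, 3, 4), (1, 3, 8), (0, 7, 4), (1, 7, 10)] 3 8536072
    581537248271977643135972185636601856 0 124615124643523850495641480314486784 = true := by
  decide +kernel

theorem s6c3 : levelCheck [2 ^ 3, 2 ^ 2, 2 ^ 1, 15777, 8536111] [735581646151834478568078236836792357, 982021411060829739136971480280172581] [(1, 0, 1), (1, 6, 2), (1, 7, 3), (1, 8, 4), (0, 4, 5), (1, 4, 10), (0, 9, 5), (1, 9, 12)] 14 8536064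
    706152373302335324667501371042299904 295147905179352825856 83076749775242868284156074858119168 = true := by
  decide +kernel

theorem s6c4 : levelCheck [2 ^ 14, 2 ^ 3, 2 ^ 2, 2 ^ 1, 15777, 8536111] [735581646151834478568078236836792357] [(1, 0, 1), (1, 7, 2), (1, 8, 3), (1, 9, 4), (1, 10, 5), (0, 5, 6), (1, 5, 12), (0, 11, 6), (1, 11, 14)] 17 8519680
    706152372760736557480147500773933056 0 41538374868278621028243970633760768 = true := by
  decide +kernel


end Cfsg.Agent.Lib.Helper8
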