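import Cfsg.Agent.Lib.Helper8.Sym6
import Cfsg.Agent.Lib.Helper8.Sym6Chain

set_option autoImplicit false

namespace Cfsg.Agent.Lib.Helper8

open Cfsg
open scoped Pointwise

theorem card_s6_bot :
    Nat.card (GInv [2 ^ 17, 2 ^ 14, 2 ^ 3, 2 ^ 2, 2 ^ 1, 15777, 8536111]) = 1 := by
  have h0 := level_card s6c0
  have h1 := level_card s6c1
  have h2 := level_card s6c2
  have h3 := level_card s6c3
  have h4 := level_card s6c4
  rw [card_OO2, show popc 8536078 = 6 by decide +kernel] at h0
  rw [show popc 8536076 = 5 by decide +kernel] at h1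
  rw [show popc 8536072 = 4 by decide +kernel] at h2
  rw [show popc 8536064 = 3 by decide +kernel] at h3
  rw [show popc 8519680 = 2 by decide +kernel] at h4
  omega

theorem two_octads_sym6 (o o' : Finset GolayPt) (ho : o ∈ octads) (ho' : o' ∈ octads)
    (h₂ : (o ∩ o').card = 2) :
    Nonempty (↥(MulAction.stabilizer M24 o ⊓ MulAction.stabilizer M24 o') ≃*
      Equiv.Perm (Fin 6)) := by
  have hm' : setOf 15777 ∈ octads := setOf_mem_octads (by decide +kernel)
  obtain ⟨w, hw, hwo, hwo'⟩ := norm_O_code ho ho'.1 hm'.1 (ho'.2.trans hm'.2.symm)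
    (by rw [h₂, card_inter_setOf]; decide +kernel)
  have hmem : ∀ k : M24, k ∈ MulAction.stabilizer M24 o ⊓ MulAction.stabilizer M24 o' ↔
      w * (k : Equiv.Perm GolayPt) * w⁻¹ ∈ GInv [15777, 8536111] := by
    intro k
    rw [mem_GInv_conj hw]
    simp only [List.mem_cons, List.not_mem_nil, or_false, forall_eq_or_imp, forall_eq,
      inv_conj_iff hwo, inv_conj_iff hwo',
      Subgroup.mem_inf, MulAction.mem_stabilizer_iff, k.2, true_and]
    exact and_comm
  have hcard : Nat.card ↥(MulAction.stabilizer M24 o ⊓ MulAction.stabilizer M24 o') = 720 := by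
    rw [card_eq_card_GInv _ _ hw hmem, card_OO2]
  have hc6 : (o \ o').card = 6 := by
    have := Finset.card_sdiff_add_card_inter o o'
    rw [h₂, ho.2] at this
    omega
  have hst : ∀ g ∈ MulAction.stabilizer M24 o ⊓ MulAction.stabilizer M24 o',
      ((g : M24) : Equiv.Perm GolayPt) • (o \ o') = o \ o' := by
    intro g hg
    have h1 : ((g : M24) : Equiv.Perm GolayPt) • o = o := hg.1
    have h2 : ((g : M24) : Equiv.Perm GolayPt) • o' = o' := hg.2
    rw [Finset.smul_finset_sdiff, h1, h2]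
  have hwC : w • (o \ o') = setOf 8536078 := by
    rw [Finset.smul_finset_sdiff, hwo, hwo']
    decide +kernel
  have hone : ∀ g ∈ MulAction.stabilizer M24 o ⊓ MulAction.stabilizer M24 o',
      (∀ p ∈ o \ o', ((g : M24) : Equiv.Perm GolayPt) p = p) → g = 1 := by
    intro g hg hfix
    have h1 := (hmem g).mp hg
    have h2 := (fix_conj_iff hwC).mpr hfix
    have h3 : w * (g : Equiv.Perm GolayPt) * w⁻¹ ∈
        GInv [2 ^ 17, 2 ^ 14, 2 ^ 3, 2 ^ 2, 2 ^ 1, 15777, 8536111] := by
      refine ⟨h1.1, ?_⟩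
      have hp : ptsL 8536078 = [2 ^ 1, 2 ^ 2, 2 ^ 3, 2 ^ 14, 2 ^ 17, 2 ^ 23] := by decide +kernel
      rw [hp] at h2
      intro m hm
      simp only [List.mem_cons, List.not_mem_nil, or_false] at hm
      rcases hm with rfl | rfl | rfl | rfl | rfl | rfl | rfl
      · exact h2 _ (by simp)
      · exact h2 _ (by simp)
      · exact h2 _ (by simp)
      · exact h2 _ (by simp)
      · exact h2 _ (by simp)
      · exact h1.2 _ (by simp)
      · exact h1.2 _ (by simp)
    have h4 : w * (g : Equiv.Perm GolayPt) * w⁻¹ = 1 := by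
      have hsub := (Nat.card_eq_one_iff_unique.mp card_s6_bot).1
      have := hsub.elim (⟨_, h3⟩ : GInv [2 ^ 17, 2 ^ 14, 2 ^ 3, 2 ^ 2, 2 ^ 1, 15777, 8536111]) 1
      exact congrArg Subtype.val this
    apply Subtype.ext
    have : (g : Equiv.Perm GolayPt) = w⁻¹ * (w * (g : Equiv.Perm GolayPt) * w⁻¹) * w := by group
    rw [this, h4]; group; rfl
  apply nonempty_sym6 _ (o \ o') hc6 hst
  apply (restrictHom_injective _ _ hst hone).bijective_of_nat_card_le
  rw [hcard, Nat.card_eq_fintype_card, Fintype.card_perm, Fintype.card_coe, hc6]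
  decide

end Cfsg.Agent.Lib.Helper8
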