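import Cfsg.Agent.Lib.Helper8.Trio15Data
import Cfsg.Agent.Lib.Helper8.FixCount
import Cfsg.Agent.Lib.Helper8.OctAlt
import Mathlib.GroupTheory.SpecificGroups.Alternating.Simple

set_option autoImplicit false

namespace Cfsg.Agent.Lib.Helper8

open Cfsg
open scoped Pointwise

abbrev f15 (k : ℕ) : Finset (Finset GolayPt) := famOf (objL 3 t15A k)

theorem t15_chk : allBelow 15 (fun k => isTrioL (objL 3 t15A k) &&
    (objL 3 t15A k).contains 8536111) = true := by decide +kernel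

theorem t15_all : allBelow 3795 (fun i => !((objL 3 trA i).contains 8536111) ||
    (List.range 15).any (fun k => eqvL (objL 3 trA i) (objL 3 t15A k))) = true := by
  decide +kernel

theorem t15_cnt : countBelow 3795 (fun i => (objL 3 trA i).contains 8536111) = 15 := by
  decide +kernel

theorem u15_chk : allBelow 15 (fun k => invTestF [8536111] (getR 120 u15A k) &&
    eqvL (actL (getR 120 u15A k) (objL 3 t15A 0)) (objL 3 t15A k)) = true := by decide +kernel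

theorem v15_chk : allBelow 15 (fun k => Nat.beq k 0 || (invTestF [8536111] (getR 120 v15A k) &&
    famTest (objL 3 t15A 0) (getR 120 v15A k) &&
    eqvL (actL (getR 120 v15A k) (objL 3 t15A 1)) (objL 3 t15A k))) = true := by decide +kernel

theorem e16_chk : allBelow 16 (fun i => allBelow 15 (fun k =>
    famTest (objL 3 t15A k) (getR 120 o16A i))) = true := by decide +kernel

theorem O0_mem_famOf_iff {l : List ℕ} (hl : sortedL l = true) :
    l.contains 8536111 = true ↔ setOf 8536111 ∈ famOf l := by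
  rw [List.contains_iff_mem, mem_famOf]
  constructor
  · intro h
    exact ⟨_, h, rfl⟩
  · rintro ⟨a, ha, e⟩
    rw [setOf_inj ((sortedL_spec hl).2 a ha) (by norm_num)] at e
    rw [← e]; exact ha

theorem f15_mem : ∀ k < 15, f15 k ∈ trios ∧ setOf 8536111 ∈ f15 k := by
  intro k hk
  have h := of_allBelow t15_chk k hk
  rw [Bool.and_eq_true] at h
  have h1 := isTrioL_sound _ h.1
  exact ⟨h1.2, (O0_mem_famOf_iff h1.1).mp h.2⟩

theorem f15_surj : ∀ T ∈ trios, setOf 8536111 ∈ T → ∃ k < 15, f15 k = T := by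
  intro T hT hO
  obtain ⟨i, hi, rfl⟩ := tr_hsurj T hT
  have hs := (isTrioL_sound _ (of_allBelow tr_chk i hi)).1
  have h := of_allBelow t15_all i hi
  rw [(O0_mem_famOf_iff hs).mpr hO] at h
  simp only [Bool.not_true, Bool.false_or, List.any_eq_true, List.mem_range] at h
  obtain ⟨k, hk, e⟩ := h
  exact ⟨k, hk, (famOf_eq_of_eqvL e).symm⟩

theorem std_cnt15 : {T : Finset (Finset GolayPt) | T ∈ trios ∧ setOf 8536111 ∈ T}.ncard = 15 := by
  rw [← t15_cnt]
  exact ncard_enum_filter trios (fun i => famOf (objL 3 trA i)) 3795 tr_hmem tr_hsurj tr_hinj _ _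
    (fun i hi => O0_mem_famOf_iff (isTrioL_sound _ (of_allBelow tr_chk i hi)).1)

theorem u15_spec : ∀ k < 15, ∃ u ∈ M24, u • setOf 8536111 = setOf 8536111 ∧ u • f15 0 = f15 k := by
  intro k hk
  have h := of_allBelow u15_chk k hk
  rw [Bool.and_eq_true, invTestF_eq] at h
  obtain ⟨hv, hU⟩ := toPerm_mem_GInv h.1
  refine ⟨_, hU.1, hU.2 _ (by simp), ?_⟩
  rw [← famOf_actL hv]
  exact famOf_eq_of_eqvL h.2

theorem v15_spec : ∀ k < 15, k ≠ 0 → ∃ u ∈ M24, u • setOf 8536111 = setOf 8536111 ∧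
    u • f15 0 = f15 0 ∧ u • f15 1 = f15 k := by
  intro k hk hk0
  have h := of_allBelow v15_chk k hk
  have hb : Nat.beq k 0 = false := by
    rw [← Bool.not_eq_true, Nat.beq_eq]; exact hk0
  rw [hb] at h
  simp only [Bool.false_or, Bool.and_eq_true, invTestF_eq] at h
  obtain ⟨⟨h1, h2⟩, h3⟩ := h
  obtain ⟨hv, hU⟩ := toPerm_mem_GInv h1
  refine ⟨_, hU.1, hU.2 _ (by simp), famTest_sound _ _ hv h2, ?_⟩
  rw [← famOf_actL hv]
  exact famOf_eq_of_eqvL h3

/-- an ordered pair of trios through the base octad is the image of the base pair -/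
theorem std_pair (T₁ T₂ : Finset (Finset GolayPt)) (h₁ : T₁ ∈ trios) (h₂ : T₂ ∈ trios)
    (o₁ : setOf 8536111 ∈ T₁) (o₂ : setOf 8536111 ∈ T₂) (hne : T₁ ≠ T₂) :
    ∃ h ∈ M24, h • setOf 8536111 = setOf 8536111 ∧ h • f15 0 = T₁ ∧ h • f15 1 = T₂ := by
  obtain ⟨k, hk, rfl⟩ := f15_surj T₁ h₁ o₁
  obtain ⟨u, hu, huO, hu0⟩ := u15_spec k hk
  have huO' : u⁻¹ • setOf 8536111 = setOf 8536111 := by rw [inv_smul_eq_iff, huO]
  have h3 : u⁻¹ • T₂ ∈ trios := smul_mem_trios (M24.inv_mem hu) h₂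
  have h4 : setOf 8536111 ∈ u⁻¹ • T₂ := by
    rw [← huO']; exact Finset.smul_mem_smul_finset o₂
  obtain ⟨m, hm, hmT⟩ := f15_surj _ h3 h4
  have hm0 : m ≠ 0 := by
    rintro rfl
    apply hne
    rw [← hu0, hmT, smul_inv_smul]
  obtain ⟨v, hv, hvO, hv0, hv1⟩ := v15_spec m hm hm0
  refine ⟨u * v, M24.mul_mem hu hv, ?_, ?_, ?_⟩
  · rw [mul_smul, hvO, huO]
  · rw [mul_smul, hv0, hu0]
  · rw [mul_smul, hv1, hmT, smul_inv_smul]

theorem std_ker : ∀ g ∈ GInv L8, ∀ T ∈ trios, setOf 8536111 ∈ T → g • T = T := by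
  have h := forall_of_list card_L8 o16_mem o16_inc (fun g => ∀ k < 15, g • f15 k = f15 k)
    (fun T => allBelow 15 (fun k => famTest (objL 3 t15A k) T))
    (fun T hT hp k hk => famTest_sound _ _ hT (of_allBelow hp k hk)) e16_chk
  intro g hg T hT hO
  obtain ⟨k, hk, rfl⟩ := f15_surj T hT hO
  exact h g hg k hk

theorem trio15_main (o : Finset GolayPt) (ho : o ∈ octads) :
    {T : Finset (Finset GolayPt) | T ∈ trios ∧ o ∈ T}.ncard = 15 ∧
    (∀ T₁ T₂ T₁' T₂' : Finset (Finset GolayPt), T₁ ∈ trios → T₂ ∈ trios → T₁' ∈ trios →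
      T₂' ∈ trios → o ∈ T₁ → o ∈ T₂ → o ∈ T₁' → o ∈ T₂' → T₁ ≠ T₂ → T₁' ≠ T₂' →
      ∃ g ∈ M24, g • o = o ∧ g • T₁ = T₁' ∧ g • T₂ = T₂') ∧
    ∀ g ∈ M24, g • o = o → ((∀ T ∈ trios, o ∈ T → g • T = T) ↔ ∀ p ∈ o, g p = p) := by
  obtain ⟨w, hw, hwo⟩ := norm_O ho
  have hmemO : ∀ T : Finset (Finset GolayPt), setOf 8536111 ∈ w • T ↔ o ∈ T := by
    intro T
    rw [← hwo, Finset.smul_mem_smul_finset_iff]
  have hcnt : {T : Finset (Finset GolayPt) | T ∈ trios ∧ o ∈ T}.ncard = 15 := by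
    rw [← std_cnt15, ← ncard_smul_pred w (fun T : Finset (Finset GolayPt) =>
      T ∈ trios ∧ setOf 8536111 ∈ T)]
    congr 1
    ext T
    simp only [Set.mem_ofPred_eq]
    rw [smul_mem_trios_iff hw, hmemO]
  have htrans : ∀ T₁ T₂ T₁' T₂' : Finset (Finset GolayPt), T₁ ∈ trios → T₂ ∈ trios → T₁' ∈ trios →
      T₂' ∈ trios → o ∈ T₁ → o ∈ T₂ → o ∈ T₁' → o ∈ T₂' → T₁ ≠ T₂ → T₁' ≠ T₂' →
      ∃ g ∈ M24, g • o = o ∧ g • T₁ = T₁' ∧ g • T₂ = T₂' := by
    intro T₁ T₂ T₁' T₂' a1 a2 a3 a4 b1 b2 b3 b4 hne hne'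
    obtain ⟨h, hh, hO, e1, e2⟩ := std_pair (w • T₁) (w • T₂) (smul_mem_trios hw a1)
      (smul_mem_trios hw a2) ((hmemO _).mpr b1) ((hmemO _).mpr b2)
      (fun e => hne (smul_left_cancel w e))
    obtain ⟨h', hh', hO', e1', e2'⟩ := std_pair (w • T₁') (w • T₂') (smul_mem_trios hw a3)
      (smul_mem_trios hw a4) ((hmemO _).mpr b3) ((hmemO _).mpr b4)
      (fun e => hne' (smul_left_cancel w e))
    refine ⟨w⁻¹ * (h' * h⁻¹) * w, M24.mul_mem (M24.mul_mem (M24.inv_mem hw)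
      (M24.mul_mem hh' (M24.inv_mem hh))) hw, ?_, ?_, ?_⟩
    · rw [mul_smul, mul_smul, mul_smul, hwo, inv_smul_eq_iff.mpr hO.symm, hO', inv_smul_eq_iff, hwo]
    · rw [mul_smul, mul_smul, mul_smul, ← e1, inv_smul_smul, e1', inv_smul_smul]
    · rw [mul_smul, mul_smul, mul_smul, ← e2, inv_smul_smul, e2', inv_smul_smul]
  -- pointwise stabiliser acts trivially
  have hker : ∀ g ∈ M24, (∀ p ∈ o, g p = p) → ∀ T ∈ trios, o ∈ T → g • T = T := by
    intro g hg hfix T hT hoT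
    have h1 : w * g * w⁻¹ ∈ GInv L8 := by
      rw [mem_GInv_conj hw, show L8 = ptsL 8536111 from ptsL_O0.symm, fix_conj_iff hwo]
      exact ⟨hg, hfix⟩
    have h2 := std_ker _ h1 (w • T) (smul_mem_trios hw hT) ((hmemO T).mpr hoT)
    rw [mul_smul, mul_smul, inv_smul_smul] at h2
    exact smul_left_cancel w h2
  refine ⟨hcnt, htrans, ?_⟩
  intro g hg hgo
  refine ⟨?_, hker g hg⟩
  intro hall
  -- the kernel of the action on the trios
  let K : Subgroup ↥(MulAction.stabilizer M24 o) :=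
    { carrier := {x | ∀ T ∈ trios, o ∈ T → ((x : M24) : Equiv.Perm GolayPt) • T = T}
      one_mem' := fun T _ _ => one_smul _ T
      mul_mem' := by
        intro a b ha hb T hT hoT
        show (((a : M24) : Equiv.Perm GolayPt) * ((b : M24) : Equiv.Perm GolayPt)) • T = T
        rw [mul_smul, hb T hT hoT, ha T hT hoT]
      inv_mem' := by
        intro a ha T hT hoT
        show ((a : M24) : Equiv.Perm GolayPt)⁻¹ • T = T
        rw [inv_smul_eq_iff, ha T hT hoT] }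
  have hKn : K.Normal := by
    refine ⟨fun n hn h T hT hoT => ?_⟩
    show (((h : M24) : Equiv.Perm GolayPt) * ((n : M24) : Equiv.Perm GolayPt) *
      ((h : M24) : Equiv.Perm GolayPt)⁻¹) • T = T
    have hho : ((h : M24) : Equiv.Perm GolayPt)⁻¹ • o = o := by
      rw [inv_smul_eq_iff]; exact (stab_oct_smul h h.2).symm
    have h1 : ((h : M24) : Equiv.Perm GolayPt)⁻¹ • T ∈ trios :=
      smul_mem_trios (M24.inv_mem (h : M24).2) hT
    have h2 : o ∈ ((h : M24) : Equiv.Perm GolayPt)⁻¹ • T := by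
      have := Finset.smul_mem_smul_finset (a := ((h : M24) : Equiv.Perm GolayPt)⁻¹) hoT
      rwa [hho] at this
    rw [mul_smul, mul_smul, hn _ h1 h2, smul_inv_smul]
  set φ := restrictHom (MulAction.stabilizer M24 o) o stab_oct_smul with hφ
  have hmem : ∀ a, φ a ∈ alternatingGroup ↥o := by
    intro a
    rw [← range_oct ho]
    exact ⟨a, rfl⟩
  let ψ : ↥(MulAction.stabilizer M24 o) →* alternatingGroup ↥o := φ.codRestrict _ hmem
  have hψs : Function.Surjective ψ := by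
    rintro ⟨σ, hσ⟩
    rw [← range_oct ho] at hσ
    obtain ⟨a, rfl⟩ := hσ
    exact ⟨a, rfl⟩
  have hψ1 : ∀ a, ψ a = 1 → ∀ p ∈ o, ((a : M24) : Equiv.Perm GolayPt) p = p := by
    intro a ha p hp
    have h1 : φ a = 1 := congrArg Subtype.val ha
    have := congrArg (fun σ : Equiv.Perm {x // x ∈ o} => ((σ ⟨p, hp⟩ : {x // x ∈ o}) : GolayPt)) h1
    exact this
  have hsimple : IsSimpleGroup (alternatingGroup ↥o) := by
    apply alternatingGroup.isSimpleGroup
    rw [Nat.card_eq_fintype_card, Fintype.card_coe, ho.2]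
    norm_num
  have hgK : (⟨⟨g, hg⟩, hgo⟩ : ↥(MulAction.stabilizer M24 o)) ∈ K := hall
  rcases (hKn.map ψ hψs).eq_bot_or_eq_top with hbot | htop
  · have h1 : ψ ⟨⟨g, hg⟩, hgo⟩ ∈ K.map ψ := Subgroup.mem_map_of_mem ψ hgK
    rw [hbot, Subgroup.mem_bot] at h1
    exact hψ1 _ h1
  · exfalso
    have hallK : ∀ h : ↥(MulAction.stabilizer M24 o), h ∈ K := by
      intro h
      have h1 : ψ h ∈ K.map ψ := by rw [htop]; trivial
      obtain ⟨k, hk, hkh⟩ := h1
      have h2 : ψ (k⁻¹ * h) = 1 := by rw [map_mul, map_inv, hkh, inv_mul_cancel]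
      have h3 : k⁻¹ * h ∈ K := fun T hT hoT =>
        hker _ ((k⁻¹ * h : ↥(MulAction.stabilizer M24 o)) : M24).2 (hψ1 _ h2) T hT hoT
      have : h = k * (k⁻¹ * h) := by group
      rw [this]
      exact K.mul_mem hk h3
    obtain ⟨T₁, T₂, ⟨a1, b1⟩, ⟨a2, b2⟩, hne⟩ :=
      (Set.one_lt_ncard_iff (Set.toFinite _)).mp (by rw [hcnt]; norm_num :
        1 < {T : Finset (Finset GolayPt) | T ∈ trios ∧ o ∈ T}.ncard)
    obtain ⟨x, hx, hxo, e1, -⟩ := htrans T₁ T₂ T₂ T₁ a1 a2 a2 a1 b1 b2 b2 b1 hne hne.symm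
    exact hne ((hallK ⟨⟨x, hx⟩, hxo⟩ T₁ a1 b1).symm.trans e1)

end Cfsg.Agent.Lib.Helper8
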