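import Cfsg.Agent.Lib.Helper8.Pair

set_option autoImplicit false

namespace Cfsg.Agent.Lib.Helper8

def t15A : ℕ := 6590759855564302502900471707953210423619048623377666330545670462488885776725916905595859502155699441533497358389600051474148546499321442632211909855453924098253176653144999207531119761665302897624555515272616667546208782914533933153407053574156887053581899724959448663607204112577896182546490343167039557882564538805040523200
def u15A : ℕ := 52510168319876854264780626439831132936151995235940514183969270950504322863445976042036103058817995824943288296268154869149794676209117333458715057450892867033614518182477332315014623076891201149756453750677486605806871991423472108499756116178382154146896025966942982569883398328910656814008392331180188373477770421499794477604109533864675531662045452448963032528540886655484967377934564628851666887925465788535778503181450567812168017238116378400938012920358514367727342241668867135374152939482877581885281109061136033615713567070245494032416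
def v15A : ℕ := 32201159853428702812376245127207415297049632342047565578815412869908687701455822362412023624655604952080980731094242870384652222291414401197346664950216678403891424888091829017032787256208706371982249130537615697805992178450316850381249265228660700726489587122660790380519450897728325739011746824370765947477680693387528417655722221566220616858254620387462433509267817539174619221572259143769688755636210269843440150581018559125024986769690911811483793406093003764668709951857018837000355201320431231614801652407657374910690848966147833956384

end Cfsg.Agent.Lib.Helper8
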